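import Cfsg.Agent.SuzRank.UGroup
import Cfsg.Agent.SuzRank.CaseData
import Cfsg.Agent.SuzRank.LatData

/-!
The fifteen configurations of a subgroup of order 604800: only one survives, and it is the
stabiliser of a point of the suborbit of length 416.
-/

set_option autoImplicit false
set_option maxRecDepth 100000

namespace Cfsg.Agent.SuzRank

open Cfsg.Agent.CosetCert

/-- The generators of a case: six elements of the 2-group, the torus, and `n`. -/
noncomputable def cgen (c g : ℕ) : Equiv.Perm (Fin 1782) :=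
  if g < 6 then uel ((caseGens.getD c []).getD g 0) else nel (g + 6)

/-- Their tables. -/
noncomputable def cimg (c g x : ℕ) : ℕ :=
  cond (Nat.blt g 6) (uimg ((caseGens.getD c []).getD g 0) x) (nimg (g + 6) x)

/-- The parent table entry. -/
noncomputable def cpar (c x : ℕ) : ℕ := (casePars.getD c (.leaf 0)).get 16 x

/-- The depth in the spanning forest. -/
noncomputable def cdep (c x : ℕ) : ℕ := (caseDeps.getD c (.leaf 0)).get 8 x

/-- One step up in the forest. -/
noncomputable def cup (c x : ℕ) : ℕ := cond (Nat.beq (cpar c x) 0) x (cpar c x / 16)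

/-- The root of a point. -/
noncomputable def croot (c x : ℕ) : ℕ :=
  Nat.rec (motive := fun _ => ℕ) x (fun _ y => cup c y) 8

/-- The check at one point of the suborbit. -/
noncomputable def cstep (c x : ℕ) : Bool :=
  Nat.ble 1782 x || !(isQ x) ||
    cond (Nat.beq (cpar c x) 0)
      (Nat.beq (croot c x) x && (caseRoots.getD c []).any (fun r => Nat.beq r x))
      ((Nat.blt (cdep c (cpar c x / 16)) (cdep c x) && Nat.blt (cpar c x / 16) 1782) &&
        ((isQ (cpar c x / 16) && Nat.blt (cpar c x % 16 - 1) 9) &&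
          (Nat.beq (cimg c (cpar c x % 16 - 1) (cpar c x / 16)) x &&
            Nat.beq (croot c (cpar c x / 16)) (croot c x))))

theorem case_check : ∀ c : Fin 15, allB (cstep c) 11 0 = true := by decide +kernel

theorem case_shape : ∀ c : Fin 15, (caseGens.getD c []).length = 6 ∧
    (c = 3 ∨ c = 14 ∨ caseRoots.getD c [] = [47]) ∧
    (caseRoots.getD c []).all (fun r => Nat.blt r 1782) = true := by
  decide +kernel

theorem caseGens_mem : ∀ c : Fin 15, ∀ i ∈ caseGens.getD c [],
    i ∈ latS.getD (vIdx.getD c 0) [] := by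
  decide +kernel

theorem cgen_val (c g : ℕ) (hg : g < 9) (x : Fin 1782) : (cgen c g x : ℕ) = cimg c g x := by
  unfold cgen cimg
  by_cases h : g < 6
  · have hb : Nat.blt g 6 = true := Nat.ble_eq_true_of_le h
    rw [if_pos h, hb, cond_true, uel_val]
  · have hb : Nat.blt g 6 = false := Bool.eq_false_iff.2 fun hc => h (Nat.le_of_ble_eq_true hc)
    rw [if_neg h, hb, cond_false, nel_val (by omega)]

theorem cgen_mem_Gam (c g : ℕ) : cgen c g ∈ Gam := by
  unfold cgen
  split_ifs
  exacts [uel_mem _, nel_mem _]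

theorem nel_mem_T : nel 12 ∈ T ∧ nel 13 ∈ T :=
  ⟨⟨1, 0, by simp⟩, ⟨0, 1, by simp⟩⟩

theorem cgen_mem_of {c : Fin 15} {H : Subgroup (Equiv.Perm (Fin 1782))}
    (hV : ∀ i ∈ caseGens.getD c [], uel i ∈ H) (hT : T ≤ H) (hn : nel 14 ∈ H) :
    ∀ g < 9, cgen c g ∈ H := by
  intro g hg
  unfold cgen
  by_cases h : g < 6
  · rw [if_pos h]
    refine hV _ ?_
    rw [List.getD_eq_getElem (caseGens.getD (c : ℕ) []) 0 (lt_of_lt_of_eq h (case_shape c).1.symm)]
    exact List.getElem_mem _
  · rw [if_neg h]
    interval_cases g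
    exacts [hT nel_mem_T.1, hT nel_mem_T.2, hn]

/-- Every point of the suborbit is in the orbit of its root. -/
theorem mem_orbit_root (c : Fin 15) {H : Subgroup (Equiv.Perm (Fin 1782))}
    (hgen : ∀ g < 9, cgen c g ∈ H) (x : Fin 1782) (hx : isQ x = true) :
    ∃ r : Fin 1782, (r : ℕ) = croot c x ∧ (r : ℕ) ∈ caseRoots.getD c [] ∧
      x ∈ MulAction.orbit ↥H r := by
  induction hd : cdep c x using Nat.strong_induction_on generalizing x with
  | _ d ih =>
    have h := allB_spec_zero (case_check c) (by norm_num : 1782 ≤ 2 ^ 11) x.2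
    unfold cstep at h
    rw [Bool.or_eq_true, Bool.or_eq_true, hx] at h
    rcases h with (h | h) | h
    · exact absurd (Nat.le_of_ble_eq_true h) (not_le.2 x.2)
    · simp at h
    cases hp : Nat.beq (cpar c x) 0
    · rw [hp, cond_false, Bool.and_eq_true, Bool.and_eq_true, Bool.and_eq_true, Bool.and_eq_true,
        Bool.and_eq_true] at h
      obtain ⟨⟨hlt, hy⟩, ⟨hq, hg⟩, himg, hr⟩ := h
      have hlt' : cdep c (cpar c x / 16) < d := hd ▸ (Nat.le_of_ble_eq_true hlt : _)
      obtain ⟨r, hr1, hr2, hr3⟩ := ih _ hlt' ⟨_, Nat.le_of_ble_eq_true hy⟩ hq rfl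
      refine ⟨r, hr1.trans (Nat.eq_of_beq_eq_true hr), hr2, ?_⟩
      have hg' : cpar c x % 16 - 1 < 9 := Nat.le_of_ble_eq_true hg
      obtain ⟨m, hm⟩ := MulAction.mem_orbit_iff.1 hr3
      refine MulAction.mem_orbit_iff.2 ⟨⟨_, hgen _ hg'⟩ * m, ?_⟩
      rw [mul_smul, hm]
      refine Fin.ext ?_
      show (cgen c _ _ : ℕ) = _
      rw [cgen_val _ _ hg']
      exact Nat.eq_of_beq_eq_true himg
    · rw [hp, cond_true, Bool.and_eq_true, List.any_eq_true] at h
      obtain ⟨hr, r, hrm, hrx⟩ := h
      exact ⟨x, (Nat.eq_of_beq_eq_true hr).symm, Nat.eq_of_beq_eq_true hrx ▸ hrm,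
        MulAction.mem_orbit_self _⟩

/-- The suborbit of length 416. -/
noncomputable def Qset : Finset (Fin 1782) := Finset.univ.filter fun x => isQ x = true

theorem mem_Qset {x : Fin 1782} : x ∈ Qset ↔ isQ x = true := by simp [Qset]

theorem card_Qset : Qset.card = 416 := by decide +kernel

theorem root_isQ : isQ 47 = true ∧ isQ 72 = true ∧ isQ 228 = true ∧ isQ 301 = true := by
  decide +kernel

theorem orbit_isQ {H : Subgroup (Equiv.Perm (Fin 1782))} (hH : H ≤ Gam) {a x : Fin 1782}
    (ha : isQ a = true) (hx : x ∈ MulAction.orbit ↥H a) : isQ x = true := by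
  obtain ⟨m, rfl⟩ := MulAction.mem_orbit_iff.1 hx
  rw [← ha]
  exact isQ_Gam (hH m.2) a

theorem orbit_dvd (H : Subgroup (Equiv.Perm (Fin 1782))) (a : Fin 1782) :
    (MulAction.orbit ↥H a).ncard ∣ Nat.card ↥H := by
  rw [← MulAction.index_stabilizer]
  exact Subgroup.index_dvd_card _

/-- The orbit of a point of the suborbit is the union of the classes of the roots inside it. -/
theorem orbit_eq_filter (c : Fin 15) {H : Subgroup (Equiv.Perm (Fin 1782))} (hH : H ≤ Gam)
    (hgen : ∀ g < 9, cgen c g ∈ H) {a : Fin 1782} (ha : isQ a = true) (p : ℕ → Bool)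
    (hp : ∀ r : Fin 1782, (r : ℕ) ∈ caseRoots.getD c [] →
      (p r = true ↔ r ∈ MulAction.orbit ↥H a)) :
    MulAction.orbit ↥H a =
      ↑(Finset.univ.filter fun x : Fin 1782 => isQ x = true ∧ p (croot c x) = true) := by
  ext x
  simp only [Finset.coe_filter, Finset.mem_univ, true_and, Set.mem_ofPred_eq]
  constructor
  · intro hx
    have hq := orbit_isQ hH ha hx
    obtain ⟨r, hr1, hr2, hr3⟩ := mem_orbit_root c hgen x hq
    refine ⟨hq, hr1 ▸ (hp r hr2).2 ?_⟩
    rw [← MulAction.orbit_eq_iff.2 hx, MulAction.orbit_eq_iff.2 hr3]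
    exact MulAction.mem_orbit_self _
  · rintro ⟨hq, hpx⟩
    obtain ⟨r, hr1, hr2, hr3⟩ := mem_orbit_root c hgen x hq
    rw [← MulAction.orbit_eq_iff.2 ((hp r hr2).1 (hr1.symm ▸ hpx))]
    exact hr3

/-- One orbit on the whole suborbit. -/
theorem trans_case {c : Fin 15} (hr : caseRoots.getD c [] = [47])
    {H : Subgroup (Equiv.Perm (Fin 1782))} (hH : H ≤ Gam) (hgen : ∀ g < 9, cgen c g ∈ H)
    {a : Fin 1782} (ha : isQ a = true) : MulAction.orbit ↥H a = ↑Qset := by
  have key : ∀ y : Fin 1782, isQ y = true → y ∈ MulAction.orbit ↥H (47 : Fin 1782) := by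
    intro y hy
    obtain ⟨r, -, hr2, hr3⟩ := mem_orbit_root c hgen y hy
    rw [hr] at hr2
    have e : r = (47 : Fin 1782) := Fin.ext (by simpa using hr2)
    rwa [← e]
  ext x
  rw [Finset.mem_coe, mem_Qset]
  refine ⟨orbit_isQ hH ha, fun hx => ?_⟩
  rw [MulAction.orbit_eq_iff.2 (key a ha)]
  exact key x hx

theorem Gam_orbit_Q {a : Fin 1782} (ha : isQ a = true) : MulAction.orbit ↥Gam a = ↑Qset :=
  trans_case (c := 0) rfl le_rfl (fun g _ => cgen_mem_Gam _ g) ha

theorem card_stab_Q (hcard : Nat.card ↥Gam = 251596800) {a : Fin 1782} (ha : isQ a = true) :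
    Nat.card ↥(Gam ⊓ MulAction.stabilizer (Equiv.Perm (Fin 1782)) a) = 604800 := by
  have h := Subgroup.index_mul_card (MulAction.stabilizer ↥Gam a)
  rw [MulAction.index_stabilizer, Gam_orbit_Q ha, Set.ncard_coe_finset, card_Qset, hcard] at h
  have e : Nat.card ↥(MulAction.stabilizer ↥Gam a) =
      Nat.card ↥(Gam ⊓ MulAction.stabilizer (Equiv.Perm (Fin 1782)) a) :=
    Nat.card_congr
      { toFun := fun g => ⟨g.1.1, g.1.2, g.2⟩
        invFun := fun g => ⟨⟨g.1, g.2.1⟩, g.2.2⟩
        left_inv := fun _ => rfl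
        right_inv := fun _ => rfl }
  rw [e] at h
  omega

/-! ### The exceptional case with orbits of lengths 360 and 56 -/

/-- Image of a point under a word in the six generators. -/
noncomputable def w56 (w : List ℕ) (x : ℕ) : ℕ :=
  w.foldr (fun l y => (xTs.getD l (.leaf 0)).get 16 y) x

/-- The image of the orbit of length 56 as a bit set. -/
noncomputable def bits56 (w : List ℕ) : ℕ :=
  fiftySix.foldr (fun x acc => acc ||| 1 <<< w56 w x) 0

/-- Strictly increasing, above `p`. -/
def ascB : ℕ → List ℕ → Bool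
  | _, [] => true
  | p, a :: l => Nat.blt p a && ascB a l

theorem ascB_spec : ∀ {l : List ℕ} {p : ℕ}, ascB p l = true →
    (∀ a ∈ l, p < a) ∧ l.Nodup
  | [], _, _ => by simp
  | a :: l, p, h => by
    rw [ascB, Bool.and_eq_true] at h
    have ha : p < a := Nat.le_of_ble_eq_true h.1
    obtain ⟨h1, h2⟩ := ascB_spec h.2
    refine ⟨?_, List.nodup_cons.2 ⟨fun hm => lt_irrefl a (h1 a hm), h2⟩⟩
    intro b hb
    rcases List.mem_cons.1 hb with rfl | hb
    exacts [ha, ha.trans (h1 b hb)]

theorem img_check : imgWords.all (fun w => w.all fun l => Nat.blt l 6) = true ∧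
    imgWords.length = 417 ∧ ascB 0 (imgWords.map bits56) = true := by
  decide +kernel

theorem fiftySix_check : allB (fun x => Nat.ble 1782 x ||
      (fiftySix.any (fun y => Nat.beq y x) == (isQ x && Nat.beq (croot 3 x) 228))) 11 0 = true ∧
    fiftySix.all (fun x => Nat.blt x 1782) = true := by
  decide +kernel

theorem w56_val {w : List ℕ} (hw : w.all (fun l => Nat.blt l 6) = true) (x : Fin 1782) :
    ((w.map xel).prod x : ℕ) = w56 w x := by
  induction w with
  | nil => rfl
  | cons l w ih =>
    rw [List.all_cons, Bool.and_eq_true] at hw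
    rw [List.map_cons, List.prod_cons, Equiv.Perm.mul_apply, tab_gen l (Nat.le_of_ble_eq_true hw.1),
      ih hw.2]
    rfl

theorem xel_prod_mem (w : List ℕ) : (w.map xel).prod ∈ Gam := by
  refine list_prod_mem fun g hg => ?_
  obtain ⟨l, -, rfl⟩ := List.mem_map.1 hg
  unfold xel
  split_ifs
  exacts [lw_mem _, lw_mem _]

theorem testBit_bits56 (w : List ℕ) (y : ℕ) :
    (bits56 w).testBit y = true ↔ ∃ x ∈ fiftySix, w56 w x = y := by
  unfold bits56
  generalize fiftySix = l
  induction l with
  | nil => simp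
  | cons a l ih =>
    rw [List.foldr_cons, Nat.testBit_or, Bool.or_eq_true, ih, Nat.shiftLeft_eq, one_mul,
      Nat.testBit_two_pow, decide_eq_true_eq]
    simp only [List.mem_cons, exists_eq_or_imp]
    exact or_comm

theorem no_case3 (hcard : Nat.card ↥Gam = 251596800) {H : Subgroup (Equiv.Perm (Fin 1782))}
    (hH : H ≤ Gam) (hc : Nat.card ↥H = 604800)
    (hgen : ∀ g < 9, cgen (3 : Fin 15) g ∈ H) : False := by
  classical
  have hroots : caseRoots.getD ((3 : Fin 15) : ℕ) [] = [47, 228] := rfl
  by_cases h47 : (47 : Fin 1782) ∈ MulAction.orbit ↥H (228 : Fin 1782)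
  · have he := orbit_eq_filter 3 hH hgen (a := (228 : Fin 1782)) root_isQ.2.2.1 (fun _ => true)
      (fun r hr => by
        refine iff_of_true rfl ?_
        rw [hroots] at hr
        simp only [List.mem_cons, List.not_mem_nil, or_false] at hr
        rcases hr with hr | hr
        · rwa [show r = (47 : Fin 1782) from Fin.ext hr]
        · rw [show r = (228 : Fin 1782) from Fin.ext hr]
          exact MulAction.mem_orbit_self _)
    have hd := orbit_dvd H (228 : Fin 1782)
    rw [he, Set.ncard_coe_finset, hc] at hd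
    have : (Finset.univ.filter fun x : Fin 1782 => isQ x = true ∧ true = true) = Qset := by
      simp [Qset]
    rw [this, card_Qset] at hd
    norm_num at hd
  · have he := orbit_eq_filter 3 hH hgen (a := (228 : Fin 1782)) root_isQ.2.2.1
      (fun r => Nat.beq r 228) (fun r hr => by
        rw [hroots] at hr
        simp only [List.mem_cons, List.not_mem_nil, or_false] at hr
        rcases hr with hr | hr
        · rw [show r = (47 : Fin 1782) from Fin.ext hr]
          exact iff_of_false (by decide) h47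
        · rw [show r = (228 : Fin 1782) from Fin.ext hr]
          exact iff_of_true rfl (MulAction.mem_orbit_self _))
    have hF : ∀ x : Fin 1782,
        x ∈ MulAction.orbit ↥H (228 : Fin 1782) ↔ (x : ℕ) ∈ fiftySix := by
      intro x
      have h := allB_spec_zero fiftySix_check.1 (by norm_num : 1782 ≤ 2 ^ 11) x.2
      rw [Bool.or_eq_true] at h
      have h' := eq_of_beq (h.resolve_left fun hx => absurd (Nat.le_of_ble_eq_true hx) (not_le.2 x.2))
      rw [he, Finset.mem_coe, Finset.mem_filter]
      simp only [Finset.mem_univ, true_and]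
      rw [← Bool.and_eq_true, show ((3 : Fin 15) : ℕ) = 3 from rfl, ← h', List.any_eq_true]
      exact ⟨fun ⟨y, hy, hyx⟩ => Nat.eq_of_beq_eq_true hyx ▸ hy, fun hx => ⟨_, hx, Nat.beq_refl _⟩⟩
    set φ : Fin 417 → ↥Gam ⧸ H.subgroupOf Gam := fun i =>
      QuotientGroup.mk (⟨((imgWords.getD i []).map xel).prod, xel_prod_mem _⟩ : ↥Gam) with hφ
    have hinj : Function.Injective φ := by
      intro i j hij
      rw [hφ] at hij
      have hm := QuotientGroup.eq.1 hij
      rw [Subgroup.mem_subgroupOf] at hm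
      have hlen := img_check.2.1
      have hw : ∀ k : Fin 417, (imgWords.getD k []).all (fun l => Nat.blt l 6) = true := fun k => by
        rw [List.getD_eq_getElem _ _ (hlen.symm ▸ k.2)]
        exact List.all_eq_true.1 img_check.1 _ (List.getElem_mem _)
      have step : ∀ u v : Fin 417,
          ((imgWords.getD u []).map xel).prod⁻¹ * ((imgWords.getD v []).map xel).prod ∈ H →
          ∀ y, (bits56 (imgWords.getD v [])).testBit y = true →
            (bits56 (imgWords.getD u [])).testBit y = true := by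
        intro u v huv y hy
        obtain ⟨x, hx, rfl⟩ := (testBit_bits56 _ _).1 hy
        have hxlt : x < 1782 := Nat.le_of_ble_eq_true (List.all_eq_true.1 fiftySix_check.2 x hx)
        set k : ↥H := ⟨_, huv⟩ with hk
        have hmem : k • (⟨x, hxlt⟩ : Fin 1782) ∈ MulAction.orbit ↥H (228 : Fin 1782) :=
          MulAction.mem_orbit_of_mem_orbit k ((hF _).2 hx)
        refine (testBit_bits56 _ _).2 ⟨_, (hF _).1 hmem, ?_⟩
        rw [← w56_val (hw u), ← w56_val (hw v) ⟨x, hxlt⟩]
        show (((imgWords.getD u []).map xel).prod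
          ((((imgWords.getD u []).map xel).prod⁻¹ * ((imgWords.getD v []).map xel).prod)
            ⟨x, hxlt⟩) : ℕ) = _
        rw [← Equiv.Perm.mul_apply, mul_inv_cancel_left]
      have hm' : ((imgWords.getD j []).map xel).prod⁻¹ * ((imgWords.getD i []).map xel).prod ∈ H := by
        have := inv_mem hm
        simpa [mul_inv_rev] using this
      have heq : bits56 (imgWords.getD i []) = bits56 (imgWords.getD j []) :=
        Nat.eq_of_testBit_eq fun y => Bool.eq_iff_iff.2
          ⟨step j i hm' y, step i j (by simpa using hm) y⟩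
      have hnd := (ascB_spec img_check.2.2).2
      have hi : (i : ℕ) < (imgWords.map bits56).length := by rw [List.length_map, hlen]; exact i.2
      have hj : (j : ℕ) < (imgWords.map bits56).length := by rw [List.length_map, hlen]; exact j.2
      refine Fin.ext ((hnd.getElem_inj_iff (hi := hi) (hj := hj)).1 ?_)
      rw [List.getElem_map, List.getElem_map, ← List.getD_eq_getElem _ [] , ← List.getD_eq_getElem _ []]
      exact heq
    have h1 := Nat.card_le_card_of_injective φ hinj
    have h2 := Subgroup.index_mul_card (H.subgroupOf Gam)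
    rw [Nat.card_congr (Subgroup.subgroupOfEquivOfLe hH).toEquiv, hc, hcard, Subgroup.index] at h2
    rw [Nat.card_fin] at h1
    omega

/-! ### The surviving case -/

theorem class_cards : ∀ a b e : Bool, (Finset.univ.filter fun x : Fin 1782 => isQ x = true ∧
      ((a && Nat.beq (croot 14 x) 47) || ((b && Nat.beq (croot 14 x) 72) ||
        (e && Nat.beq (croot 14 x) 301))) = true).card =
      cond a 315 0 + (cond b 100 0 + cond e 1 0) := by
  decide +kernel

theorem orbit_case14 {H : Subgroup (Equiv.Perm (Fin 1782))} (hH : H ≤ Gam)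
    (hgen : ∀ g < 9, cgen (14 : Fin 15) g ∈ H) {a : Fin 1782} (ha : isQ a = true)
    [DecidablePred (· ∈ MulAction.orbit ↥H a)] :
    (MulAction.orbit ↥H a).ncard =
      cond (decide ((47 : Fin 1782) ∈ MulAction.orbit ↥H a)) 315 0 +
      (cond (decide ((72 : Fin 1782) ∈ MulAction.orbit ↥H a)) 100 0 +
      cond (decide ((301 : Fin 1782) ∈ MulAction.orbit ↥H a)) 1 0) := by
  rw [← class_cards]
  conv_lhs => rw [orbit_eq_filter 14 hH hgen ha
    (fun r => (decide ((47 : Fin 1782) ∈ MulAction.orbit ↥H a) && Nat.beq r 47) ||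
      ((decide ((72 : Fin 1782) ∈ MulAction.orbit ↥H a) && Nat.beq r 72) ||
        (decide ((301 : Fin 1782) ∈ MulAction.orbit ↥H a) && Nat.beq r 301)))
    (fun r hr => by
      rw [show caseRoots.getD ((14 : Fin 15) : ℕ) [] = [47, 72, 301] from rfl] at hr
      simp only [List.mem_cons, List.not_mem_nil, or_false] at hr
      rcases hr with hr | hr | hr
      · rw [show r = (47 : Fin 1782) from Fin.ext hr]; simp [show Nat.beq 47 72 = false from rfl,
          show Nat.beq 47 301 = false from rfl]
      · rw [show r = (72 : Fin 1782) from Fin.ext hr]; simp [show Nat.beq 72 47 = false from rfl,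
          show Nat.beq 72 301 = false from rfl]
      · rw [show r = (301 : Fin 1782) from Fin.ext hr]; simp [show Nat.beq 301 47 = false from rfl,
          show Nat.beq 301 72 = false from rfl])]
  rw [Set.ncard_coe_finset]
  rfl

theorem case14_eq (hcard : Nat.card ↥Gam = 251596800) {H : Subgroup (Equiv.Perm (Fin 1782))}
    (hH : H ≤ Gam) (hc : Nat.card ↥H = 604800)
    (hgen : ∀ g < 9, cgen (14 : Fin 15) g ∈ H) :
    H = Gam ⊓ MulAction.stabilizer (Equiv.Perm (Fin 1782)) (301 : Fin 1782) := by
  classical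
  have hd := orbit_dvd H (301 : Fin 1782)
  have h1 := orbit_case14 hH hgen (a := (301 : Fin 1782)) root_isQ.2.2.2
  rw [h1, hc, decide_eq_true (MulAction.mem_orbit_self (301 : Fin 1782))] at hd
  have hsz : (MulAction.orbit ↥H (301 : Fin 1782)).ncard = 1 := by
    rw [h1, decide_eq_true (MulAction.mem_orbit_self (301 : Fin 1782))]
    revert hd
    generalize decide ((47 : Fin 1782) ∈ MulAction.orbit ↥H (301 : Fin 1782)) = u
    generalize decide ((72 : Fin 1782) ∈ MulAction.orbit ↥H (301 : Fin 1782)) = v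
    cases u <;> cases v <;> norm_num
  obtain ⟨z, hz⟩ := Set.ncard_eq_one.1 hsz
  refine Subgroup.eq_of_le_of_card_ge (le_inf hH fun g hg => ?_) ?_
  · have h0 : (301 : Fin 1782) = z := by
      simpa [hz] using MulAction.mem_orbit_self (M := ↥H) (301 : Fin 1782)
    have h3 : g (301 : Fin 1782) ∈ MulAction.orbit ↥H (301 : Fin 1782) :=
      MulAction.mem_orbit_iff.2 ⟨⟨g, hg⟩, rfl⟩
    rw [hz, Set.mem_singleton_iff, ← h0] at h3
    exact h3
  · rw [hc, card_stab_Q hcard root_isQ.2.2.2]

theorem case14_fix : (List.range 9).all (fun g => Nat.beq (cimg 14 g 301) 301) = true := by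
  decide +kernel

theorem stab301_orbits (hcard : Nat.card ↥Gam = 251596800) :
    (MulAction.orbit ↥(Gam ⊓ MulAction.stabilizer (Equiv.Perm (Fin 1782)) (301 : Fin 1782))
      (47 : Fin 1782)).ncard = 315 ∧
    (MulAction.orbit ↥(Gam ⊓ MulAction.stabilizer (Equiv.Perm (Fin 1782)) (301 : Fin 1782))
      (72 : Fin 1782)).ncard = 100 := by
  classical
  set K := Gam ⊓ MulAction.stabilizer (Equiv.Perm (Fin 1782)) (301 : Fin 1782) with hK
  have hgen : ∀ g < 9, cgen (14 : Fin 15) g ∈ K := by
    intro g hg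
    refine Subgroup.mem_inf.2 ⟨cgen_mem_Gam _ g, MulAction.mem_stabilizer_iff.2 (Fin.ext ?_)⟩
    show (cgen _ g (301 : Fin 1782) : ℕ) = _
    rw [cgen_val _ _ hg]
    exact Nat.eq_of_beq_eq_true (List.all_eq_true.1 case14_fix g (List.mem_range.2 hg))
  have hcK : Nat.card ↥K = 604800 := card_stab_Q hcard root_isQ.2.2.2
  have hne : ∀ a : Fin 1782, a ≠ 301 → (301 : Fin 1782) ∉ MulAction.orbit ↥K a := by
    intro a ha hm
    obtain ⟨m, hm'⟩ := MulAction.mem_orbit_iff.1 hm
    have hfix : m⁻¹ • (301 : Fin 1782) = 301 := MulAction.mem_stabilizer_iff.1 (m⁻¹).2.2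
    exact ha (by rw [← inv_smul_smul m a, hm', hfix])
  have hd := orbit_dvd K
  constructor
  · have h := orbit_case14 inf_le_left hgen (a := (47 : Fin 1782)) root_isQ.1
    rw [decide_eq_true (MulAction.mem_orbit_self (47 : Fin 1782)),
      decide_eq_false (hne 47 (by decide))] at h
    specialize hd (47 : Fin 1782)
    rw [h, hcK] at hd
    rw [h]
    revert hd
    generalize decide ((72 : Fin 1782) ∈ MulAction.orbit ↥K (47 : Fin 1782)) = u
    cases u <;> norm_num
  · have h := orbit_case14 inf_le_left hgen (a := (72 : Fin 1782)) root_isQ.2.1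
    rw [decide_eq_true (MulAction.mem_orbit_self (72 : Fin 1782)),
      decide_eq_false (hne 72 (by decide))] at h
    specialize hd (72 : Fin 1782)
    rw [h, hcK] at hd
    rw [h]
    revert hd
    generalize decide ((47 : Fin 1782) ∈ MulAction.orbit ↥K (72 : Fin 1782)) = u
    cases u <;> norm_num

theorem case_unique (hcard : Nat.card ↥Gam = 251596800) (c : Fin 15)
    {H : Subgroup (Equiv.Perm (Fin 1782))} (hH : H ≤ Gam) (hc : Nat.card ↥H = 604800)
    (hV : ∀ i ∈ caseGens.getD c [], uel i ∈ H) (hT : T ≤ H) (hn : nel 14 ∈ H) :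
    ∃ g ∈ Gam, H.map (MulAut.conj g).toMonoidHom =
      Gam ⊓ MulAction.stabilizer (Equiv.Perm (Fin 1782)) (301 : Fin 1782) := by
  have hgen := cgen_mem_of hV hT hn
  rcases (case_shape c).2.1 with rfl | rfl | hr
  · exact (no_case3 hcard hH hc hgen).elim
  · refine ⟨1, one_mem _, ?_⟩
    rw [← case14_eq hcard hH hc hgen]
    ext x
    simp
  · exfalso
    have hd := orbit_dvd H (47 : Fin 1782)
    rw [trans_case hr hH hgen root_isQ.1, Set.ncard_coe_finset, card_Qset, hc] at hd
    norm_num at hd

end Cfsg.Agent.SuzRank
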