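import Cfsg.Agent.SuzRank.LatDefs

/-! Certificate checks for the subgroups normalised by the torus, layer 5. -/

set_option autoImplicit false
set_option maxRecDepth 100000
set_option maxHeartbeats 4000000

namespace Cfsg.Agent.SuzRank

theorem steps_5a : stepsOK 5 0 5 = true := by decide +kernel

theorem steps_5b : stepsOK 5 5 5 = true := by decide +kernel

theorem steps_5c : stepsOK 5 10 7 = true := by decide +kernel

theorem steps_5d : stepsOK 5 17 6 = true := by decide +kernel

end Cfsg.Agent.SuzRank
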