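import Cfsg.Agent.SuzRank.LatCheck0
import Cfsg.Agent.SuzRank.LatCheck1
import Cfsg.Agent.SuzRank.LatCheck2

/-!
The subgroups of order at most 64 of the Sylow 2-subgroup that are normalised by the torus: there
is none of order 32, and those of order 64 are listed in `LatData`.
-/

set_option autoImplicit false
set_option maxRecDepth 100000

namespace Cfsg.Agent.SuzRank

open Cfsg.Agent.CosetCert

section Kernel

theorem nthL_getD {α : Type} (d : α) : ∀ (l : List α) (n : ℕ), nthL d l n = l.getD n d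
  | [], _ => by simp [nthL]
  | x :: l, 0 => by simp [nthL]
  | x :: l, n + 1 => by
    rw [List.getD_cons_succ, ← nthL_getD d l n]
    rfl

theorem nthL_mem_or {α : Type} (d : α) : ∀ (l : List α) (n : ℕ), nthL d l n = d ∨ nthL d l n ∈ l
  | [], _ => Or.inl rfl
  | x :: l, 0 => Or.inr (List.mem_cons_self ..)
  | x :: l, n + 1 => (nthL_mem_or d l n).imp id (List.mem_cons_of_mem _)

theorem allL_spec {f : ℕ → Bool} : ∀ {l : List ℕ}, allL f l = true → ∀ x ∈ l, f x = true
  | [], _, x, hx => absurd hx (List.not_mem_nil)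
  | a :: l, h, x, hx => by
    have e : allL f (a :: l) = (f a && allL f l) := rfl
    rw [e, Bool.and_eq_true] at h
    rcases List.mem_cons.1 hx with rfl | hx
    · exact h.1
    · exact allL_spec h.2 x hx

theorem anyL_spec {f : ℕ → Bool} : ∀ {l : List ℕ}, anyL f l = true → ∃ x ∈ l, f x = true
  | [], h => absurd h (by simp [anyL])
  | a :: l, h => by
    have e : anyL f (a :: l) = (f a || anyL f l) := rfl
    rw [e, Bool.or_eq_true] at h
    rcases h with h | h
    · exact ⟨a, List.mem_cons_self .., h⟩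
    · obtain ⟨x, hx, hfx⟩ := anyL_spec h
      exact ⟨x, List.mem_cons_of_mem _ hx, hfx⟩

theorem natRec_all {f : ℕ → Bool} : ∀ {n : ℕ},
    (Nat.rec (motive := fun _ => Bool) true (fun j ih => f j && ih) n : Bool) = true →
      ∀ j < n, f j = true
  | 0, _, j, hj => absurd hj (by omega)
  | n + 1, h, j, hj => by
    have h' : (f n && (Nat.rec (motive := fun _ => Bool) true (fun j ih => f j && ih) n : Bool))
        = true := h
    rw [Bool.and_eq_true] at h'
    rcases Nat.lt_or_ge j n with hjn | hjn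
    · exact natRec_all h'.2 j hjn
    · rw [show j = n by omega]
      exact h'.1

theorem bitAt_eq (M z : ℕ) : bitAt M z = M.testBit z := by
  rw [Nat.testBit_eq_decide_div_mod_eq, Bool.eq_iff_iff, decide_eq_true_iff, ← Nat.shiftRight_eq_div_pow]
  exact ⟨Nat.eq_of_beq_eq_true, fun h => by
    show Nat.beq ((M >>> z) % 2) 1 = true
    rw [h]; rfl⟩

theorem maskOf_spec : ∀ (l : List ℕ) (z : ℕ), (maskOf l).testBit z = true ↔ z ∈ l
  | [], z => by simp [maskOf]
  | x :: l, z => by
    have e : maskOf (x :: l) = (1 <<< x) ||| maskOf l := rfl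
    rw [e, Nat.testBit_or, Bool.or_eq_true, maskOf_spec l z, List.mem_cons,
      Nat.shiftLeft_eq, one_mul, Nat.testBit_two_pow, decide_eq_true_iff]
    exact or_congr eq_comm Iff.rfl

theorem bitAt_latMask {a : ℕ} (ha : a < 56) (z : ℕ) :
    bitAt (nthL 0 latMask a) z = true ↔ z ∈ nthL [] latS a := by
  rw [bitAt_eq, ← Nat.eq_of_beq_eq_true (mask_checks a ha)]
  exact maskOf_spec _ z

theorem tab_spec {i : ℕ} (hi : i < 4096) :
    (∀ j < 12, rtG j i = rtN j i) ∧ invF i = invU i ∧ ∀ s < 2, cjF s i = cjN s i := by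
  have h := allB_spec_zero tab_checks (by norm_num : 4096 ≤ 2 ^ 12) hi
  rw [tabOK, Bool.and_eq_true, Bool.and_eq_true, Bool.and_eq_true] at h
  refine ⟨fun j hj => Nat.eq_of_beq_eq_true (natRec_all (f := fun j => Nat.beq (rtG j i) (rtN j i)) h.1.1 j hj),
    Nat.eq_of_beq_eq_true h.1.2, fun s hs => ?_⟩
  interval_cases s
  · exact Nat.eq_of_beq_eq_true h.2.1
  · exact Nat.eq_of_beq_eq_true h.2.2

theorem mulF_eq {a : ℕ} (b : ℕ) (ha : a < 4096) : mulF a b = mulU a b := by
  have key : ∀ n, n ≤ 12 → ∀ a, a < 4096 →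
      (Nat.rec (motive := fun _ => ℕ → ℕ) (fun a => a)
        (fun m ih a => ih (cond (bitAt b m) (rtG m a) a)) n : ℕ → ℕ) a = mulN n a b := by
    intro n hn
    induction n with
    | zero => exact fun a _ => rfl
    | succ n ih =>
      intro a ha
      show (Nat.rec (motive := fun _ => ℕ → ℕ) (fun a => a)
        (fun m ih a => ih (cond (bitAt b m) (rtG m a) a)) n : ℕ → ℕ)
          (cond (bitAt b n) (rtG n a) a) = mulN n (cond (b.testBit n) (rtN n a) a) b
      rw [bitAt_eq, (tab_spec ha).1 n (by omega)]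
      cases b.testBit n
      · exact ih (by omega) a ha
      · exact ih (by omega) _ (rt_spec ha (by omega)).1
  exact key 12 le_rfl a ha

theorem chkV_spec {k : ℕ} {S : List ℕ} {M : ℕ} {t : PTree} {u v : ℕ}
    (h : chkV k S M t u v = true) :
    (v % 4 = 0 → chk0 k S M u (Nat.div v 4) = true) ∧
      (v % 4 = 1 → chk1 k S M u (Nat.div v 4) = true) ∧
        (v % 4 = 2 → chk2 k S M u (Nat.div v 4) = true) ∧
          (v % 4 = 3 → chk3 k S t u (Nat.div v 4) = true) := by
  have e : Nat.mod v 4 = v % 4 := rfl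
  rw [chkV, e] at h
  refine ⟨fun hv => ?_, fun hv => ?_, fun hv => ?_, fun hv => ?_⟩ <;> rw [hv] at h <;> exact h

end Kernel

section Labels

theorem lsz_eq (k : ℕ) : lsz k = 4 ^ k := rfl

theorem pow_four (k : ℕ) : (4 : ℕ) ^ k = 2 ^ (2 * k) := by rw [pow_mul]; norm_num

theorem four_pow_le {k : ℕ} (hk : k < 6) : (4 : ℕ) ^ (k + 1) ≤ 4096 :=
  le_trans (Nat.pow_le_pow_right (by norm_num) (show k + 1 ≤ 6 by omega)) (by norm_num)

theorem lab_def (k i : ℕ) : lab k i = i >>> (2 * k) := rfl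

theorem lab_eq_div (k i : ℕ) : lab k i = i / 4 ^ k := by
  rw [lab_def, Nat.shiftRight_eq_div_pow, pow_four]

theorem lab_eq_zero {k i : ℕ} : lab k i = 0 ↔ i < 4 ^ k := by
  rw [lab_eq_div, Nat.div_eq_zero_iff_lt (by positivity)]

theorem lab_lt {k i : ℕ} (hi : i < 4 ^ (k + 1)) : lab k i < 4 := by
  rw [lab_eq_div, Nat.div_lt_iff_lt_mul (by positivity), mul_comm]
  rwa [pow_succ] at hi

theorem lab_step {k : ℕ} (hk : k < 6) {a : ℕ} (ha : a < 4 ^ (k + 1)) :
    invU a < 4 ^ (k + 1) ∧ ∀ j < 2 * (k + 1),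
      rtN j a < 4 ^ (k + 1) ∧ lab k (rtN j a) = lab k a ^^^ lab k (2 ^ j) := by
  have ha' : a < 4096 := lt_of_lt_of_le ha (four_pow_le hk)
  have h := allB_spec_zero (lab_checks k hk) (le_of_eq (pow_four (k + 1))) ha
  rw [Bool.and_eq_true] at h
  refine ⟨?_, fun j hj => ?_⟩
  · rw [← (tab_spec ha').2.1]
    exact Nat.le_of_ble_eq_true h.1
  · have hj' := natRec_all (f := fun j => Nat.blt (rtG j a) (lsz (Nat.succ k)) &&
      Nat.beq (lab k (rtG j a)) (Nat.xor (lab k a) (lab k (Nat.pow 2 j)))) h.2 j hj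
    rw [Bool.and_eq_true] at hj'
    rw [← (tab_spec ha').1 j (by omega)]
    exact ⟨Nat.le_of_ble_eq_true hj'.1, Nat.eq_of_beq_eq_true hj'.2⟩

theorem mul_lab {k : ℕ} (hk : k < 6) {a b : ℕ} (ha : a < 4 ^ (k + 1)) (hb : b < 4 ^ (k + 1)) :
    mulU a b < 4 ^ (k + 1) ∧ lab k (mulU a b) = lab k a ^^^ lab k b := by
  have key : ∀ n, n ≤ 12 → ∀ a, a < 4 ^ (k + 1) →
      mulN n a b < 4 ^ (k + 1) ∧ lab k (mulN n a b) = lab k a ^^^ lab k (b % 2 ^ n) := by
    intro n hn
    induction n with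
    | zero =>
      intro a ha
      exact ⟨ha, by simp [mulN, lab_def, Nat.mod_one]⟩
    | succ n ih =>
      intro a ha
      show mulN n (cond (b.testBit n) (rtN n a) a) b < 4 ^ (k + 1) ∧
        lab k (mulN n (cond (b.testBit n) (rtN n a) a) b) = _
      cases hbit : b.testBit n
      · have e : b % 2 ^ (n + 1) = b % 2 ^ n := by
          refine Nat.eq_of_testBit_eq fun i => ?_
          rw [Nat.testBit_mod_two_pow, Nat.testBit_mod_two_pow]
          rcases lt_trichotomy i n with h | h | h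
          · simp [h, show i < n + 1 by omega]
          · subst h; simp [hbit]
          · simp [show ¬i < n by omega, show ¬i < n + 1 by omega]
        rw [e]
        exact ih (by omega) a ha
      · have hn2 : n < 2 * (k + 1) := by
          by_contra hcon
          rw [Nat.testBit_lt_two_pow (lt_of_lt_of_le hb ((pow_four (k + 1)).le.trans
            (Nat.pow_le_pow_right (by norm_num) (by omega))))] at hbit
          exact Bool.false_ne_true hbit
        obtain ⟨h1, h2⟩ := (lab_step hk ha).2 n hn2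
        obtain ⟨h3, h4⟩ := ih (by omega) _ h1
        have e : b % 2 ^ (n + 1) = 2 ^ n ^^^ (b % 2 ^ n) := by
          refine Nat.eq_of_testBit_eq fun i => ?_
          rw [Nat.testBit_xor, Nat.testBit_mod_two_pow, Nat.testBit_mod_two_pow,
            Nat.testBit_two_pow]
          rcases lt_trichotomy i n with h | h | h
          · simp [h, show i < n + 1 by omega, show ¬n = i by omega]
          · subst h; simp [hbit]
          · simp [show ¬i < n by omega, show ¬i < n + 1 by omega, show ¬n = i by omega]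
        refine ⟨h3, ?_⟩
        simp only [cond_true]
        rw [h4, h2, e, lab_def k (2 ^ n ^^^ b % 2 ^ n), Nat.shiftRight_xor_distrib, ← lab_def,
          ← lab_def, Nat.xor_assoc]
  obtain ⟨h1, h2⟩ := key 12 le_rfl a ha
  refine ⟨h1, h2.trans ?_⟩
  rw [Nat.mod_eq_of_lt (lt_of_lt_of_le hb (le_trans (four_pow_le hk) (by norm_num)))]

theorem mulU_invU_self {b : ℕ} (hb : b < 4096) : mulU (invU b) b = 0 :=
  uel_inj (mulU_spec (invU_spec hb).1).1 (by norm_num)
    (by rw [(mulU_spec (invU_spec hb).1).2, (invU_spec hb).2, inv_mul_cancel, uel_zero])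

theorem same_lab {k : ℕ} (hk : k < 6) {v r : ℕ} (hv : v < 4 ^ (k + 1)) (hr : r < 4 ^ (k + 1))
    (h : lab k v = lab k r) : mulU v (invU r) < 4 ^ k := by
  have hi := (lab_step hk hr).1
  have h1 := (mul_lab hk hi hr).2
  rw [mulU_invU_self (lt_of_lt_of_le hr (four_pow_le hk))] at h1
  have h0 : lab k 0 = 0 := lab_eq_zero.2 (by positivity)
  rw [h0] at h1
  have h2 : lab k (invU r) = lab k r := Nat.xor_eq_zero_iff.1 h1.symm
  rw [← lab_eq_zero, (mul_lab hk hv hi).2, h2, h, Nat.xor_self]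

theorem latTor_lt : ∀ k < 6, nthL 0 latTor k < 2 := by decide +kernel

theorem latLevel_facts : (∀ k < 6, nthL 0 latLevel k ≤ nthL 0 latLevel (k + 1)) ∧
    ∀ k < 7, nthL 0 latLevel k ≤ 56 := by decide +kernel

theorem latS_facts : ∀ a < 56, (nthL [] latS a).Nodup ∧ (nthL [] latS a).length ≠ 32 ∧
    ((nthL [] latS a).length = 64 → ∃ c : Fin 15, vIdx.getD c 0 = a) := by decide +kernel

theorem steps_all : ∀ k < 6, ∀ a < nthL 0 latLevel k, stepOK k a = true := by
  intro k hk a ha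
  have hl : nthL 0 latLevel 0 = 1 ∧ nthL 0 latLevel 1 = 2 ∧ nthL 0 latLevel 2 = 7 ∧
      nthL 0 latLevel 3 = 14 ∧ nthL 0 latLevel 4 = 22 ∧ nthL 0 latLevel 5 = 47 :=
    ⟨rfl, rfl, rfl, rfl, rfl, rfl⟩
  interval_cases k
  · exact stepsOK_spec steps_0 a (Nat.zero_le _) (by omega)
  · exact stepsOK_spec steps_1 a (Nat.zero_le _) (by omega)
  · exact stepsOK_spec steps_2 a (Nat.zero_le _) (by omega)
  · exact stepsOK_spec steps_3 a (Nat.zero_le _) (by omega)
  · exact stepsOK_spec steps_4 a (Nat.zero_le _) (by omega)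
  · rcases Nat.lt_or_ge a 5 with h | h
    · exact stepsOK_spec steps_5a a (by omega) (by omega)
    rcases Nat.lt_or_ge a 10 with h | h
    · exact stepsOK_spec steps_5b a (by omega) (by omega)
    rcases Nat.lt_or_ge a 17 with h | h
    · exact stepsOK_spec steps_5c a (by omega) (by omega)
    rcases Nat.lt_or_ge a 23 with h | h
    · exact stepsOK_spec steps_5d a (by omega) (by omega)
    rcases Nat.lt_or_ge a 28 with h | h
    · exact stepsOK_spec steps_5e a (by omega) (by omega)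
    rcases Nat.lt_or_ge a 35 with h | h
    · exact stepsOK_spec steps_5f a (by omega) (by omega)
    rcases Nat.lt_or_ge a 43 with h | h
    · exact stepsOK_spec steps_5g a (by omega) (by omega)
    · exact stepsOK_spec steps_5h a (by omega) (by omega)

end Labels

section Step

variable {V : Subgroup (Equiv.Perm (Fin 1782))}

theorem lat_cj_mem (hT : ∀ t ∈ T, ∀ v ∈ V, t * v * t⁻¹ ∈ V) {s i : ℕ} (hs : s < 2)
    (hi : i < 4096) (h : uel i ∈ V) : uel (cjN s i) ∈ V := by
  have hn : nel (12 + s) ∈ T := by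
    interval_cases s
    · exact ⟨1, 0, by simp⟩
    · exact ⟨0, 1, by simp⟩
  rw [show cjN s i = cjN ((⟨s, hs⟩ : Fin 2) : ℕ) i from rfl, (cj_spec ⟨s, hs⟩ hi).2]
  exact hT _ hn _ h

/-- The representatives attached to a new element lie in the group and meet every label. -/
theorem lat_reps (hT : ∀ t ∈ T, ∀ v ∈ V, t * v * t⁻¹ ∈ V) {k : ℕ} (hk : k < 6) {u : ℕ}
    (hu1 : 4 ^ k ≤ u) (hu2 : u < 4 ^ (k + 1)) (hu : uel u ∈ V) :
    (∀ r ∈ reps k u, r < 4 ^ (k + 1) ∧ uel r ∈ V) ∧
      ∀ v < 4 ^ (k + 1), ∃ r ∈ reps k u, lab k v = lab k r := by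
  have h4 := four_pow_le hk
  have hs := latTor_lt k hk
  have htri : triOK k u = true := by
    have h := tri_checks k hk
    rw [Bool.and_eq_true, Bool.and_eq_true] at h
    have e : (2 : ℕ) ^ (2 * k) = 4 ^ k := (pow_four k).symm
    have e' : (4 : ℕ) ^ (k + 1) = 4 ^ k * 4 := pow_succ _ _
    rcases Nat.lt_or_ge u (2 * 4 ^ k) with h1 | h1
    · exact allB_spec h.1 u hu1 (by omega)
    rcases Nat.lt_or_ge u (3 * 4 ^ k) with h2 | h2
    · exact allB_spec h.2.1 u h1 (by omega)
    · exact allB_spec h.2.2 u h2 (by omega)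
  simp only [triOK, Bool.and_eq_true, Bool.not_eq_true', Nat.blt] at htri
  obtain ⟨⟨hc, hd⟩, ⟨hc0, hd0⟩, huc, hud, hcd⟩ := htri
  have hu' : u < 4096 := by omega
  set c := cjF (nthL 0 latTor k) u with hcdef
  set d := cjF (nthL 0 latTor k) c with hddef
  have hc' : c < 4 ^ (k + 1) := Nat.le_of_ble_eq_true hc
  have hd' : d < 4 ^ (k + 1) := Nat.le_of_ble_eq_true hd
  have hcV : uel c ∈ V := by
    rw [hcdef, (tab_spec hu').2.2 _ hs]
    exact lat_cj_mem hT hs hu' hu
  have hdV : uel d ∈ V := by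
    rw [hddef, (tab_spec (show c < 4096 by omega)).2.2 _ hs]
    exact lat_cj_mem hT hs (by omega) hcV
  have hne : ∀ {x y : ℕ}, Nat.beq x y = false → x ≠ y := fun h e => by
    rw [e, Nat.beq_refl] at h
    exact absurd h (by decide)
  constructor
  · intro r hr
    simp only [reps, List.mem_cons, List.not_mem_nil, or_false] at hr
    rcases hr with rfl | rfl | rfl | rfl
    · exact ⟨by positivity, by rw [uel_zero]; exact one_mem _⟩
    · exact ⟨hu2, hu⟩
    · exact ⟨hc', hcV⟩
    · exact ⟨hd', hdV⟩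
  · intro v hv
    have l1 := lab_lt hv
    have l2 := lab_lt hu2
    have l3 := lab_lt hc'
    have l4 := lab_lt hd'
    have l5 : lab k u ≠ 0 := fun h => by rw [lab_eq_zero] at h; omega
    have l6 := hne hc0
    have l7 := hne hd0
    have l8 := hne huc
    have l9 := hne hud
    have l10 := hne hcd
    have l0 : lab k 0 = 0 := lab_eq_zero.2 (by positivity)
    have : lab k v = lab k 0 ∨ lab k v = lab k u ∨ lab k v = lab k c ∨ lab k v = lab k d := by omega
    rcases this with h | h | h | h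
    · exact ⟨0, by simp [reps], h⟩
    · exact ⟨u, by simp [reps], h⟩
    · exact ⟨c, by simp [reps, ← hcdef], h⟩
    · exact ⟨d, by simp [reps, ← hcdef, ← hddef], h⟩

variable (hU : V ≤ U) (hT : ∀ t ∈ T, ∀ v ∈ V, t * v * t⁻¹ ∈ V) (hV : Nat.card ↥V ≤ 64)

include hT hV in
/-- One layer further. -/
theorem lattice_step {k : ℕ} (hk : k < 6) {a : ℕ} (ha : a < nthL 0 latLevel k)
    (hS : ∀ i, i < 4 ^ k ∧ uel i ∈ V ↔ i ∈ nthL [] latS a) :
    ∃ j < nthL 0 latLevel (k + 1), ∀ i, i < 4 ^ (k + 1) ∧ uel i ∈ V ↔ i ∈ nthL [] latS j := by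
  have h4 := four_pow_le hk
  have e4 : (4 : ℕ) ^ (k + 1) = 4 ^ k * 4 := pow_succ _ _
  have ha56 : a < 56 := lt_of_lt_of_le ha (latLevel_facts.2 k (by omega))
  by_cases hex : ∃ u, 4 ^ k ≤ u ∧ u < 4 ^ (k + 1) ∧ uel u ∈ V
  swap
  · refine ⟨a, lt_of_lt_of_le ha (latLevel_facts.1 k hk), fun i => ⟨fun hi => ?_, fun hi => ?_⟩⟩
    · refine (hS i).1 ⟨?_, hi.2⟩
      by_contra hcon
      exact hex ⟨i, by omega, hi.1, hi.2⟩
    · exact ⟨by have := ((hS i).2 hi).1; omega, ((hS i).2 hi).2⟩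
  -- replace the new element by one with label one
  obtain ⟨u, hu1, hu2, huV⟩ : ∃ u, 4 ^ k ≤ u ∧ u < 2 * 4 ^ k ∧ uel u ∈ V := by
    obtain ⟨u, h1, h2, h3⟩ := hex
    obtain ⟨hR, hcov⟩ := lat_reps hT hk h1 h2 h3
    obtain ⟨r, hr, hlab⟩ := hcov (4 ^ k) (by omega)
    rw [lab_eq_div, lab_eq_div, Nat.div_self (by positivity)] at hlab
    refine ⟨r, ?_, ?_, (hR r hr).2⟩
    · by_contra hcon
      rw [Nat.div_eq_of_lt (by omega)] at hlab
      omega
    · by_contra hcon
      have := (Nat.le_div_iff_mul_le (show 0 < 4 ^ k by positivity)).2 (show 2 * 4 ^ k ≤ r by omega)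
      omega
  have hstep := steps_all k hk a ha
  rw [stepOK, entOK, Bool.or_eq_true] at hstep
  rcases hstep with hlen | hall
  · -- more than 64 elements
    exfalso
    replace hlen := Nat.eq_of_beq_eq_true hlen
    have hsub : (↑((insert u (nthL [] latS a).toFinset).image uel) : Set (Equiv.Perm (Fin 1782)))
        ⊆ (V : Set (Equiv.Perm (Fin 1782))) := by
      intro g hg
      simp only [Finset.coe_image, Finset.coe_insert, Set.mem_image, Set.mem_insert_iff,
        Finset.mem_coe, List.mem_toFinset] at hg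
      obtain ⟨i, hi, rfl⟩ := hg
      rcases hi with rfl | hi
      · exact huV
      · exact ((hS i).2 hi).2
    have h1 := Set.ncard_le_ncard hsub
    have hnot : u ∉ nthL [] latS a := fun h => by have := ((hS u).2 h).1; omega
    have hlt : ∀ i ∈ insert u (nthL [] latS a).toFinset, i < 4096 := by
      intro i hi
      rw [Finset.mem_insert, List.mem_toFinset] at hi
      rcases hi with rfl | hi
      · omega
      · have := ((hS i).2 hi).1; omega
    rw [Set.ncard_coe_finset, Finset.card_image_of_injOn (fun x hx y hy => uel_inj (hlt x hx) (hlt y hy)),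
      Finset.card_insert_of_notMem (by simpa using hnot),
      List.toFinset_card_of_nodup (latS_facts a ha56).1, hlen, ← Nat.card_coe_set_eq] at h1
    have : Nat.card ↥V ≤ 64 := hV
    change 64 + 1 ≤ Nat.card ↥V at h1
    omega
  set S := nthL [] latS a with hSdef
  set M := nthL 0 latMask a with hMdef
  set t := nthL (.leaf 0) (nthL [] latCert k) a with htdef
  have hchk : ∀ u, 4 ^ k ≤ u → u < 2 * 4 ^ k →
      chkV k S M t u (t.get 32 (u - 4 ^ k)) = true := fun u h1 h2 => by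
    have := allB_spec hall u h1 (by
      have := pow_four k
      show u < lsz k + 2 ^ (2 * k)
      rw [lsz_eq]; omega)
    exact this
  have hmemS : ∀ n, nthL 0 S n < 4 ^ k ∧ uel (nthL 0 S n) ∈ V := fun n => by
    rcases nthL_mem_or 0 S n with h | h
    · rw [h, uel_zero]; exact ⟨by positivity, one_mem _⟩
    · exact (hS _).2 h
  -- reduce to an element whose certificate is not of kind 3
  obtain ⟨u, hu1, hu2, huV, hkind⟩ : ∃ u, 4 ^ k ≤ u ∧ u < 2 * 4 ^ k ∧ uel u ∈ V ∧
      t.get 32 (u - 4 ^ k) % 4 ≠ 3 := by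
    by_cases hk3 : t.get 32 (u - 4 ^ k) % 4 = 3
    swap
    · exact ⟨u, hu1, hu2, huV, hk3⟩
    have h := (chkV_spec (hchk u hu1 hu2)).2.2.2 hk3
    rw [chk3, Bool.and_eq_true, Bool.and_eq_true, Bool.and_eq_true] at h
    obtain ⟨⟨hr1, hr2⟩, hmul, hk'⟩ := h
    set rep := Nat.div (Nat.div (t.get 32 (u - 4 ^ k)) 4) 64
    set x := nthL 0 S (Nat.mod (Nat.div (t.get 32 (u - 4 ^ k)) 4) 64)
    have hr1' : 4 ^ k ≤ rep := Nat.le_of_ble_eq_true hr1
    have hr2' : rep < 2 * 4 ^ k := Nat.le_of_ble_eq_true hr2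
    have hx : x < 4 ^ k ∧ uel x ∈ V := hmemS _
    have hmul' := Nat.eq_of_beq_eq_true hmul
    rw [mulF_eq _ (show x < 4096 by omega)] at hmul'
    refine ⟨rep, hr1', hr2', ?_, fun h3 => ?_⟩
    · have he := (mulU_spec (b := rep) (show x < 4096 by omega)).2
      rw [hmul'] at he
      rw [show uel rep = (uel x)⁻¹ * uel u by rw [he]; group]
      exact mul_mem (inv_mem hx.2) huV
    · rw [Bool.not_eq_true'] at hk'
      have e3 : Nat.mod (t.get 32 (Nat.sub rep (lsz k))) 4 = 3 := h3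
      rw [e3] at hk'
      exact absurd hk' (by decide)
  obtain ⟨hR, hcov⟩ := lat_reps hT hk hu1 (show u < 4 ^ (k + 1) by omega) huV
  have hin : ∀ {x}, x < 4096 → uel x ∈ V → ∀ {y}, y < 4096 → uel y ∈ V →
      uel (mulU x y) ∈ V := fun hx hxV _ _ hyV => by
    rw [(mulU_spec hx).2]; exact mul_mem hxV hyV
  -- every new member lies in one of the cosets
  have hcos : ∀ {v}, v < 4 ^ (k + 1) → uel v ∈ V →
      ∃ r ∈ reps k u, bitAt M (mulF v (invF r)) = true ∧ mulU v (invU r) ∈ S := by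
    intro v hv hvV
    obtain ⟨r, hr, hl⟩ := hcov v hv
    obtain ⟨hr', hrV⟩ := hR r hr
    have hlt := same_lab hk hv hr' hl
    have hi := invU_spec (show r < 4096 by omega)
    have hmem : mulU v (invU r) ∈ S := (hS _).1 ⟨hlt, hin (by omega) hvV hi.1 (by
      rw [hi.2]; exact inv_mem hrV)⟩
    refine ⟨r, hr, ?_, hmem⟩
    rw [(tab_spec (show r < 4096 by omega)).2.1, mulF_eq _ (show v < 4096 by omega),
      bitAt_latMask ha56]
    exact hmem
  have hE : ∀ m, eAt S (reps k u) m < 4 ^ (k + 1) ∧ uel (eAt S (reps k u) m) ∈ V := by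
    intro m
    have hx := hmemS (Nat.mod m S.length)
    have hr : nthL 0 (reps k u) (Nat.div m S.length) ∈ reps k u := by
      rcases nthL_mem_or 0 (reps k u) (Nat.div m S.length) with h | h
      · rw [h]; simp [reps]
      · exact h
    obtain ⟨hr', hrV⟩ := hR _ hr
    rw [eAt, mulF_eq _ (by omega)]
    exact ⟨(mul_lab hk (by omega) hr').1, hin (by omega) hx.2 (by omega) hrV⟩
  have hout : ∀ {z}, z < 4 ^ (k + 1) → uel z ∈ V → notCand M (reps k u) z = true → False := by
    intro z hz hzV hn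
    obtain ⟨r, hr, hb, -⟩ := hcos hz hzV
    have := allL_spec hn r hr
    simp [hb] at this
  have hspec := chkV_spec (hchk u hu1 hu2)
  set v := t.get 32 (u - 4 ^ k)
  have hv4 : v % 4 = 0 ∨ v % 4 = 1 ∨ v % 4 = 2 := by omega
  rcases hv4 with hv | hv | hv
  · -- kind 0
    have h := hspec.1 hv
    rw [chk0, Bool.and_eq_true, Bool.and_eq_true] at h
    obtain ⟨hj, hfw, hbw⟩ := h
    set j := Nat.div v 4
    have hj' : j < nthL 0 latLevel (k + 1) := Nat.le_of_ble_eq_true hj
    have hj56 : j < 56 := lt_of_lt_of_le hj' (latLevel_facts.2 (k + 1) (by omega))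
    refine ⟨j, hj', fun i => ⟨fun hi => ?_, fun hi => ?_⟩⟩
    · obtain ⟨r, hr, -, hx⟩ := hcos hi.1 hi.2
      have hb := allL_spec (allL_spec hfw _ hx) r hr
      have hi4 : i < 4096 := by omega
      have hr4 : r < 4096 := by have := (hR r hr).1; omega
      have hx4 : mulU i (invU r) < 4096 := (mulU_spec hi4).1
      rw [mulF_eq _ hx4, bitAt_latMask hj56] at hb
      rwa [uel_inj (mulU_spec hx4).1 hi4 (by
        rw [(mulU_spec hx4).2, (mulU_spec hi4).2, (invU_spec hr4).2, inv_mul_cancel_right])] at hb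
    · have hb := allL_spec hbw i hi
      rw [Bool.and_eq_true] at hb
      have hi' : i < 4 ^ (k + 1) := Nat.le_of_ble_eq_true hb.1
      refine ⟨hi', ?_⟩
      obtain ⟨r, hr, hbit⟩ := anyL_spec hb.2
      have hi4 : i < 4096 := by omega
      obtain ⟨hr', hrV⟩ := hR r hr
      have hr4 : r < 4096 := by omega
      rw [(tab_spec hr4).2.1, mulF_eq _ hi4, bitAt_latMask ha56] at hbit
      have hxV := ((hS _).2 hbit).2
      rw [(mulU_spec hi4).2, (invU_spec hr4).2] at hxV
      simpa using mul_mem hxV hrV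
  · -- kind 1
    exfalso
    have h := hspec.2.1 hv
    rw [chk1] at h
    obtain ⟨h1, h1V⟩ := hE (Nat.mod (Nat.div v 4) 64)
    obtain ⟨h2, h2V⟩ := hE (Nat.div (Nat.div v 4) 64)
    rw [mulF_eq _ (show eAt S (reps k u) (Nat.mod (Nat.div v 4) 64) < 4096 by omega)] at h
    exact hout (mul_lab hk h1 h2).1 (hin (by omega) h1V (by omega) h2V) h
  · -- kind 2
    exfalso
    have h := hspec.2.2.1 hv
    rw [chk2, Bool.and_eq_true, Bool.and_eq_true] at h
    obtain ⟨hs, hz, hn⟩ := h
    obtain ⟨h1, h1V⟩ := hE (Nat.mod (Nat.div v 4) 64)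
    have hs' : Nat.div (Nat.div v 4) 64 < 2 := Nat.le_of_ble_eq_true hs
    refine hout (Nat.le_of_ble_eq_true hz) ?_ hn
    rw [(tab_spec (show _ < 4096 from lt_of_lt_of_le h1 h4)).2.2 _ hs']
    exact lat_cj_mem hT hs' (lt_of_lt_of_le h1 h4) h1V

include hU hT hV in
/-- A small subgroup normalised by the torus is one of the listed sets. -/
theorem lattice_entry : ∃ a < 56, ∀ g, g ∈ V ↔ ∃ i ∈ nthL [] latS a, uel i = g := by
  have hind : ∀ k ≤ 6, ∃ a < nthL 0 latLevel k,
      ∀ i, i < 4 ^ k ∧ uel i ∈ V ↔ i ∈ nthL [] latS a := by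
    intro k hk
    induction k with
    | zero =>
      refine ⟨0, by decide +kernel, fun i => ?_⟩
      show _ ↔ i ∈ latS0
      simp only [latS0, List.mem_singleton, pow_zero, Nat.lt_one_iff]
      exact ⟨fun h => h.1, fun h => ⟨h, by rw [h, uel_zero]; exact one_mem _⟩⟩
    | succ k ih =>
      obtain ⟨a, ha, hS⟩ := ih (by omega)
      exact lattice_step hT hV (by omega) ha hS
  obtain ⟨a, ha, hS⟩ := hind 6 le_rfl
  refine ⟨a, lt_of_lt_of_le ha (latLevel_facts.2 6 (by norm_num)), fun g => ⟨fun hg => ?_, ?_⟩⟩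
  · obtain ⟨i, hi, rfl⟩ := mem_U.1 (hU hg)
    exact ⟨i, (hS i).1 ⟨by simpa using hi, hg⟩, rfl⟩
  · rintro ⟨i, hi, rfl⟩
    exact ((hS i).2 hi).2

include hU hT hV in
theorem lattice_entry_card : ∃ a < 56, (∀ g, g ∈ V ↔ ∃ i ∈ nthL [] latS a, uel i = g) ∧
    Nat.card ↥V = (nthL [] latS a).length := by
  obtain ⟨a, ha, hg⟩ := lattice_entry hU hT hV
  refine ⟨a, ha, hg, ?_⟩
  have hlt : ∀ i ∈ nthL [] latS a, i < 4096 := by
    intro i hi
    have : ∀ a < 56, ∀ i ∈ nthL [] latS a, i < 4096 := by decide +kernel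
    exact this a ha i hi
  have hset : (V : Set (Equiv.Perm (Fin 1782))) = ↑((nthL [] latS a).toFinset.image uel) := by
    ext g
    simp [hg g]
  rw [← List.toFinset_card_of_nodup (latS_facts a ha).1,
    ← Finset.card_image_of_injOn (f := uel) (fun x hx y hy =>
      uel_inj (hlt x (List.mem_toFinset.1 hx)) (hlt y (List.mem_toFinset.1 hy))),
    ← Set.ncard_coe_finset, ← hset, ← Nat.card_coe_set_eq]
  rfl

end Step

/-- The torus normalises no subgroup of order 32 of the Sylow 2-subgroup. -/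
theorem lattice_card {V : Subgroup (Equiv.Perm (Fin 1782))} (hU : V ≤ U)
    (hT : ∀ t ∈ T, ∀ v ∈ V, t * v * t⁻¹ ∈ V) : Nat.card ↥V ≠ 32 := by
  intro hc
  obtain ⟨a, ha, -, h⟩ := lattice_entry_card hU hT (by omega)
  exact (latS_facts a ha).2.1 (h.symm.trans hc)

/-- The subgroups of order 64 normalised by the torus. -/
theorem lattice_mem {V : Subgroup (Equiv.Perm (Fin 1782))} (hU : V ≤ U)
    (hT : ∀ t ∈ T, ∀ v ∈ V, t * v * t⁻¹ ∈ V) (hc : Nat.card ↥V = 64) :
    ∃ c : Fin 15, ∀ g, g ∈ V ↔ ∃ i ∈ latS.getD (vIdx.getD c 0) [], uel i = g := by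
  obtain ⟨a, ha, hg, h⟩ := lattice_entry_card hU hT (le_of_eq hc)
  obtain ⟨c, hcv⟩ := (latS_facts a ha).2.2 (h.symm.trans hc)
  exact ⟨c, by rw [hcv, ← nthL_getD]; exact hg⟩

end Cfsg.Agent.SuzRank
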