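import Cfsg.Agent.SuzRank.ParaFlag

/-!
A subgroup of order 184320 of the group fixing `0` is conjugate to a parabolic subgroup.
-/

set_option autoImplicit false
set_option maxRecDepth 100000

namespace Cfsg.Agent.SuzRank.Para

open Cfsg.Agent.CosetCert
open scoped Pointwise

theorem torus_fix : ∀ s : Fin 2, ∀ c : Fin 6,
    Nat.beq (nimg (12 + s) (fPts.getD c 0)) (fPts.getD c 0) = true := by
  decide +kernel

theorem T_fix {t : Equiv.Perm (Fin 1782)} (ht : t ∈ T) (c : Fin 6) : t • fP c = fP c := by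
  have h : ∀ s : Fin 2, nel (12 + s) ∈ MulAction.stabilizer (Equiv.Perm (Fin 1782)) (fP c) := by
    intro s
    rw [MulAction.mem_stabilizer_iff]
    refine Fin.ext ?_
    rw [Equiv.Perm.smul_def, nel_val (show 12 + (s : ℕ) < 29 by omega)]
    exact Nat.eq_of_beq_eq_true (torus_fix s c)
  obtain ⟨a, b, rfl⟩ := ht
  exact MulAction.mem_stabilizer_iff.1 (mul_mem (pow_mem (h 0) a) (pow_mem (h 1) b))

theorem T_norm_inv {t u : Equiv.Perm (Fin 1782)} (ht : t ∈ T) (hu : u ∈ U) :
    t⁻¹ * u * t ∈ U := by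
  have := T_conj_U (inv_mem ht) hu
  rwa [inv_inv] at this

/-- The monomial elements fixing the point or the line of the base flag. -/
theorem mono_small : (∀ c : Fin 2, Nat.beq (nimg (17 + c) 1) 1 = true) ∧
    ((List.range 5).all fun j => lineB 2 (nimg 19 (linePt 2 j))) = true := by
  decide +kernel

/-- An edge of the graph of cells given by one test point. -/
noncomputable def joinEdge (c y : ℕ) : ℕ × ℕ := (cellC y, cellC (nimg (17 + c) y))

/-- The cells are connected by the test points. -/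
noncomputable def joinOK (c : ℕ) (b : List Bool) : Bool :=
  !(b.getD 0 false) ||
    (!((joinPts.getD c []).all fun y =>
      b.getD (joinEdge c y).1 false == b.getD (joinEdge c y).2 false)) ||
    b.all fun x => x

theorem join_conn : ∀ c : Fin 9, ∀ b0 b1 b2 b3 b4 b5 : Bool,
    joinOK (3 + c) [b0, b1, b2, b3, b4, b5] = true := by
  decide +kernel

theorem join_pts : ∀ c : Fin 9, ((joinPts.getD (3 + c) []).all fun y =>
    Nat.blt y 1782 && isR y && isR (nimg (20 + c) y)) = true := by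
  decide +kernel

/-- Such an element together with `U` generates a transitive group on the suborbit. -/
theorem orbit_all {X : Subgroup (Equiv.Perm (Fin 1782))} (hU : U ≤ X) {c : ℕ} (hc3 : 3 ≤ c)
    (hc : c < 12) {t : Equiv.Perm (Fin 1782)} (ht : t ∈ T) (hd : nel (17 + c) * t ∈ X)
    {x : Fin 1782} (hx : isR x = true) : x ∈ MulAction.orbit ↥X p1 := by
  classical
  set O := MulAction.orbit ↥X p1 with hO
  have hmem : ∀ g ∈ X, ∀ z : Fin 1782, g • z ∈ O ↔ z ∈ O := fun g hg z =>
    ⟨fun h => by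
      have h' := MulAction.mem_orbit_of_mem_orbit (⟨g, hg⟩ : ↥X)⁻¹ h
      rwa [← Subgroup.mk_smul g hg, inv_smul_smul] at h',
      fun h => MulAction.mem_orbit_of_mem_orbit (⟨g, hg⟩ : ↥X) h⟩
  have hcell : ∀ z : Fin 1782, isR z = true → ∀ h : cellC z < 6,
      (z ∈ O ↔ fP ⟨cellC z, h⟩ ∈ O) := by
    intro z hz h
    obtain ⟨_, hu, e⟩ := cell_spec hz
    conv_lhs => rw [← e]
    exact hmem _ (hU ⟨_, hu, rfl⟩) _
  obtain ⟨k, rfl⟩ : ∃ k, c = 3 + k := ⟨c - 3, by omega⟩
  set b : Fin 6 → Bool := fun a => decide (fP a ∈ O) with hb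
  have hedge : ∀ y ∈ joinPts.getD (3 + k) [],
      [b 0, b 1, b 2, b 3, b 4, b 5].getD (joinEdge (3 + k) y).1 false =
        [b 0, b 1, b 2, b 3, b 4, b 5].getD (joinEdge (3 + k) y).2 false := by
    intro y hy
    have hp := List.all_eq_true.1 (join_pts ⟨k, by omega⟩) y hy
    simp only [Bool.and_eq_true] at hp
    set yF : Fin 1782 := ⟨y, Nat.le_of_ble_eq_true hp.1.1⟩ with hyF
    have hy' : isR (nel (17 + (3 + k)) • yF : Fin 1782) = true := by
      rw [Equiv.Perm.smul_def, nel_val (show 17 + (3 + k) < 29 by omega)]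
      rw [show 17 + (3 + k) = 20 + k by omega]
      exact hp.2
    obtain ⟨ha, hua, ea⟩ := cell_spec (x := yF) hp.1.2
    obtain ⟨hb', -, -⟩ := cell_spec hy'
    have hget : ∀ a : Fin 6, [b 0, b 1, b 2, b 3, b 4, b 5].getD a false = b a := fun a => by
      fin_cases a <;> rfl
    have e1 : cellC (nel (17 + (3 + k)) • yF : Fin 1782) = (joinEdge (3 + k) y).2 := by
      rw [Equiv.Perm.smul_def, nel_val (show 17 + (3 + k) < 29 by omega)]
      rfl
    show [b 0, b 1, b 2, b 3, b 4, b 5].getD (cellC yF) false = _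
    rw [← e1, hget ⟨_, ha⟩, hget ⟨_, hb'⟩, hb]
    refine decide_eq_decide.2 ?_
    rw [← hcell _ hy' hb']
    -- `t` keeps the cell of the test point
    have hz : t⁻¹ • yF = (t⁻¹ * uel (cellU yF) * t) • fP ⟨cellC yF, ha⟩ := by
      rw [mul_smul, mul_smul, T_fix ht, ea]
    have hfix : (nel (17 + (3 + k)) * t) • (t⁻¹ • yF) = nel (17 + (3 + k)) • yF := by
      rw [mul_smul, smul_inv_smul]
    rw [← hfix, hmem _ hd, hz, hmem _ (hU (T_norm_inv ht ⟨_, hua, rfl⟩))]
  have hb0 : b 0 = true := by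
    rw [hb]
    exact decide_eq_true (fP_zero ▸ MulAction.mem_orbit_self p1)
  have hconn := join_conn ⟨k, by omega⟩ (b 0) (b 1) (b 2) (b 3) (b 4) (b 5)
  have hall : ((joinPts.getD (3 + k) []).all fun y =>
      [b 0, b 1, b 2, b 3, b 4, b 5].getD (joinEdge (3 + k) y).1 false ==
        [b 0, b 1, b 2, b 3, b 4, b 5].getD (joinEdge (3 + k) y).2 false) = true :=
    List.all_eq_true.2 fun y hy => by rw [hedge y hy]; exact beq_self_eq_true _
  rw [joinOK, hall] at hconn
  simp only [List.getD_cons_zero, hb0, Bool.not_true, Bool.false_or, List.all_cons, List.all_nil,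
    Bool.and_true, Bool.and_eq_true, true_and] at hconn
  obtain ⟨hc6, -, -⟩ := cell_spec hx
  rw [hcell x hx hc6]
  have : ∀ a : Fin 6, b a = true := fun a => by
    fin_cases a
    exacts [hb0, hconn.1, hconn.2.1, hconn.2.2.1, hconn.2.2.2.1, hconn.2.2.2.2]
  exact of_decide_eq_true (this ⟨_, hc6⟩)

/-- No element of such a subgroup moves both the base point and the base line. -/
theorem not_move_both (hcard : Nat.card ↥Gam = 251596800) {X : Subgroup (Equiv.Perm (Fin 1782))}
    (hX : X ≤ Gam) (hU : U ≤ X) (hc : Nat.card ↥X = 184320) {g : Equiv.Perm (Fin 1782)}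
    (hg : g ∈ X) : g ∈ P1 ∨ g ∈ P2 := by
  by_contra hne
  rw [not_or, mem_P1, mem_P2_smul] at hne
  simp only [hX hg, true_and] at hne
  -- the flag of `g`
  obtain ⟨k, hk, ek⟩ := Gam_line (hX hg) (show 2 < 1365 by norm_num)
  rw [← line0_eq] at ek
  have hp : g • p1 ∈ lineSet k := by
    rw [← ek]
    exact Finset.smul_mem_smul_finset (by simp [line0])
  rw [lineSet_eq_image hk, Finset.mem_image] at hp
  obtain ⟨i, -, hi⟩ := hp
  obtain ⟨hu, hc12, hfp, hfl⟩ := fel_spec hk i.2
  set u := uel (flagU k i) with hu_def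
  set c := flagC k i with hc_def
  set b := (fel k i)⁻¹ * g with hb_def
  have hb : b ∈ Bflag := by
    refine mem_Bflag.2 ⟨mul_mem (inv_mem (fel_mem _ _)) (hX hg), ?_⟩
    rw [hb_def, mul_smul, inv_smul_eq_iff, Prod.smul_mk, Prod.smul_mk, hfp, hfl, ek, hi]
  obtain ⟨v, hv, t, ht, hbvt⟩ := (Bflag_eq hcard).2 b hb
  have hgeq : g = u * nel (17 + c) * (t * (t⁻¹ * v * t)) := by
    have : g = fel k i * b := by rw [hb_def, mul_inv_cancel_left]
    rw [this, hbvt]
    simp [fel, hu_def, hc_def, mul_assoc]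
  have huB := Subgroup.mem_inf.1 (U_le_Bflag ⟨_, hu, rfl⟩)
  have hbB := Subgroup.mem_inf.1 hb
  have hg_eq : g = u * nel (17 + c) * b := by
    rw [hgeq, hbvt]
    group
  have hc3 : 3 ≤ c := by
    by_contra h
    rcases Nat.lt_or_ge c 2 with h2 | h2
    · refine hne.1 ?_
      have hn : nel (17 + c) • p1 = p1 := Fin.ext (by
        rw [Equiv.Perm.smul_def, nel_val (by omega)]
        exact Nat.eq_of_beq_eq_true (mono_small.1 ⟨c, h2⟩))
      rw [← Equiv.Perm.smul_def, hg_eq, mul_smul, mul_smul, Equiv.Perm.smul_def b,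
        (mem_P1.1 hbB.1).2, hn]
      exact (mem_P1.1 huB.1).2
    · refine hne.2 ?_
      have hc2 : c = 2 := by omega
      have hn : nel (17 + c) • line0 = line0 := by
        rw [line0_eq]
        refine lineSet_image_of_subset (by norm_num) (by norm_num) fun j => ?_
        rw [nel_val (by omega), hc2]
        exact List.all_eq_true.1 mono_small.2 j (List.mem_range.2 j.2)
      rw [hg_eq, mul_smul, mul_smul, (mem_P2_smul.1 hbB.2).2, hn]
      exact (mem_P2_smul.1 huB.2).2
  have hd : nel (17 + c) * t ∈ X := by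
    have e : nel (17 + c) * t = u⁻¹ * g * (t⁻¹ * v * t)⁻¹ := by rw [hgeq]; group
    rw [e]
    exact mul_mem (mul_mem (inv_mem (hU ⟨_, hu, rfl⟩)) hg) (inv_mem (hU (T_norm_inv ht hv)))
  have horb : MulAction.orbit ↥X p1 = MulAction.orbit ↥Gam p1 := by
    refine Set.Subset.antisymm ?_ fun x hx => orbit_all hU hc3 hc12 ht hd (mem_orbit_p1.1 hx)
    rintro _ ⟨h, rfl⟩
    exact ⟨⟨h, hX h.2⟩, rfl⟩
  have h1 : 1365 ∣ 184320 := by
    rw [← card_orbit_p1, ← horb, ← MulAction.index_stabilizer, ← hc]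
    exact Subgroup.index_dvd_card _
  norm_num at h1

/-- A subgroup of order 184320 is conjugate to a parabolic subgroup. -/
theorem _root_.Cfsg.Agent.SuzRank.parabolic_conj (hcard : Nat.card ↥Gam = 251596800)
    {X : Subgroup (Equiv.Perm (Fin 1782))} (hX : X ≤ Gam) (hc : Nat.card ↥X = 184320) :
    ∃ g ∈ Gam, X.map (MulAut.conj g).toMonoidHom = P1 ∨ X.map (MulAut.conj g).toMonoidHom = P2 := by
  haveI : Fact (Nat.Prime 2) := ⟨Nat.prime_two⟩
  have hUc : Nat.card ↥(U.subgroupOf Gam) = 4096 :=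
    (Nat.card_congr (Subgroup.subgroupOfEquivOfLe U_le).toEquiv).trans card_U
  have hfG : (Nat.card ↥Gam).factorization 2 = 12 := by
    rw [hcard, show 251596800 = 2 ^ 12 * 61425 by norm_num,
      Nat.factorization_mul (by norm_num) (by norm_num), Finsupp.add_apply,
      Nat.Prime.factorization_pow Nat.prime_two, Finsupp.single_eq_same,
      Nat.factorization_eq_zero_of_not_dvd (by norm_num)]
  let S0 : Sylow 2 ↥Gam := Sylow.ofCard (U.subgroupOf Gam) (by rw [hUc, hfG]; norm_num)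
  obtain ⟨Y, hYc⟩ := Sylow.exists_subgroup_card_pow_prime (G := ↥X) 2 (n := 12)
    (by rw [hc]; norm_num)
  let Y' : Subgroup ↥Gam := Y.map (Subgroup.inclusion hX)
  have hY'c : Nat.card ↥Y' = 4096 := by
    rw [← Nat.card_congr
      (Y.equivMapOfInjective _ (Subgroup.inclusion_injective hX)).toEquiv, hYc]
    norm_num
  let S1 : Sylow 2 ↥Gam := Sylow.ofCard Y' (by rw [hY'c, hfG]; norm_num)
  obtain ⟨⟨g, hg⟩, hgS⟩ := MulAction.exists_smul_eq ↥Gam S1 S0
  refine ⟨g, hg, ?_⟩
  set X' := X.map (MulAut.conj g).toMonoidHom with hX'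
  have hU' : U ≤ X' := by
    intro u hu
    have hu0 : (⟨u, U_le hu⟩ : ↥Gam) ∈ ((⟨g, hg⟩ : ↥Gam) • S1 : Sylow 2 ↥Gam) := by
      rw [hgS]
      exact hu
    change _ ∈ (MulAut.conj (⟨g, hg⟩ : ↥Gam)) • Y' at hu0
    obtain ⟨y, ⟨z, -, rfl⟩, hy⟩ := Subgroup.mem_smul_pointwise_iff_exists _ _ _ |>.1 hu0
    exact ⟨z, z.2, congrArg Subtype.val hy⟩
  have hX'le : X' ≤ Gam := by
    rintro _ ⟨x, hx, rfl⟩
    exact mul_mem (mul_mem hg (hX hx)) (inv_mem hg)
  have hX'c : Nat.card ↥X' = 184320 := by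
    rw [hX', ← Nat.card_congr (X.equivMapOfInjective _ (MulAut.conj g).injective).toEquiv, hc]
  haveI : Finite ↥P1 := inferInstance
  rcases Classical.em (X' ≤ P1) with h | h
  · exact Or.inl (Subgroup.eq_of_le_of_card_ge h (by rw [card_P1 hcard, hX'c]))
  · refine Or.inr (Subgroup.eq_of_le_of_card_ge (fun x hx => ?_) (by rw [card_P2 hcard, hX'c]))
    obtain ⟨y, hy, hy1⟩ := SetLike.not_le_iff_exists.1 h
    have hy2 : y ∈ P2 := (not_move_both hcard hX'le hU' hX'c hy).resolve_left hy1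
    rcases not_move_both hcard hX'le hU' hX'c hx with hx1 | hx2
    · rcases not_move_both hcard hX'le hU' hX'c (mul_mem hx hy) with hm | hm
      · exact absurd (by simpa using mul_mem (inv_mem hx1) hm) hy1
      · simpa using mul_mem hm (inv_mem hy2)
    · exact hx2

end Cfsg.Agent.SuzRank.Para
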