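import Cfsg.Agent.SuzRank.ParaBlocks
import Cfsg.Agent.SuzRank.ParaConj

/-!
Invariant sets of the parabolic subgroups in the suborbit of length 416.
-/

set_option autoImplicit false
set_option maxRecDepth 100000

namespace Cfsg.Agent.SuzRank.Para

open Cfsg.Agent.CosetCert
open scoped Pointwise

/-- The cell of a point of the suborbit of length 416. -/
noncomputable def qCell (x : ℕ) : ℕ := cellQT.get 16 x % 16 - 1

/-- The index in the cell. -/
noncomputable def qIdx (x : ℕ) : ℕ := cellQT.get 16 x / 16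

/-- The point lies in its cell. -/
noncomputable def qCellOK (x : ℕ) : Bool :=
  !(isQ x) || (Nat.blt (qIdx x) 4096 && Nat.blt (qCell x) 5 &&
    Nat.beq (uimg (qIdx x) (qReps.getD (qCell x) 0)) x)

theorem q_cell_block : allB (fun x => Nat.ble 1782 x || qCellOK x) 11 0 = true := by decide +kernel

theorem qReps_ok : ∀ c : Fin 5, qReps.getD c 0 < 1782 := by decide +kernel

/-- A representative of a cell. -/
noncomputable def qR (c : Fin 5) : Fin 1782 := ⟨qReps.getD c 0, qReps_ok c⟩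

theorem q_cell_spec {x : Fin 1782} (hx : isQ x = true) :
    ∃ (h : qCell x < 5), qIdx x < 4096 ∧ uel (qIdx x) • qR ⟨qCell x, h⟩ = x := by
  have h := allB_spec_zero q_cell_block (by norm_num : 1782 ≤ 2 ^ 11) x.2
  rw [Bool.or_eq_true] at h
  have h := h.resolve_left fun hc => absurd (Nat.le_of_ble_eq_true hc) (not_le.2 x.2)
  rw [qCellOK, hx] at h
  simp only [Bool.not_true, Bool.false_or, Bool.and_eq_true, Nat.beq_eq] at h
  refine ⟨Nat.le_of_ble_eq_true h.1.2, Nat.le_of_ble_eq_true h.1.1, Fin.ext ?_⟩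
  rw [Equiv.Perm.smul_def, uel_val]
  exact h.2

theorem edge_facts :
    (isQ (nimg 13 (qReps.getD 2 0)) && Nat.beq (qCell (nimg 13 (qReps.getD 2 0))) 3) = true ∧
    (isQ (nimg 13 (qReps.getD 3 0)) && Nat.beq (qCell (nimg 13 (qReps.getD 3 0))) 4) = true ∧
    (isQ (nimg 15 (qReps.getD 0 0)) && Nat.beq (qCell (nimg 15 (qReps.getD 0 0))) 1) = true ∧
    (isQ (nimg 16 (qReps.getD 0 0)) && Nat.beq (qCell (nimg 16 (qReps.getD 0 0))) 3) = true ∧
    Nat.beq (nimg 15 1) 1 = true := by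
  decide +kernel

/-- An element joining two cells. -/
theorem edge {P : Subgroup (Equiv.Perm (Fin 1782))} (hU : U ≤ P) {m : ℕ} (hm : m < 29)
    (hg : nel m ∈ P) {a b : Fin 5}
    (h : (isQ (nimg m (qReps.getD a 0)) && Nat.beq (qCell (nimg m (qReps.getD a 0))) b) = true) :
    MulAction.orbit ↥P (qR b) = MulAction.orbit ↥P (qR a) := by
  rw [Bool.and_eq_true, Nat.beq_eq] at h
  have e : ((nel m • qR a : Fin 1782) : ℕ) = nimg m (qReps.getD a 0) := by
    rw [Equiv.Perm.smul_def, nel_val hm]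
    rfl
  obtain ⟨hc, hu, he⟩ := q_cell_spec (x := nel m • qR a) (by rw [e]; exact h.1)
  have hb : (⟨qCell (nel m • qR a : Fin 1782), hc⟩ : Fin 5) = b := Fin.ext (by
    show qCell _ = _
    rw [e]; exact h.2)
  rw [hb] at he
  have h1 : MulAction.orbit ↥P (nel m • qR a) = MulAction.orbit ↥P (qR a) :=
    MulAction.orbit_smul (⟨_, hg⟩ : ↥P) (qR a)
  rw [← h1, ← he]
  exact (MulAction.orbit_smul (⟨_, hU ⟨_, hu, rfl⟩⟩ : ↥P) (qR b)).symm

theorem U_le_P1 : U ≤ P1 := fun _ h => (Subgroup.mem_inf.1 (U_le_Bflag h)).1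

theorem U_le_P2 : U ≤ P2 := fun _ h => (Subgroup.mem_inf.1 (U_le_Bflag h)).2

/-- The block in the first parabolic. -/
noncomputable def blkQ1 (x : ℕ) : ℕ := [0, 0, 1, 1, 1].getD (qCell x) 0

/-- A representative. -/
noncomputable def repQ1 (j : ℕ) : Fin 1782 := [qR 0, qR 2].getD j (qR 0)

/-- The block in the second parabolic. -/
noncomputable def blkQ2 (x : ℕ) : ℕ := [0, 1, 0, 0, 0].getD (qCell x) 0

/-- A representative. -/
noncomputable def repQ2 (j : ℕ) : Fin 1782 := [qR 0, qR 1].getD j (qR 0)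

theorem blk_lt : ∀ c : Fin 5, [0, 0, 1, 1, 1].getD (c : ℕ) 0 < 4 ∧ [0, 1, 0, 0, 0].getD (c : ℕ) 0 < 4 := by
  decide +kernel

theorem blkQ1_spec {x : Fin 1782} (hx : isQ x = true) :
    blkQ1 x < 4 ∧ x ∈ MulAction.orbit ↥P1 (repQ1 (blkQ1 x)) := by
  obtain ⟨h, hu, e⟩ := q_cell_spec hx
  refine ⟨(blk_lt ⟨_, h⟩).1, ?_⟩
  have hT : nel 13 ∈ P1 :=
    (Subgroup.mem_inf.1 (nel_flag (by norm_num : 13 < 14))).1
  have hs : nel 15 ∈ P1 := mem_P1.2 ⟨nel_mem _, Fin.ext (by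
    rw [nel_val (by norm_num)]
    exact Nat.eq_of_beq_eq_true edge_facts.2.2.2.2)⟩
  have e1 := edge U_le_P1 (by norm_num) hT (a := 2) (b := 3) edge_facts.1
  have e2 := edge U_le_P1 (by norm_num) hT (a := 3) (b := 4) edge_facts.2.1
  have e3 := edge U_le_P1 (by norm_num) hs (a := 0) (b := 1) edge_facts.2.2.1
  have key : ∀ c : Fin 5, MulAction.orbit ↥P1 (qR c) =
      MulAction.orbit ↥P1 (repQ1 ([0, 0, 1, 1, 1].getD (c : ℕ) 0)) := by
    intro c
    fin_cases c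
    exacts [rfl, e3, rfl, e1, e2.trans e1]
  rw [← MulAction.orbit_eq_iff]
  calc MulAction.orbit ↥P1 x
      = MulAction.orbit ↥P1 (qR ⟨qCell x, h⟩) := by
        conv_lhs => rw [← e]
        exact MulAction.orbit_smul (⟨_, U_le_P1 ⟨_, hu, rfl⟩⟩ : ↥P1) _
    _ = _ := key _

theorem blkQ2_spec {x : Fin 1782} (hx : isQ x = true) :
    blkQ2 x < 4 ∧ x ∈ MulAction.orbit ↥P2 (repQ2 (blkQ2 x)) := by
  obtain ⟨h, hu, e⟩ := q_cell_spec hx
  refine ⟨(blk_lt ⟨_, h⟩).2, ?_⟩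
  have hT : nel 13 ∈ P2 :=
    (Subgroup.mem_inf.1 (nel_flag (by norm_num : 13 < 14))).2
  have e1 := edge U_le_P2 (by norm_num) hT (a := 2) (b := 3) edge_facts.1
  have e2 := edge U_le_P2 (by norm_num) hT (a := 3) (b := 4) edge_facts.2.1
  have e3 := edge U_le_P2 (by norm_num) s2_mem (a := 0) (b := 3) edge_facts.2.2.2.1
  have key : ∀ c : Fin 5, MulAction.orbit ↥P2 (qR c) =
      MulAction.orbit ↥P2 (repQ2 ([0, 1, 0, 0, 0].getD (c : ℕ) 0)) := by
    intro c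
    fin_cases c
    exacts [rfl, rfl, e1.symm.trans e3, e3, e2.trans e3]
  rw [← MulAction.orbit_eq_iff]
  calc MulAction.orbit ↥P2 x
      = MulAction.orbit ↥P2 (qR ⟨qCell x, h⟩) := by
        conv_lhs => rw [← e]
        exact MulAction.orbit_smul (⟨_, U_le_P2 ⟨_, hu, rfl⟩⟩ : ↥P2) _
    _ = _ := key _

theorem sizesQ : ∀ b0 b1 b2 b3 : Bool,
    (!(Nat.beq (blockCount 1782 isQ blkQ1 [b0, b1, b2, b3]) 96) || (!b0 && b1)) = true ∧
    Nat.beq (blockCount 1782 isQ blkQ2 [b0, b1, b2, b3]) 96 = false := by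
  decide +kernel

theorem sizes320 : ∀ b0 b1 b2 b3 : Bool,
    (!(Nat.beq (blockCount 1782 isR blkR [b0, b1, b2, b3]) 320) ||
      ([b0, b1, b2, b3] == [false, false, true, false])) = true := by
  decide +kernel

theorem blkQ1_le : ∀ c : Fin 5, [0, 0, 1, 1, 1].getD (c : ℕ) 0 ≤ 1 := by decide +kernel

theorem set96 {A : Set (Fin 1782)} (hA : ∀ x ∈ A, isQ x = true) (h96 : A.ncard = 96)
    (hinv : ∀ h ∈ P1, ∀ q ∈ A, h q ∈ A) :
    A = {x : Fin 1782 | (isQ x && Nat.beq (blkQ1 x) 1) = true} := by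
  obtain ⟨b0, b1, b2, b3, hn, hAeq⟩ := blocks (fun i : Fin 1782 => i) isQ blkQ1 repQ1 P1
    (fun i j _ _ h => h) (fun i hi => (blkQ1_spec hi).1) (fun i hi => (blkQ1_spec hi).2)
    (fun a ha => ⟨a, hA a ha, rfl⟩) hinv
  have hs := (sizesQ b0 b1 b2 b3).1
  rw [← hn, h96] at hs
  simp only [Nat.beq_refl, Bool.not_true, Bool.false_or, Bool.and_eq_true, Bool.not_eq_true'] at hs
  rw [hAeq, Set.image_id']
  ext x
  simp only [Set.mem_setOf_eq, Bool.and_eq_true, Nat.beq_eq, hs.1, hs.2]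
  refine and_congr_right fun hx => ?_
  obtain ⟨h, -, -⟩ := q_cell_spec hx
  have := blkQ1_le ⟨_, h⟩
  change blkQ1 x ≤ 1 at this
  interval_cases hk : blkQ1 x <;> simp

theorem not96_P2 {A : Set (Fin 1782)} (hA : ∀ x ∈ A, isQ x = true)
    (hinv : ∀ h ∈ P2, ∀ q ∈ A, h q ∈ A) : A.ncard ≠ 96 := by
  intro h96
  obtain ⟨b0, b1, b2, b3, hn, -⟩ := blocks (fun i : Fin 1782 => i) isQ blkQ2 repQ2 P2
    (fun i j _ _ h => h) (fun i hi => (blkQ2_spec hi).1) (fun i hi => (blkQ2_spec hi).2)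
    (fun a ha => ⟨a, hA a ha, rfl⟩) hinv
  have hs := (sizesQ b0 b1 b2 b3).2
  rw [← hn, h96, Nat.beq_refl] at hs
  exact Bool.noConfusion hs

/-- A subgroup of order 184320 leaving 96 points of the suborbit of length 416 invariant is a point
stabiliser. -/
theorem _root_.Cfsg.Agent.SuzRank.inv_ninetysix (hcard : Nat.card ↥Gam = 251596800)
    {X : Subgroup (Equiv.Perm (Fin 1782))} (hX : X ≤ Gam) (hc : Nat.card ↥X = 184320)
    {A : Set (Fin 1782)} (hA : ∀ x ∈ A, isQ x = true) (h96 : A.ncard = 96)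
    (hinv : ∀ h ∈ X, ∀ q ∈ A, h q ∈ A) :
    ∃ r ∈ MulAction.orbit ↥Gam p1,
      X = Gam ⊓ MulAction.stabilizer (Equiv.Perm (Fin 1782)) r := by
  obtain ⟨g, hg, hP⟩ := parabolic_conj hcard hX hc
  have hmem : ∀ h, h ∈ X ↔ g * h * g⁻¹ ∈ X.map (MulAut.conj g).toMonoidHom := fun h =>
    (Subgroup.mem_map_iff_mem (MulAut.conj g).injective).symm
  rcases hP with hP | hP
  · refine ⟨g⁻¹ • p1, ⟨⟨g⁻¹, inv_mem hg⟩, rfl⟩, ?_⟩
    ext h
    rw [hmem, hP, mem_P1, Subgroup.mem_inf, MulAction.mem_stabilizer_iff,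
      smul_eq_iff_eq_inv_smul h, ← Equiv.Perm.smul_def, mul_smul, mul_smul]
    constructor
    · rintro ⟨h1, h2⟩
      refine ⟨?_, ?_⟩
      · simpa [mul_assoc] using mul_mem (mul_mem (inv_mem hg) h1) hg
      · rw [eq_inv_smul_iff, eq_inv_smul_iff]
        exact h2
    · rintro ⟨h1, h2⟩
      refine ⟨mul_mem (mul_mem hg h1) (inv_mem hg), ?_⟩
      rw [eq_inv_smul_iff, eq_inv_smul_iff] at h2
      exact h2
  · exfalso
    refine not96_P2 (A := (fun x => g x) '' A) ?_ ?_ ?_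
    · rintro _ ⟨x, hx, rfl⟩
      rw [isQ_Gam hg]
      exact hA x hx
    · rintro k hk _ ⟨x, hx, rfl⟩
      have hh : g⁻¹ * k * g ∈ X := (hmem _).2 (by rw [hP]; simpa [mul_assoc] using hk)
      exact ⟨_, hinv _ hh x hx, by simp⟩
    · rw [Set.ncard_image_of_injective A g.injective, h96]

/-- The first parabolic leaves only one set of 96 points invariant. -/
theorem _root_.Cfsg.Agent.SuzRank.inv_unique96 {A B : Set (Fin 1782)}
    (hA : ∀ x ∈ A, isQ x = true) (hB : ∀ x ∈ B, isQ x = true) (hAc : A.ncard = 96)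
    (hBc : B.ncard = 96) (hAi : ∀ h ∈ P1, ∀ q ∈ A, h q ∈ A) (hBi : ∀ h ∈ P1, ∀ q ∈ B, h q ∈ B) :
    A = B :=
  (set96 hA hAc hAi).trans (set96 hB hBc hBi).symm

/-- The first parabolic leaves only one set of 320 points of the suborbit of length 1365 invariant. -/
theorem _root_.Cfsg.Agent.SuzRank.inv_unique320 {A B : Set (Fin 1782)}
    (hA : A ⊆ MulAction.orbit ↥Gam p1) (hB : B ⊆ MulAction.orbit ↥Gam p1) (hAc : A.ncard = 320)
    (hBc : B.ncard = 320) (hAi : ∀ h ∈ P1, ∀ q ∈ A, h q ∈ A) (hBi : ∀ h ∈ P1, ∀ q ∈ B, h q ∈ B) :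
    A = B := by
  have key : ∀ C : Set (Fin 1782), C ⊆ MulAction.orbit ↥Gam p1 → C.ncard = 320 →
      (∀ h ∈ P1, ∀ q ∈ C, h q ∈ C) → C = (fun i : Fin 1782 => i) ''
        {i : Fin 1782 | (isR i && [false, false, true, false].getD (blkR i) false) = true} := by
    intro C hC hCc hCi
    obtain ⟨b0, b1, b2, b3, hn, hCeq⟩ := blocks (fun i : Fin 1782 => i) isR blkR repR P1
      (fun i j _ _ h => h) (fun i hi => (blkR_spec hi).1) (fun i hi => (blkR_spec hi).2)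
      (fun a ha => ⟨a, mem_orbit_p1.1 (hC ha), rfl⟩) hCi
    have hs := sizes320 b0 b1 b2 b3
    rw [← hn, hCc] at hs
    simp only [Nat.beq_refl, Bool.not_true, Bool.false_or, beq_iff_eq] at hs
    rw [hCeq, hs]
  exact (key A hA hAc hAi).trans (key B hB hBc hBi).symm

end Cfsg.Agent.SuzRank.Para
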