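import Cfsg.Agent.SuzRank.ParaBlocks
import Cfsg.Agent.SuzRank.ParaConj

/-!
Point stabilisers in the invariant sets of size 320 of the parabolic subgroups.
-/

set_option autoImplicit false
set_option maxRecDepth 100000

namespace Cfsg.Agent.SuzRank.Para

open Cfsg.Agent.CosetCert
open scoped Pointwise

/-- The suborbit statement for a subgroup and a base point. -/
def SubFact {α : Type*} [MulAction (Equiv.Perm (Fin 1782)) α]
    (P : Subgroup (Equiv.Perm (Fin 1782))) (x0 : α) : Prop :=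
  ∀ A : Set α, A ⊆ MulAction.orbit ↥Gam x0 → (∀ h ∈ P, ∀ q ∈ A, h • q ∈ A) →
    A.ncard ∈ ({320, 352, 384} : Set ℕ) → ∀ q ∈ A,
      Nat.card ↥(P ⊓ MulAction.stabilizer (Equiv.Perm (Fin 1782)) q) = 576 ∧
        ∃ V : Subgroup (Equiv.Perm (Fin 1782)),
          V ≤ P ⊓ MulAction.stabilizer (Equiv.Perm (Fin 1782)) q ∧ Nat.card ↥V = 64 ∧
            ∀ w ∈ P ⊓ MulAction.stabilizer (Equiv.Perm (Fin 1782)) q, ∀ v ∈ V, w * v * w⁻¹ ∈ V

/-- A subgroup of order 576 containing a `T`-invariant part of `U` of order 64 normalises it. -/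
theorem normalises {W : Subgroup (Equiv.Perm (Fin 1782))} (hW : Nat.card ↥W = 576) (hT : T ≤ W)
    (hV : Nat.card ↥(U ⊓ W) = 64) : ∀ w ∈ W, ∀ v ∈ U ⊓ W, w * v * w⁻¹ ∈ U ⊓ W := by
  intro w hw v hv
  have hsup : (U ⊓ W) ⊔ T = W := by
    refine Subgroup.eq_of_le_of_card_ge (sup_le inf_le_right hT) ?_
    have h1 : 64 ∣ Nat.card ↥((U ⊓ W) ⊔ T) := hV ▸ Subgroup.card_dvd_of_le le_sup_left
    have h2 : 9 ∣ Nat.card ↥((U ⊓ W) ⊔ T) := card_T ▸ Subgroup.card_dvd_of_le le_sup_right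
    rw [hW]
    exact Nat.le_of_dvd Nat.card_pos
      (Nat.Coprime.mul_dvd_of_dvd_of_dvd (by norm_num : Nat.Coprime 64 9) h1 h2)
  have hle : (U ⊓ W) ⊔ T ≤ Subgroup.normalizer ((U ⊓ W : Subgroup _) : Set _) := by
    refine sup_le Subgroup.le_normalizer fun t ht => ?_
    rw [Subgroup.mem_normalizer_iff]
    intro y
    simp only [Subgroup.mem_inf]
    refine ⟨fun h => ⟨T_conj_U ht h.1, mul_mem (mul_mem (hT ht) h.2) (inv_mem (hT ht))⟩,
      fun h => ?_⟩
    have h1 := T_norm_inv ht h.1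
    have h2 := mul_mem (mul_mem (inv_mem (hT ht)) h.2) (hT ht)
    simp only [mul_assoc, inv_mul_cancel_left, inv_mul_cancel, mul_one] at h1 h2
    exact ⟨h1, h2⟩
  rw [hsup] at hle
  exact (Subgroup.mem_normalizer_iff.1 (hle hw) v).1 hv

/-- The fact at one point gives it on its whole orbit. -/
theorem along_orbit {α : Type*} [MulAction (Equiv.Perm (Fin 1782)) α]
    {P : Subgroup (Equiv.Perm (Fin 1782))} {q0 q : α} (hq : q ∈ MulAction.orbit ↥P q0)
    {V : Subgroup (Equiv.Perm (Fin 1782))}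
    (hV : V ≤ P ⊓ MulAction.stabilizer (Equiv.Perm (Fin 1782)) q0) (hc : Nat.card ↥V = 64)
    (hn : ∀ w ∈ P ⊓ MulAction.stabilizer (Equiv.Perm (Fin 1782)) q0, ∀ v ∈ V, w * v * w⁻¹ ∈ V) :
    ∃ V : Subgroup (Equiv.Perm (Fin 1782)),
      V ≤ P ⊓ MulAction.stabilizer (Equiv.Perm (Fin 1782)) q ∧ Nat.card ↥V = 64 ∧
        ∀ w ∈ P ⊓ MulAction.stabilizer (Equiv.Perm (Fin 1782)) q, ∀ v ∈ V, w * v * w⁻¹ ∈ V := by
  obtain ⟨⟨h, hh⟩, rfl⟩ := hq
  refine ⟨V.map (MulAut.conj h).toMonoidHom, ?_, ?_, ?_⟩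
  · rintro _ ⟨v, hv, rfl⟩
    obtain ⟨h1, h2⟩ := Subgroup.mem_inf.1 (hV hv)
    refine Subgroup.mem_inf.2 ⟨mul_mem (mul_mem hh h1) (inv_mem hh), ?_⟩
    rw [MulAction.mem_stabilizer_iff] at h2 ⊢
    show (h * v * h⁻¹) • h • q0 = h • q0
    rw [mul_smul, mul_smul, inv_smul_smul, h2]
  · rw [← Nat.card_congr (V.equivMapOfInjective _ (MulAut.conj h).injective).toEquiv, hc]
  · rintro w hw _ ⟨v, hv, rfl⟩
    obtain ⟨h1, h2⟩ := Subgroup.mem_inf.1 hw
    refine ⟨(h⁻¹ * w * h) * v * (h⁻¹ * w * h)⁻¹, hn _ ?_ v hv, ?_⟩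
    · refine Subgroup.mem_inf.2 ⟨mul_mem (mul_mem (inv_mem hh) h1) hh, ?_⟩
      rw [MulAction.mem_stabilizer_iff] at h2 ⊢
      show (h⁻¹ * w * h) • q0 = q0
      rw [mul_smul, mul_smul, show w • h • q0 = h • q0 from h2, inv_smul_smul]
    · show h * ((h⁻¹ * w * h) * v * (h⁻¹ * w * h)⁻¹) * h⁻¹ = w * (h * v * h⁻¹) * w⁻¹
      group

/-- The stabiliser in `U` of the base point of the block of size 320. -/
theorem repR_count : ((List.range 4096).countP fun i =>
    Nat.beq (uimg i (fPts.getD 2 0)) (fPts.getD 2 0)) = 64 := by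
  decide +kernel

/-- The stabiliser in `U` of the base line of the block of size 320. -/
theorem repL_count : ((List.range 4096).countP fun i => (List.range 5).all fun j =>
    lineB (repL 2) (uimg i (linePt (repL 2) j))) = 64 ∧ repL 2 < 1365 ∧
    (∀ s : Fin 2, ((List.range 5).all fun j =>
      lineB (repL 2) (nimg (12 + s) (linePt (repL 2) j))) = true) := by
  decide +kernel

theorem card_U_inf {S : Subgroup (Equiv.Perm (Fin 1782))} (f : ℕ → Bool)
    (hf : ∀ i < 4096, (uel i ∈ S ↔ f i = true)) :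
    Nat.card ↥(U ⊓ S) = (List.range 4096).countP f := by
  rw [← card_countP]
  refine (Nat.card_congr (Equiv.ofBijective (fun i : {i : Fin 4096 // f i = true} =>
    (⟨uel i.1, ⟨_, i.1.2, rfl⟩, (hf _ i.1.2).2 i.2⟩ : ↥(U ⊓ S))) ⟨fun a b h => ?_, ?_⟩)).symm
  · exact Subtype.ext (Fin.ext (uel_inj a.1.2 b.1.2 (congrArg Subtype.val h)))
  · rintro ⟨_, ⟨i, hi, rfl⟩, hS⟩
    exact ⟨⟨⟨i, hi⟩, (hf i hi).1 hS⟩, rfl⟩

theorem subFact_P1 (hcard : Nat.card ↥Gam = 251596800) : SubFact P1 p1 := by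
  intro A hA hinv hAc q hq
  obtain ⟨b0, b1, b2, b3, hn, hAeq⟩ := blocks (fun i : Fin 1782 => i) isR blkR repR P1
    (fun i j _ _ h => h) (fun i hi => (blkR_spec hi).1) (fun i hi => (blkR_spec hi).2)
    (fun a ha => ⟨a, mem_orbit_p1.1 (hA ha), rfl⟩) hinv
  have hs := blockR_sizes b0 b1 b2 b3
  rw [← hn] at hs
  have hin : [320, 352, 384].contains A.ncard = true := by simpa using hAc
  rw [hin] at hs
  simp only [Bool.not_true, Bool.false_or, Bool.and_eq_true, beq_iff_eq, Nat.beq_eq] at hs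
  obtain ⟨hb, hn320⟩ := hs
  rw [hb] at hAeq
  obtain ⟨horb, hqr⟩ := block_orbit (fun i : Fin 1782 => i) isR blkR repR P1
    (fun i hi => (blkR_spec hi).2) (j := 2) hAeq
    (fun k hk => by rcases k with _ | _ | _ | _ | k <;> simp at hk ⊢) hinv hq
  have hst : ∀ z ∈ MulAction.orbit ↥P1 q,
      Nat.card ↥(P1 ⊓ MulAction.stabilizer (Equiv.Perm (Fin 1782)) z) = 576 := by
    intro z hz
    have h := card_inf_stab P1 z
    rw [MulAction.orbit_eq_iff.2 hz, horb, hn320, card_P1 hcard] at h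
    omega
  have h0 : Nat.card ↥(P1 ⊓ MulAction.stabilizer (Equiv.Perm (Fin 1782)) (repR 2)) = 576 :=
    hst _ (MulAction.mem_orbit_symm.1 hqr)
  refine ⟨hst q (MulAction.mem_orbit_self q), along_orbit hqr inf_le_right ?_ (normalises h0 ?_ ?_)⟩
  rotate_left
  · intro t ht
    exact Subgroup.mem_inf.2 ⟨(Subgroup.mem_inf.1 (T_le_Bflag ht)).1,
      MulAction.mem_stabilizer_iff.2 (T_fix ht _)⟩
  all_goals
    rw [card_U_inf (fun i => Nat.beq (uimg i (fPts.getD 2 0)) (fPts.getD 2 0)) fun i hi => ?_,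
      repR_count]
    rw [Subgroup.mem_inf, MulAction.mem_stabilizer_iff, Nat.beq_eq]
    exact ⟨fun h => by
      have := congrArg Fin.val h.2
      rw [Equiv.Perm.smul_def, uel_val] at this
      exact this, fun h => ⟨(Subgroup.mem_inf.1 (U_le_Bflag ⟨i, hi, rfl⟩)).1, Fin.ext (by
        rw [Equiv.Perm.smul_def, uel_val]; exact h)⟩⟩

theorem subFact_P2 (hcard : Nat.card ↥Gam = 251596800) : SubFact P2 line0 := by
  intro A hA hinv hAc q hq
  have hA' : ∀ a ∈ A, ∃ k : Fin 1365, (fun _ : ℕ => true) k = true ∧ lineSet k = a := by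
    intro a ha
    have := hA ha
    rw [orbit_line0] at this
    obtain ⟨k, -, rfl⟩ := this
    exact ⟨k, rfl, rfl⟩
  obtain ⟨b0, b1, b2, b3, hn, hAeq⟩ := blocks (fun k : Fin 1365 => lineSet k) (fun _ => true) blkL
    (fun j => lineSet (repL j)) P2 (fun i j _ _ h => Fin.ext (lineSet_injective i.2 j.2 h))
    (fun i _ => (blkL_spec i).1) (fun i _ => (blkL_spec i).2) hA' hinv
  have hs := blockL_sizes b0 b1 b2 b3
  rw [← hn] at hs
  have hin : [320, 352, 384].contains A.ncard = true := by simpa using hAc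
  rw [hin] at hs
  simp only [Bool.not_true, Bool.false_or, Bool.and_eq_true, beq_iff_eq, Nat.beq_eq] at hs
  obtain ⟨hb, hn320⟩ := hs
  rw [hb] at hAeq
  obtain ⟨horb, hqr⟩ := block_orbit (fun k : Fin 1365 => lineSet k) (fun _ => true) blkL
    (fun j => lineSet (repL j)) P2
    (fun i _ => (blkL_spec i).2) (j := 2) hAeq
    (fun k hk => by rcases k with _ | _ | _ | _ | k <;> simp at hk ⊢) hinv hq
  have hst : ∀ z ∈ MulAction.orbit ↥P2 q,
      Nat.card ↥(P2 ⊓ MulAction.stabilizer (Equiv.Perm (Fin 1782)) z) = 576 := by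
    intro z hz
    have h := card_inf_stab P2 z
    rw [MulAction.orbit_eq_iff.2 hz, horb, hn320, card_P2 hcard] at h
    omega
  have h0 : Nat.card ↥(P2 ⊓ MulAction.stabilizer (Equiv.Perm (Fin 1782)) (lineSet (repL 2))) = 576 :=
    hst _ (MulAction.mem_orbit_symm.1 hqr)
  refine ⟨hst q (MulAction.mem_orbit_self q), along_orbit hqr inf_le_right ?_ (normalises h0 ?_ ?_)⟩
  rotate_left
  · intro t ht
    have h : ∀ s : Fin 2, nel (12 + s) ∈
        MulAction.stabilizer (Equiv.Perm (Fin 1782)) (lineSet (repL 2)) := fun s =>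
      MulAction.mem_stabilizer_iff.2 (lineSet_image_of_subset repL_count.2.1 repL_count.2.1 fun j => by
        rw [nel_val (show 12 + (s : ℕ) < 29 by omega)]
        exact List.all_eq_true.1 (repL_count.2.2 s) j (List.mem_range.2 j.2))
    refine Subgroup.mem_inf.2 ⟨(Subgroup.mem_inf.1 (T_le_Bflag ht)).2, ?_⟩
    obtain ⟨a, b, rfl⟩ := ht
    exact mul_mem (pow_mem (h 0) a) (pow_mem (h 1) b)
  all_goals
    rw [card_U_inf (fun i => (List.range 5).all fun j =>
      lineB (repL 2) (uimg i (linePt (repL 2) j))) fun i hi => ?_, repL_count.1]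
    rw [Subgroup.mem_inf, MulAction.mem_stabilizer_iff, List.all_eq_true]
    refine ⟨fun h j hj => ?_, fun h => ⟨(Subgroup.mem_inf.1 (U_le_Bflag ⟨i, hi, rfl⟩)).2,
      lineSet_image_of_subset repL_count.2.1 repL_count.2.1 fun j => by
        rw [uel_val]; exact h j (List.mem_range.2 j.2)⟩⟩
    have hj' := List.mem_range.1 hj
    have hm : linePtF (repL 2) repL_count.2.1 ⟨j, hj'⟩ ∈ lineSet (repL 2) := by
      rw [lineSet_eq_image repL_count.2.1]
      exact Finset.mem_image_of_mem _ (Finset.mem_univ _)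
    have hm' := Finset.smul_mem_smul_finset (a := uel i) hm
    rw [h.2, mem_lineSet, Equiv.Perm.smul_def, uel_val] at hm'
    exact hm'

/-- The statement moves from a parabolic subgroup to a conjugate. -/
theorem transfer {α : Type*} [MulAction (Equiv.Perm (Fin 1782)) α]
    {X P : Subgroup (Equiv.Perm (Fin 1782))} {g : Equiv.Perm (Fin 1782)}
    (hg : g ∈ Gam) (hgX : X.map (MulAut.conj g).toMonoidHom = P) {x0 : α}
    (hP : ∀ h, h ∈ P ↔ h ∈ Gam ∧ h • x0 = x0) (hS : SubFact P x0) :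
    ∀ A : Set (↥Gam ⧸ X.subgroupOf Gam), (∀ h ∈ X.subgroupOf Gam, ∀ q ∈ A, h • q ∈ A) →
      A.ncard ∈ ({320, 352, 384} : Set ℕ) → ∀ q ∈ A,
        Nat.card ↥(X.subgroupOf Gam ⊓ MulAction.stabilizer ↥Gam q) = 576 ∧
          ∃ V : Subgroup ↥Gam, V ≤ X.subgroupOf Gam ⊓ MulAction.stabilizer ↥Gam q ∧
            Nat.card ↥V = 64 ∧
              ∀ w ∈ X.subgroupOf Gam ⊓ MulAction.stabilizer ↥Gam q, ∀ v ∈ V, w * v * w⁻¹ ∈ V := by
  set y : α := g⁻¹ • x0 with hy
  have hXmem : ∀ h, h ∈ X ↔ g * h * g⁻¹ ∈ P := fun h => by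
    rw [← hgX]
    exact (Subgroup.mem_map_iff_mem (MulAut.conj g).injective).symm
  have hXs : X.subgroupOf Gam = MulAction.stabilizer ↥Gam y := by
    ext ⟨h, hh⟩
    rw [Subgroup.mem_subgroupOf, MulAction.mem_stabilizer_iff, Subgroup.mk_smul, hXmem, hP,
      and_iff_right (mul_mem (mul_mem hg hh) (inv_mem hg)), mul_smul, mul_smul, ← hy,
      smul_eq_iff_eq_inv_smul, ← hy]
  rw [hXs]
  intro A hinv hA q hq
  set φ : ↥Gam ⧸ MulAction.stabilizer ↥Gam y → α :=
    fun r => g • MulAction.ofQuotientStabilizer ↥Gam y r with hφ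
  have hφinj : Function.Injective φ := fun a b h =>
    MulAction.injective_ofQuotientStabilizer ↥Gam y (MulAction.injective g h)
  have hinv' : ∀ h ∈ P, ∀ z ∈ φ '' A, h • z ∈ φ '' A := by
    rintro h hh _ ⟨r, hr, rfl⟩
    have h' : g⁻¹ * h * g ∈ Gam := mul_mem (mul_mem (inv_mem hg) ((hP h).1 hh).1) hg
    refine ⟨(⟨_, h'⟩ : ↥Gam) • r, hinv _ ?_ r hr, ?_⟩
    · rw [MulAction.mem_stabilizer_iff, Subgroup.mk_smul, hy, mul_smul, mul_smul, smul_inv_smul,
        ((hP h).1 hh).2]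
    · show g • MulAction.ofQuotientStabilizer ↥Gam y _ = h • g • _
      rw [MulAction.ofQuotientStabilizer_smul, Subgroup.mk_smul, mul_smul, mul_smul, smul_inv_smul]
  have hsub : φ '' A ⊆ MulAction.orbit ↥Gam x0 := by
    rintro _ ⟨r, -, rfl⟩
    obtain ⟨⟨k, hk⟩, hk'⟩ := MulAction.ofQuotientStabilizer_mem_orbit ↥Gam y r
    refine ⟨⟨g * k * g⁻¹, mul_mem (mul_mem hg hk) (inv_mem hg)⟩, ?_⟩
    show (g * k * g⁻¹) • x0 = g • _
    rw [← hk', mul_smul, mul_smul, hy]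
    rfl
  obtain ⟨hc, V, hV, hVc, hVn⟩ := hS (φ '' A) hsub hinv'
    (by rw [Set.ncard_image_of_injective A hφinj]; exact hA) (φ q) ⟨q, hq, rfl⟩
  set ι : ↥Gam →* Equiv.Perm (Fin 1782) := (MulAut.conj g).toMonoidHom.comp Gam.subtype with hι
  have hιinj : Function.Injective ι := (MulAut.conj g).injective.comp Subtype.val_injective
  have hK : (MulAction.stabilizer ↥Gam y ⊓ MulAction.stabilizer ↥Gam q).map ι =
      P ⊓ MulAction.stabilizer (Equiv.Perm (Fin 1782)) (φ q) := by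
    ext k
    constructor
    · rintro ⟨⟨h, hh⟩, hm, rfl⟩
      obtain ⟨h1, h2⟩ := Subgroup.mem_inf.1 hm
      refine Subgroup.mem_inf.2 ⟨?_, ?_⟩
      · refine (hXmem h).1 ?_
        rw [← hXs] at h1
        exact h1
      · rw [MulAction.mem_stabilizer_iff] at h2 ⊢
        show (g * h * g⁻¹) • g • MulAction.ofQuotientStabilizer ↥Gam y q = _
        rw [mul_smul, mul_smul, inv_smul_smul, ← Subgroup.mk_smul h hh,
          ← MulAction.ofQuotientStabilizer_smul, h2]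
    · intro hk
      obtain ⟨h1, h2⟩ := Subgroup.mem_inf.1 hk
      have h' : g⁻¹ * k * g ∈ Gam := mul_mem (mul_mem (inv_mem hg) ((hP k).1 h1).1) hg
      refine ⟨⟨_, h'⟩, Subgroup.mem_inf.2 ⟨?_, ?_⟩, ?_⟩
      · rw [← hXs]
        refine (hXmem _).2 ?_
        simpa [mul_assoc] using h1
      · rw [MulAction.mem_stabilizer_iff] at h2 ⊢
        refine MulAction.injective_ofQuotientStabilizer ↥Gam y ?_
        rw [MulAction.ofQuotientStabilizer_smul, Subgroup.mk_smul, mul_smul, mul_smul,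
          inv_smul_eq_iff]
        exact h2
      · show g * (g⁻¹ * k * g) * g⁻¹ = k
        group
  refine ⟨?_, V.comap ι, ?_, ?_, ?_⟩
  · rw [← hc, ← hK]
    exact Nat.card_congr (Subgroup.equivMapOfInjective _ _ hιinj).toEquiv
  · rw [← Subgroup.comap_map_eq_self_of_injective hιinj
      (MulAction.stabilizer ↥Gam y ⊓ MulAction.stabilizer ↥Gam q), hK]
    exact Subgroup.comap_mono hV
  · have hr : (V.comap ι).map ι = V :=
      Subgroup.map_comap_eq_self (hV.trans (hK ▸ Subgroup.map_le_range _ _))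
    rw [← hVc, Nat.card_congr (Subgroup.equivMapOfInjective _ _ hιinj).toEquiv, hr]
  · intro w hw v hv
    show ι (w * v * w⁻¹) ∈ V
    rw [map_mul, map_mul, map_inv]
    exact hVn _ (hK ▸ Subgroup.mem_map_of_mem _ hw) _ hv

/-- Suborbit data of a subgroup of order 184320. -/
theorem _root_.Cfsg.Agent.SuzRank.suborbit_fact (hcard : Nat.card ↥Gam = 251596800)
    {X : Subgroup (Equiv.Perm (Fin 1782))} (hX : X ≤ Gam) (hc : Nat.card ↥X = 184320) :
    ∀ A : Set (↥Gam ⧸ X.subgroupOf Gam), (∀ h ∈ X.subgroupOf Gam, ∀ q ∈ A, h • q ∈ A) →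
      A.ncard ∈ ({320, 352, 384} : Set ℕ) → ∀ q ∈ A,
        Nat.card ↥(X.subgroupOf Gam ⊓ MulAction.stabilizer ↥Gam q) = 576 ∧
          ∃ V : Subgroup ↥Gam, V ≤ X.subgroupOf Gam ⊓ MulAction.stabilizer ↥Gam q ∧
            Nat.card ↥V = 64 ∧
              ∀ w ∈ X.subgroupOf Gam ⊓ MulAction.stabilizer ↥Gam q, ∀ v ∈ V, w * v * w⁻¹ ∈ V := by
  obtain ⟨g, hg, h | h⟩ := parabolic_conj hcard hX hc
  · exact transfer hg h (fun h => mem_P1) (subFact_P1 hcard)
  · exact transfer hg h (fun h => mem_P2_smul) (subFact_P2 hcard)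

/-- The same for subgroups of index 1365 (the hypothesis `hP` of `exists_W`). -/
theorem _root_.Cfsg.Agent.SuzRank.suborbit_fact_index (hcard : Nat.card ↥Gam = 251596800) :
    ∀ X : Subgroup ↥Gam, X.index = 1365 → ∀ A : Set (↥Gam ⧸ X), (∀ h ∈ X, ∀ q ∈ A, h • q ∈ A) →
      A.ncard ∈ ({320, 352, 384} : Set ℕ) → ∀ q ∈ A,
        Nat.card ↥(X ⊓ MulAction.stabilizer ↥Gam q) = 576 ∧
          ∃ V : Subgroup ↥Gam, V ≤ X ⊓ MulAction.stabilizer ↥Gam q ∧ Nat.card ↥V = 64 ∧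
            ∀ w ∈ X ⊓ MulAction.stabilizer ↥Gam q, ∀ v ∈ V, w * v * w⁻¹ ∈ V := by
  intro X hX
  have e : (X.map Gam.subtype).subgroupOf Gam = X :=
    Subgroup.comap_map_eq_self_of_injective Subtype.val_injective X
  have hc : Nat.card ↥(X.map Gam.subtype) = 184320 := by
    rw [← Nat.card_congr (X.equivMapOfInjective _ Subtype.val_injective).toEquiv]
    have := Subgroup.card_mul_index X
    rw [hX, hcard] at this
    omega
  have h := suborbit_fact hcard (Subgroup.map_subtype_le X) hc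
  rwa [e] at h

end Cfsg.Agent.SuzRank.Para
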