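import Cfsg.Agent.SuzRank.ParaConj

/-!
The group of order 576 inside a maximal parabolic subgroup, normalised so that it contains the torus
and has its normal subgroup of order 64 inside the Sylow 2-subgroup; subgroups of order 27 through
the torus.
-/

set_option autoImplicit false
set_option maxRecDepth 100000

namespace Cfsg.Agent.SuzRank

open Cfsg.Agent.CosetCert
open scoped Pointwise

/-! ### Lines and fixed points of the torus -/

theorem through_one : ∀ k : Fin 1365, Para.lineB k 1 = true →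
    ((k : ℕ) = 2 ∨ (k : ℕ) = 56 ∨ (k : ℕ) = 27 ∨ (k : ℕ) = 82 ∨ (k : ℕ) = 30) ∧
      (Para.lineB k 16 = true → (k : ℕ) = 2) := by
  decide +kernel

/-- An element of the group fixing two points of the base line stabilises it. -/
theorem mem_P2_of_fix {g : Equiv.Perm (Fin 1782)} (hg : g ∈ Gam) (h1 : g p1 = p1)
    (h16 : g ⟨16, by norm_num⟩ = ⟨16, by norm_num⟩) : g ∈ P2 := by
  obtain ⟨q, hq, e⟩ := Para.Gam_line hg (k := 2) (by norm_num)
  rw [← Para.line0_eq] at e
  have hm : ∀ x ∈ line0, g x = x → Para.lineB q (x : ℕ) = true := fun x hx h => by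
    have := Finset.smul_mem_smul_finset (a := g) hx
    rw [e, Equiv.Perm.smul_def, h] at this
    exact Para.mem_lineSet.1 this
  obtain rfl : q = 2 := (through_one ⟨q, hq⟩ (hm p1 (by simp [line0]) h1)).2
    (hm ⟨16, by norm_num⟩ (by simp [line0]) h16)
  exact Para.mem_P2_smul.2 ⟨hg, e.trans Para.line0_eq.symm⟩

/-- A check that a named element maps one line into another. -/
noncomputable def lineMap (i k q : ℕ) : Bool :=
  (List.range 5).all fun j => Para.lineB q (nimg i (Para.linePt k j))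

theorem nel_line {i k q : ℕ} (hi : i < 29) (hk : k < 1365) (hq : q < 1365)
    (h : lineMap i k q = true) : nel i • Para.lineSet k = Para.lineSet q := by
  refine Para.lineSet_image_of_subset hk hq fun j => ?_
  rw [nel_val hi]
  exact List.all_eq_true.1 h j (List.mem_range.2 j.2)

theorem line_checks :
    (lineMap 12 2 2 = true ∧ lineMap 13 2 2 = true ∧ lineMap 15 56 2 = true ∧
      lineMap 16 2 2 = true) ∧
    (lineMap 12 27 82 = true ∧ lineMap 12 82 30 = true ∧ lineMap 12 30 27 = true) := by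
  decide +kernel

theorem point_checks : (nimg 15 1 = 1 ∧ nimg 16 16 = 1) ∧
    (nimg 13 30 = 68 ∧ nimg 13 68 = 260 ∧ nimg 13 260 = 30) := by
  decide +kernel

theorem T_pow_three {t : Equiv.Perm (Fin 1782)} (ht : t ∈ T) : t ^ 3 = 1 := by
  obtain ⟨a, b, rfl⟩ := ht
  rw [(torus_comm.pow_pow a b).mul_pow, ← pow_mul, ← pow_mul, mul_comm a, mul_comm b, pow_mul,
    pow_mul, show nel 12 ^ 3 = 1 from torus_cube 0, show nel 13 ^ 3 = 1 from torus_cube 1, one_pow,
    one_pow, one_mul]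

theorem T_le_of {H : Subgroup (Equiv.Perm (Fin 1782))} (h12 : nel 12 ∈ H) (h13 : nel 13 ∈ H) :
    T ≤ H := by
  rintro _ ⟨a, b, rfl⟩
  exact mul_mem (pow_mem h12 _) (pow_mem h13 _)

theorem fP_inj : Function.Injective Para.fP := by
  have h : ∀ a b : Fin 6, fPts.getD a 0 = fPts.getD b 0 → a = b := by decide +kernel
  exact fun a b e => h a b (congrArg Fin.val e)

theorem fP_rot : ∀ j : Fin 6, nimg 14 (fPts.getD j 0) = fPts.getD (j + 2 : Fin 6) 0 := by
  decide +kernel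

theorem T_fixed_check : allB (fun x => Nat.ble 1782 x || !(Nat.beq (nimg 12 x) x) ||
    !(Nat.beq (nimg 13 x) x) || !(Para.isR x) || fPts.contains x) 11 0 = true := by
  decide +kernel

/-- The torus fixes exactly six points of the suborbit of length 1365. -/
theorem T_fixed {x : Fin 1782} (h12 : nel 12 x = x) (h13 : nel 13 x = x)
    (hR : Para.isR x = true) : ∃ j, Para.fP j = x := by
  have h := allB_spec_zero T_fixed_check (by norm_num : 1782 ≤ 2 ^ 11) x.2
  simp only [Bool.or_eq_true, Bool.not_eq_true', hR, Bool.true_eq_false, or_false] at h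
  rcases h with ((h | h) | h) | h
  · exact absurd (Nat.le_of_ble_eq_true h) (not_le.2 x.2)
  · rw [← nel_val (by norm_num), h12] at h
    simp at h
  · rw [← nel_val (by norm_num), h13] at h
    simp at h
  · obtain ⟨i, hi, hix⟩ := List.mem_iff_getElem.1 (List.contains_iff_mem.1 h)
    refine ⟨⟨i, hi⟩, Fin.ext ?_⟩
    show fPts.getD i 0 = x
    rw [List.getD_eq_getElem _ _ hi, hix]

/-- Adjacency in the hexagon. -/
def hexAdj (a b : Fin 6) : Bool := b == a + 1 || a == b + 1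

theorem hex_line : ∀ a : Fin 6, fLines.getD a 0 < 1365 ∧
    Para.lineB (fLines.getD a 0) (fPts.getD a 0) = true ∧
      Para.lineB (fLines.getD a 0) (fPts.getD (a + 1 : Fin 6) 0) = true := by
  decide +kernel

theorem hex_only : ∀ k : Fin 1365, ∀ a : Fin 6, Para.lineB k (fPts.getD a 0) = true →
    ∀ b : Fin 6, Para.lineB k (fPts.getD b 0) = true → a = b ∨ hexAdj a b = true := by
  decide +kernel

/-- The symmetries of the hexagon whose cube is trivial. -/
theorem hex_auto : ∀ a b : Fin 6, hexAdj a b = true → ∀ c, hexAdj b c = true → a ≠ c →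
    ∀ d, hexAdj c d = true → b ≠ d → ∀ e, hexAdj d e = true → c ≠ e → ∀ f, hexAdj e f = true →
    d ≠ f →
    (∀ j : Fin 6, ![a, b, c, d, e, f] (![a, b, c, d, e, f] (![a, b, c, d, e, f] j)) = j) →
    (∀ j : Fin 6, ![a, b, c, d, e, f] j = j) ∨ (∀ j : Fin 6, ![a, b, c, d, e, f] j = j + 2) ∨
      (∀ j : Fin 6, ![a, b, c, d, e, f] j = j + 4) := by
  decide +kernel

theorem u_fix_check : allB (fun i => Nat.beq i 0 ||
    [377, 296, 74, 1608, 16].any fun d => !(Nat.beq (uimg i d) d)) 12 0 = true := by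
  decide +kernel

theorem u_fix_points : ∀ d ∈ [377, 296, 74, 1608, 16], ∃ j : Fin 6, fPts.getD j 0 = d := by
  decide +kernel

/-- The pointwise stabiliser of the hexagon is the torus. -/
theorem mem_T_of_fix (hcard : Nat.card ↥Gam = 251596800)
    {g : Equiv.Perm (Fin 1782)} (hg : g ∈ Gam) (hfix : ∀ j, g (Para.fP j) = Para.fP j) :
    g ∈ T := by
  have hP : g ∈ Bflag := ⟨mem_P1.2 ⟨hg, hfix 0⟩, mem_P2_of_fix hg (hfix 0) (hfix 1)⟩
  obtain ⟨u, hu, t, ht, rfl⟩ := (Para.Bflag_eq hcard).2 g hP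
  obtain ⟨i, hi, rfl⟩ := mem_U.1 hu
  suffices i = 0 by subst this; rw [uel_zero, one_mul]; exact ht
  have h := allB_spec_zero u_fix_check (by norm_num : 4096 ≤ 2 ^ 12) hi
  rw [Bool.or_eq_true, List.any_eq_true] at h
  rcases h with h | ⟨d, hd, hne⟩
  · exact Nat.eq_of_beq_eq_true h
  · exfalso
    obtain ⟨j, rfl⟩ := u_fix_points d hd
    have hj : t (Para.fP j) = Para.fP j := Para.T_fix ht j
    have e := congrArg Fin.val (hfix j)
    rw [Equiv.Perm.mul_apply, hj, uel_val] at e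
    change uimg i (fPts.getD j 0) = fPts.getD j 0 at e
    rw [e] at hne
    simp at hne

/-! ### Subgroups of order 27 -/

theorem n_mem (hcard : Nat.card ↥Gam = 251596800)
    {S : Subgroup (Equiv.Perm (Fin 1782))} (hS : S ≤ Gam) (hTS : T ≤ S)
    (hc : Nat.card ↥S = 27) : nel 14 ∈ S := by
  have hcT : Nat.card ↥(T.subgroupOf S) = 9 := by
    rw [Nat.card_congr (Subgroup.subgroupOfEquivOfLe hTS).toEquiv, card_T]
  have hidx : (T.subgroupOf S).index = 3 := by
    have h := (T.subgroupOf S).card_mul_index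
    rw [hcT, hc] at h
    omega
  have : (T.subgroupOf S).Normal :=
    Subgroup.normal_of_index_eq_minFac_card (by rw [hidx, hc]; norm_num)
  have hnorm : ∀ g ∈ S, ∀ t ∈ T, g * t * g⁻¹ ∈ T := fun g hg t ht => by
    have := Subgroup.Normal.conj_mem (H := T.subgroupOf S) inferInstance ⟨t, hTS ht⟩
      (Subgroup.mem_subgroupOf.2 ht) ⟨g, hg⟩
    simpa [Subgroup.mem_subgroupOf] using this
  obtain ⟨g, hg, hgT⟩ : ∃ g ∈ S, g ∉ T := by
    by_contra hcon
    push Not at hcon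
    have := Subgroup.card_le_of_le (H := S) (K := T) hcon
    rw [hc, card_T] at this
    omega
  have hG : g ∈ Gam := hS hg
  -- the permutation of the hexagon
  have hex : ∀ j, ∃ i, Para.fP i = g (Para.fP j) := by
    intro j
    refine T_fixed ?_ ?_ ?_
    · have := Para.T_fix (hnorm g⁻¹ (inv_mem hg) (nel 12) ⟨1, 0, by simp⟩) j
      simp only [Equiv.Perm.smul_def, Equiv.Perm.mul_apply, inv_inv] at this
      rwa [Equiv.Perm.inv_def, Equiv.symm_apply_eq] at this
    · have := Para.T_fix (hnorm g⁻¹ (inv_mem hg) (nel 13) ⟨0, 1, by simp⟩) j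
      simp only [Equiv.Perm.smul_def, Equiv.Perm.mul_apply, inv_inv] at this
      rwa [Equiv.Perm.inv_def, Equiv.symm_apply_eq] at this
    · rw [Para.isR_Gam hG]
      exact (Para.fPts_facts j).1.1
  choose σ hσ using hex
  have σinj : ∀ a b, σ a = σ b → a = b := fun a b e =>
    fP_inj (g.injective (by rw [← hσ a, ← hσ b, e]))
  have σadj : ∀ a, hexAdj (σ a) (σ (a + 1)) = true := by
    intro a
    obtain ⟨hk, hk1, hk2⟩ := hex_line a
    obtain ⟨q, hq, e⟩ := Para.Gam_line hG hk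
    have hm : ∀ b : Fin 6, Para.lineB (fLines.getD a 0) (fPts.getD b 0) = true →
        Para.lineB q (fPts.getD (σ b) 0) = true := fun b hb => by
      have := Finset.smul_mem_smul_finset (a := g)
        ((Para.mem_lineSet (x := Para.fP b)).2 hb)
      rw [e, Equiv.Perm.smul_def, ← hσ b] at this
      exact Para.mem_lineSet.1 this
    have hne : ∀ a : Fin 6, a ≠ a + 1 := by decide
    exact (hex_only ⟨q, hq⟩ _ (hm a hk1) _ (hm _ hk2)).resolve_left fun e => hne a (σinj _ _ e)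
  have σne : ∀ a, σ a ≠ σ (a + 2) := fun a e => by
    have hne : ∀ a : Fin 6, a ≠ a + 2 := by decide
    exact hne a (σinj _ _ e)
  have hcube : ∀ j, σ (σ (σ j)) = j := by
    intro j
    have h3 : g ^ 3 ∈ T := by
      have := Subgroup.pow_index_mem (T.subgroupOf S) ⟨g, hg⟩
      rw [hidx, Subgroup.mem_subgroupOf] at this
      simpa using this
    refine fP_inj ?_
    rw [hσ, hσ, hσ]
    simpa [pow_succ, Equiv.Perm.smul_def, Equiv.Perm.mul_apply] using Para.T_fix h3 j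
  have hvec : ∀ j, ![σ 0, σ 1, σ 2, σ 3, σ 4, σ 5] j = σ j := by
    intro j
    fin_cases j <;> rfl
  have key := hex_auto (σ 0) (σ 1) (σadj 0) (σ 2) (σadj 1) (σne 0) (σ 3) (σadj 2) (σne 1)
    (σ 4) (σadj 3) (σne 2) (σ 5) (σadj 4) (σne 3) (fun j => by simp only [hvec, hcube])
  simp only [hvec] at key
  have fin2 : ∀ h ∈ S, (∀ j, h (Para.fP j) = Para.fP (j + 2)) → nel 14 ∈ S := by
    intro h hh hrot
    have hk : (nel 14)⁻¹ * h ∈ T := by
      refine mem_T_of_fix hcard (mul_mem (inv_mem (nel_mem _)) (hS hh)) fun j => ?_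
      rw [Equiv.Perm.mul_apply, hrot, Equiv.Perm.inv_def, Equiv.symm_apply_eq]
      exact Fin.ext ((fP_rot j).symm.trans (nel_val (i := 14) (by norm_num) (Para.fP j)).symm)
    have := mul_mem hh (inv_mem (hTS hk))
    simpa [mul_inv_rev] using this
  rcases key with h | h | h
  · exact absurd (mem_T_of_fix hcard hG fun j => by rw [← hσ j, h]) hgT
  · exact fin2 g hg fun j => by rw [← hσ j, h]
  · refine fin2 g⁻¹ (inv_mem hg) fun j => ?_
    rw [Equiv.Perm.inv_def, Equiv.symm_apply_eq, ← hσ, h]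
    have h6 : ∀ j : Fin 6, j + 2 + 4 = j := by decide
    rw [h6]

/-! ### Conjugating a group of order 576 -/

theorem mem_map_conj {H : Subgroup (Equiv.Perm (Fin 1782))} {s v : Equiv.Perm (Fin 1782)} :
    v ∈ H.map (MulAut.conj s).toMonoidHom ↔ ∃ w ∈ H, s * w * s⁻¹ = v := by
  rw [Subgroup.mem_map]
  rfl

theorem map_conj_mul (H : Subgroup (Equiv.Perm (Fin 1782))) (a b : Equiv.Perm (Fin 1782)) :
    (H.map (MulAut.conj b).toMonoidHom).map (MulAut.conj a).toMonoidHom =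
      H.map (MulAut.conj (a * b)).toMonoidHom := by
  rw [Subgroup.map_map, map_mul]
  rfl

theorem torus_conj_check : ∀ i : Fin 2, ∀ j : Fin 2, ∃ k : Fin 9,
    dPts.all (fun d => Nat.beq (timg k (nimg (15 + i) d)) (nimg (15 + i) (nimg (12 + j) d))) =
      true := by
  decide +kernel

theorem map_T (i : Fin 2) : T.map (MulAut.conj (nel (15 + i))).toMonoidHom = T := by
  have hgen : ∀ j : Fin 2, nel (15 + i) * nel (12 + j) * (nel (15 + i))⁻¹ ∈ T := fun j => by
    obtain ⟨k, hk⟩ := torus_conj_check i j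
    refine mem_T.2 ⟨k, k.2, ?_⟩
    rw [eq_mul_inv_iff_mul_eq]
    refine gam_eq (mul_mem (tel_mem _) (nel_mem _)) (mul_mem (nel_mem _) (nel_mem _)) fun x hx => ?_
    rw [Equiv.Perm.mul_apply, Equiv.Perm.mul_apply, tel_val, nel_val (show 15 + (i : ℕ) < 29 by omega),
      nel_val (show 15 + (i : ℕ) < 29 by omega), nel_val (show 12 + (j : ℕ) < 29 by omega)]
    exact Nat.eq_of_beq_eq_true (List.all_eq_true.1 hk _ hx)
  refine Subgroup.eq_of_le_of_card_ge (Subgroup.map_le_iff_le_comap.2 (T_le_of ?_ ?_)) ?_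
  · exact hgen 0
  · exact hgen 1
  · rw [Subgroup.card_map_of_injective (MulEquiv.injective _)]

/-- A 2-element of the flag stabiliser lies in the Sylow 2-subgroup. -/
theorem mem_U_of_pow (hB : ∀ g ∈ Bflag, ∃ u ∈ U, ∃ t ∈ T, g = u * t)
    {v : Equiv.Perm (Fin 1782)} (hv : v ∈ Bflag) (h64 : v ^ 64 = 1) : v ∈ U := by
  obtain ⟨u, hu, t, ht, rfl⟩ := hB v hv
  have key : ∀ n : ℕ, ∃ u' ∈ U, (u * t) ^ n = u' * t ^ n := by
    intro n
    induction n with
    | zero => exact ⟨1, one_mem _, by simp⟩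
    | succ n ih =>
      obtain ⟨u', hu', e⟩ := ih
      exact ⟨u' * (t ^ n * u * (t ^ n)⁻¹), mul_mem hu' (T_conj_U (pow_mem ht _) hu),
        by rw [pow_succ, e, pow_succ]; group⟩
  obtain ⟨u', hu', e⟩ := key 64
  rw [h64, show 64 = 3 * 21 + 1 from rfl, pow_succ, pow_mul, T_pow_three ht, one_pow, one_mul]
    at e
  have htU : t ∈ U := by
    rw [show t = u'⁻¹ from eq_inv_of_mul_eq_one_right e.symm]
    exact inv_mem hu'
  have h4 : (⟨t, htU⟩ : ↥U) ^ 4096 = 1 := card_U ▸ pow_card_eq_one'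
  have h4' : t ^ 4096 = 1 := by simpa using congrArg Subtype.val h4
  rw [show 4096 = 3 * 1365 + 1 from rfl, pow_succ, pow_mul, T_pow_three ht, one_pow, one_mul]
    at h4'
  rw [h4', mul_one]
  exact hu

theorem pow_64 {V : Subgroup (Equiv.Perm (Fin 1782))} (hV : Nat.card ↥V = 64)
    {v : Equiv.Perm (Fin 1782)} (hv : v ∈ V) : v ^ 64 = 1 := by
  have h : (⟨v, hv⟩ : ↥V) ^ 64 = 1 := hV ▸ pow_card_eq_one'
  simpa using congrArg Subtype.val h

/-- A 2-group on five objects normalised by a group fixing two of them and moving the other three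
cyclically. -/
theorem five_cases {G β : Type*} [Group G] [MulAction G β] {V K : Subgroup G}
    (hKV : ∀ t ∈ K, ∀ v ∈ V, t * v * t⁻¹ ∈ V) (hc : Nat.card ↥V = 64) {e0 e5 a b c : β}
    (h05 : e0 ≠ e5) (hne : a ≠ e0 ∧ b ≠ e0 ∧ c ≠ e0 ∧ a ≠ b ∧ a ≠ c ∧ b ≠ c ∧ a ≠ e5 ∧ b ≠ e5 ∧ c ≠ e5)
    (hF : ∀ v ∈ V, ∀ x, (x = e0 ∨ x = e5 ∨ x = a ∨ x = b ∨ x = c) →
      (v • x = e0 ∨ v • x = e5 ∨ v • x = a ∨ v • x = b ∨ v • x = c))
    (hK0 : ∀ t ∈ K, t • e0 = e0) {τ : G} (hτ : τ ∈ K) (ha : τ • a = b) (hb : τ • b = c)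
    (hc' : τ • c = a) :
    (∀ v ∈ V, v • e0 = e0) ∨ (∀ v ∈ V, v • e5 = e5) ∨
      ∃ V' : Subgroup G, V' ≤ V ∧ Nat.card ↥V' = 32 ∧ (∀ v ∈ V', v • e0 = e0) ∧
        ∀ t ∈ K, ∀ v ∈ V', t * v * t⁻¹ ∈ V' := by
  classical
  set O := MulAction.orbit ↥V e0 with hO
  have hmul : Nat.card ↥(MulAction.stabilizer ↥V e0) * O.ncard = 64 := by
    rw [hO, ← MulAction.index_stabilizer, Subgroup.card_mul_index, hc]
  have hshift : ∀ x ∈ O, τ • x ∈ O := by
    rintro _ ⟨⟨v, hv⟩, rfl⟩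
    refine ⟨⟨τ * v * τ⁻¹, hKV τ hτ v hv⟩, ?_⟩
    show (τ * v * τ⁻¹) • e0 = τ • v • e0
    rw [mul_smul, mul_smul, inv_smul_eq_iff.2 (hK0 τ hτ).symm]
  have hsub : O ⊆ ({e0, e5, a, b, c} : Set β) := by
    rintro _ ⟨⟨v, hv⟩, rfl⟩
    exact hF v hv e0 (Or.inl rfl)
  have h0 : e0 ∈ O := MulAction.mem_orbit_self e0
  obtain ⟨na, nb, nc, nab, nac, nbc, na5, nb5, nc5⟩ := hne
  by_cases haO : a ∈ O
  · have hbO : b ∈ O := ha ▸ hshift a haO
    have hcO : c ∈ O := hb ▸ hshift b hbO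
    refine Or.inr (Or.inl fun v hv => ?_)
    have h5 : e5 ∉ O := by
      intro h5
      have : O = {e0, e5, a, b, c} := by
        refine Set.Subset.antisymm hsub ?_
        simp only [Set.insert_subset_iff, Set.singleton_subset_iff]
        exact ⟨h0, h5, haO, hbO, hcO⟩
      rw [this] at hmul
      have e : ({e0, e5, a, b, c} : Set β) = ↑({e0, e5, a, b, c} : Finset β) := by simp
      rw [e, Set.ncard_coe_finset] at hmul
      have e2 : ({e0, e5, a, b, c} : Finset β).card = 5 := by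
        simp [Finset.card_insert_of_notMem, h05, na.symm, nb.symm, nc.symm, na5.symm, nb5.symm,
          nc5.symm, nab, nac, nbc]
      rw [e2] at hmul
      omega
    have hno : v • e5 ∉ O := fun h => h5 (by
      obtain ⟨w, hw⟩ := h
      refine ⟨⟨v, hv⟩⁻¹ * w, ?_⟩
      show ((⟨v, hv⟩⁻¹ * w : ↥V) : G) • e0 = e5
      have hw' : (w : G) • e0 = v • e5 := hw
      rw [Subgroup.coe_mul, mul_smul, hw']
      simp)
    rcases hF v hv e5 (Or.inr (Or.inl rfl)) with h | h | h | h | h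
    · exact absurd (h ▸ h0) hno
    · exact h
    · exact absurd (h ▸ haO) hno
    · exact absurd (h ▸ hbO) hno
    · exact absurd (h ▸ hcO) hno
  · have hbO : b ∉ O := fun h => haO (hc' ▸ hshift c (hb ▸ hshift b h))
    have hcO : c ∉ O := fun h => haO (hc' ▸ hshift c h)
    have hsub2 : O ⊆ ({e0, e5} : Set β) := by
      intro x hx
      rcases hsub hx with h | h | h | h | h
      · exact Or.inl h
      · exact Or.inr h
      · exact absurd (h ▸ hx) haO
      · exact absurd (h ▸ hx) hbO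
      · exact absurd (h ▸ hx) hcO
    by_cases h5 : e5 ∈ O
    · have : O = {e0, e5} := by
        refine Set.Subset.antisymm hsub2 ?_
        simp only [Set.insert_subset_iff, Set.singleton_subset_iff]
        exact ⟨h0, h5⟩
      rw [this, Set.ncard_pair h05] at hmul
      refine Or.inr (Or.inr ⟨(MulAction.stabilizer ↥V e0).map V.subtype, ?_, ?_, ?_, ?_⟩)
      · exact Subgroup.map_subtype_le _
      · rw [Subgroup.card_map_of_injective Subtype.val_injective]
        omega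
      · rintro _ ⟨w, hw, rfl⟩
        exact hw
      · rintro t ht _ ⟨w, hw, rfl⟩
        refine ⟨⟨t * w * t⁻¹, hKV t ht w w.2⟩, ?_, rfl⟩
        show (t * (w : G) * t⁻¹) • e0 = e0
        have hw' : (w : G) • e0 = e0 := hw
        rw [mul_smul, mul_smul, inv_smul_eq_iff.2 (hK0 t ht).symm, hw', hK0 t ht]
    · refine Or.inl fun v hv => ?_
      rcases hsub2 (MulAction.mem_orbit e0 (⟨v, hv⟩ : ↥V)) with h | h
      · exact h
      · exact absurd (h ▸ MulAction.mem_orbit e0 (⟨v, hv⟩ : ↥V)) h5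

/-- The common argument for both parabolic subgroups. -/
theorem conj_core {β : Type*} [MulAction (Equiv.Perm (Fin 1782)) β]
    (hB : ∀ g ∈ Bflag, ∃ u ∈ U, ∃ t ∈ T, g = u * t)
    (hlat : ∀ K : Subgroup (Equiv.Perm (Fin 1782)), K ≤ U →
      (∀ t ∈ T, ∀ v ∈ K, t * v * t⁻¹ ∈ K) → Nat.card ↥K ≠ 32)
    {X W V : Subgroup (Equiv.Perm (Fin 1782))} (hT : T ≤ W) (hWX : W ≤ X) (hVW : V ≤ W)
    (hV : Nat.card ↥V = 64) (hn : ∀ w ∈ W, ∀ v ∈ V, w * v * w⁻¹ ∈ V) (i : Fin 2)
    (hs : nel (15 + i) ∈ X) {e0 e5 a b c : β}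
    (hne : e0 ≠ e5 ∧ a ≠ e0 ∧ b ≠ e0 ∧ c ≠ e0 ∧ a ≠ b ∧ a ≠ c ∧ b ≠ c ∧ a ≠ e5 ∧ b ≠ e5 ∧ c ≠ e5)
    (hXB : ∀ g ∈ X, g • e0 = e0 → g ∈ Bflag)
    (hF : ∀ g ∈ X, ∀ x, (x = e0 ∨ x = e5 ∨ x = a ∨ x = b ∨ x = c) →
      (g • x = e0 ∨ g • x = e5 ∨ g • x = a ∨ g • x = b ∨ g • x = c))
    (hT0 : ∀ t ∈ T, t • e0 = e0) (hs5 : nel (15 + i) • e5 = e0)
    {τ : Equiv.Perm (Fin 1782)} (hτ : τ ∈ T) (ha : τ • a = b) (hb : τ • b = c)
    (hc : τ • c = a) :
    ∃ g ∈ X, T ≤ W.map (MulAut.conj g).toMonoidHom ∧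
      V.map (MulAut.conj g).toMonoidHom ≤ U := by
  rcases five_cases (fun t ht v hv => hn t (hT ht) v hv) hV hne.1 hne.2
      (fun v hv => hF v (hWX (hVW hv))) hT0 hτ ha hb hc with h | h | ⟨V', hle, hcard, hfix, hinv⟩
  · refine ⟨1, one_mem _, ?_, ?_⟩
    · exact fun y hy => mem_map_conj.2 ⟨y, hT hy, by group⟩
    · intro x hx
      obtain ⟨v, hv, rfl⟩ := mem_map_conj.1 hx
      simpa using mem_U_of_pow hB (hXB v (hWX (hVW hv)) (h v hv)) (pow_64 hV hv)
  · refine ⟨nel (15 + i), hs, (map_T i).ge.trans (Subgroup.map_mono hT), ?_⟩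
    intro x hx
    obtain ⟨v, hv, rfl⟩ := mem_map_conj.1 hx
    refine mem_U_of_pow hB (hXB _ (mul_mem (mul_mem hs (hWX (hVW hv))) (inv_mem hs)) ?_) ?_
    · rw [mul_smul, mul_smul, inv_smul_eq_iff.2 hs5.symm, h v hv, hs5]
    · rw [conj_pow, pow_64 hV hv, mul_one, mul_inv_cancel]
  · exact absurd hcard (hlat V' (fun v hv => mem_U_of_pow hB (hXB v (hWX (hVW (hle hv))) (hfix v hv))
      (pow_64 hV (hle hv))) hinv)

theorem T_le_X {X : Subgroup (Equiv.Perm (Fin 1782))} (hX : X = P1 ∨ X = P2) : T ≤ X := by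
  rcases hX with rfl | rfl
  · exact Para.T_le_Bflag.trans inf_le_left
  · exact Para.T_le_Bflag.trans inf_le_right

theorem X_le_Gam {X : Subgroup (Equiv.Perm (Fin 1782))} (hX : X = P1 ∨ X = P2) : X ≤ Gam := by
  rcases hX with rfl | rfl
  · exact fun g hg => (mem_P1.1 hg).1
  · exact fun g hg => (mem_P2.1 hg).1

theorem conj_into_T {X W : Subgroup (Equiv.Perm (Fin 1782))} (hTX : T ≤ X)
    (hcX : Nat.card ↥X = 184320) (hWX : W ≤ X) (hW : Nat.card ↥W = 576) :
    ∃ x ∈ X, T ≤ W.map (MulAut.conj x).toMonoidHom := by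
  have : Fact (Nat.Prime 3) := ⟨by norm_num⟩
  have f1 : (576 : ℕ).factorization 3 = 2 := by
    rw [show (576 : ℕ) = 64 * 3 ^ 2 by norm_num, Nat.factorization_mul (by norm_num) (by norm_num),
      Finsupp.add_apply, Nat.factorization_eq_zero_of_not_dvd (by norm_num),
      Nat.Prime.factorization_pow (by norm_num), Finsupp.single_eq_same]
  have f2 : (184320 : ℕ).factorization 3 = 2 := by
    rw [show (184320 : ℕ) = 20480 * 3 ^ 2 by norm_num,
      Nat.factorization_mul (by norm_num) (by norm_num), Finsupp.add_apply,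
      Nat.factorization_eq_zero_of_not_dvd (by norm_num),
      Nat.Prime.factorization_pow (by norm_num), Finsupp.single_eq_same]
  obtain ⟨Q⟩ : Nonempty (Sylow 3 ↥W) := inferInstance
  set Q' := (Q : Subgroup ↥W).map W.subtype with hQ'
  have hQ9 : Nat.card ↥Q' = 9 := by
    rw [hQ', Subgroup.card_map_of_injective Subtype.val_injective, Q.card_eq_multiplicity, hW, f1]
    norm_num
  have hQW : Q' ≤ W := Subgroup.map_subtype_le _
  let Pq : Sylow 3 ↥X := Sylow.ofCard (Q'.subgroupOf X) (by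
    rw [Nat.card_congr (Subgroup.subgroupOfEquivOfLe (hQW.trans hWX)).toEquiv, hQ9, hcX, f2]
    norm_num)
  let Pt : Sylow 3 ↥X := Sylow.ofCard (T.subgroupOf X) (by
    rw [Nat.card_congr (Subgroup.subgroupOfEquivOfLe hTX).toEquiv, card_T, hcX, f2]
    norm_num)
  obtain ⟨x, hx⟩ := MulAction.exists_smul_eq ↥X Pq Pt
  refine ⟨x, x.2, ?_⟩
  have hle : Q'.map (MulAut.conj (x : Equiv.Perm (Fin 1782))).toMonoidHom ≤ T := by
    intro y hy
    obtain ⟨w, hw, rfl⟩ := mem_map_conj.1 hy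
    have hm : (MulAut.conj x • (⟨w, hWX (hQW hw)⟩ : ↥X)) ∈ ((x • Pq : Sylow 3 ↥X) : Subgroup ↥X) := by
      rw [Sylow.coe_subgroup_smul]
      exact Subgroup.smul_mem_pointwise_smul _ _ _ hw
    rw [hx] at hm
    exact hm
  have he : Q'.map (MulAut.conj (x : Equiv.Perm (Fin 1782))).toMonoidHom = T :=
    Subgroup.eq_of_le_of_card_ge hle (by
      rw [Subgroup.card_map_of_injective (MulEquiv.injective _), hQ9, card_T])
  exact he.ge.trans (Subgroup.map_mono hQW)

/-- **The group of order 576.** -/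
theorem W_conj (hcard : Nat.card ↥Gam = 251596800)
    (hlat : ∀ K : Subgroup (Equiv.Perm (Fin 1782)), K ≤ U →
      (∀ t ∈ T, ∀ v ∈ K, t * v * t⁻¹ ∈ K) → Nat.card ↥K ≠ 32)
    {X W V : Subgroup (Equiv.Perm (Fin 1782))} (hX : X = P1 ∨ X = P2) (hWX : W ≤ X)
    (hW : Nat.card ↥W = 576) (hVW : V ≤ W) (hV : Nat.card ↥V = 64)
    (hn : ∀ w ∈ W, ∀ v ∈ V, w * v * w⁻¹ ∈ V) :
    ∃ g ∈ Gam, T ≤ W.map (MulAut.conj g).toMonoidHom ∧
      V.map (MulAut.conj g).toMonoidHom ≤ U := by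
  have hB := (Para.Bflag_eq hcard).2
  have hcX : Nat.card ↥X = 184320 := by
    rcases hX with rfl | rfl
    exacts [Para.card_P1 hcard, Para.card_P2 hcard]
  obtain ⟨x, hx, hT⟩ := conj_into_T (T_le_X hX) hcX hWX hW
  have hW1 : W.map (MulAut.conj x).toMonoidHom ≤ X := by
    intro y hy
    obtain ⟨w, hw, rfl⟩ := mem_map_conj.1 hy
    exact mul_mem (mul_mem hx (hWX hw)) (inv_mem hx)
  have hn1 : ∀ w ∈ W.map (MulAut.conj x).toMonoidHom, ∀ v ∈ V.map (MulAut.conj x).toMonoidHom,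
      w * v * w⁻¹ ∈ V.map (MulAut.conj x).toMonoidHom := by
    intro w hw v hv
    obtain ⟨w, hw', rfl⟩ := mem_map_conj.1 hw
    obtain ⟨v, hv', rfl⟩ := mem_map_conj.1 hv
    exact mem_map_conj.2 ⟨_, hn w hw' v hv', by group⟩
  have hV1 : Nat.card ↥(V.map (MulAut.conj x).toMonoidHom) = 64 := by
    rw [Subgroup.card_map_of_injective (MulEquiv.injective _), hV]
  suffices ∃ g ∈ X, T ≤ (W.map (MulAut.conj x).toMonoidHom).map (MulAut.conj g).toMonoidHom ∧
      (V.map (MulAut.conj x).toMonoidHom).map (MulAut.conj g).toMonoidHom ≤ U by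
    obtain ⟨g, hg, h1, h2⟩ := this
    rw [map_conj_mul] at h1 h2
    exact ⟨g * x, X_le_Gam hX (mul_mem hg hx), h1, h2⟩
  rcases hX with rfl | rfl
  · have hlineT : T ≤ MulAction.stabilizer (Equiv.Perm (Fin 1782)) (Para.lineSet 2) :=
      T_le_of (nel_line (by norm_num) (by norm_num) (by norm_num) line_checks.1.1)
        (nel_line (by norm_num) (by norm_num) (by norm_num) line_checks.1.2.1)
    have hne : ∀ k q : ℕ, k < 1365 → q < 1365 → k ≠ q → Para.lineSet k ≠ Para.lineSet q :=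
      fun k q hk hq h e => h (Para.lineSet_injective hk hq e)
    refine conj_core (β := Finset (Fin 1782)) (e0 := Para.lineSet 2) (e5 := Para.lineSet 56)
      (a := Para.lineSet 27) (b := Para.lineSet 82) (c := Para.lineSet 30) hB hlat hT hW1
      (Subgroup.map_mono hVW) hV1 hn1 0
      (mem_P1.2 ⟨nel_mem _, Fin.ext ((nel_val (by norm_num) _).trans point_checks.1.1)⟩)
      ?_ ?_ ?_ (fun t ht => hlineT ht)
      (nel_line (by norm_num) (by norm_num) (by norm_num) line_checks.1.2.2.1)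
      (τ := nel 12) ⟨1, 0, by simp⟩
      (nel_line (by norm_num) (by norm_num) (by norm_num) line_checks.2.1)
      (nel_line (by norm_num) (by norm_num) (by norm_num) line_checks.2.2.1)
      (nel_line (by norm_num) (by norm_num) (by norm_num) line_checks.2.2.2)
    · refine ⟨?_, ?_, ?_, ?_, ?_, ?_, ?_, ?_, ?_, ?_⟩ <;>
        exact hne _ _ (by norm_num) (by norm_num) (by norm_num)
    · intro g hg h
      exact ⟨hg, Para.mem_P2_smul.2 ⟨(mem_P1.1 hg).1, by rw [Para.line0_eq]; exact h⟩⟩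
    · intro g hg y hy
      obtain ⟨hgG, hg1⟩ := mem_P1.1 hg
      have h1 : ∀ k ∈ [2, 56, 27, 82, 30], k < 1365 ∧ Para.lineB k 1 = true := by decide +kernel
      obtain ⟨k, rfl, hk, hk1⟩ : ∃ k, Para.lineSet k = y ∧ k < 1365 ∧ Para.lineB k 1 = true := by
        rcases hy with h | h | h | h | h <;> exact ⟨_, h.symm, h1 _ (by simp)⟩
      obtain ⟨q, hq, e⟩ := Para.Gam_line hgG hk
      have m := Finset.smul_mem_smul_finset (a := g) ((Para.mem_lineSet (x := p1)).2 hk1)
      rw [e, Equiv.Perm.smul_def, hg1] at m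
      have h5 := (through_one ⟨q, hq⟩ (Para.mem_lineSet.1 m)).1
      rw [e]
      rcases h5 with h | h | h | h | h <;> simp only at h <;> subst h <;> simp
  · refine conj_core (β := Fin 1782) (e0 := p1) (e5 := ⟨16, by norm_num⟩) (a := ⟨30, by norm_num⟩)
      (b := ⟨68, by norm_num⟩) (c := ⟨260, by norm_num⟩) hB hlat hT hW1 (Subgroup.map_mono hVW)
      hV1 hn1 1 ?_ ?_ ?_ ?_ ?_ ?_ (τ := nel 13) ⟨0, 1, by simp⟩ ?_ ?_ ?_
    · refine Para.mem_P2_smul.2 ⟨nel_mem _, ?_⟩
      rw [Para.line0_eq]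
      exact nel_line (by norm_num) (by norm_num) (by norm_num) line_checks.1.2.2.2
    · decide
    · intro g hg h
      exact ⟨mem_P1.2 ⟨(mem_P2.1 hg).1, h⟩, hg⟩
    · intro g hg y hy
      have := ((mem_P2.1 hg).2 y).2 (by simpa [line0] using hy)
      simpa [line0] using this
    · intro t ht
      exact Para.T_fix ht 0
    · exact Fin.ext ((nel_val (by norm_num) _).trans point_checks.1.2)
    · exact Fin.ext ((nel_val (by norm_num) _).trans point_checks.2.1)
    · exact Fin.ext ((nel_val (by norm_num) _).trans point_checks.2.2.1)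
    · exact Fin.ext ((nel_val (by norm_num) _).trans point_checks.2.2.2)

end Cfsg.Agent.SuzRank
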