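import Cfsg.Agent.SuzRank.Main
import Cfsg.Agent.SuzRank.ParaConj
import Cfsg.Agent.SuzRank.ParaSuborbit
import Cfsg.Agent.SuzRank.ParaInv
import Cfsg.Agent.SuzRank.Lattice
import Cfsg.Agent.SuzRank.WStruct
import Cfsg.Agent.SuzRank.Cases

/-!
The facts on which the recognition of the Suzuki group rests.
-/

set_option autoImplicit false

namespace Cfsg.Agent.SuzRank

/-- All facts hold. -/
theorem facts : Facts where
  para _ hX hc := parabolic_conj card_Gam hX hc
  sub _ hX hc := suborbit_fact card_Gam hX hc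
  n_mem _ hS hT hc := n_mem card_Gam hS hT hc
  wconj _ _ _ hX hWX hW hVW hV hn := W_conj card_Gam (fun _ h1 h2 => lattice_card h1 h2)
    hX hWX hW hVW hV hn
  lat _ hU hT hc := lattice_mem hU hT hc
  gens := caseGens_mem
  case c _ hH hc hV hT hn := case_unique card_Gam c hH hc hV hT hn
  orb47 := (stab301_orbits card_Gam).1
  orb72 := (stab301_orbits card_Gam).2
  inv96 _ hX hc _ hA h96 hi := inv_ninetysix card_Gam hX hc hA h96 hi
  uniq96 _ _ hA hB hAc hBc hAi hBi := inv_unique96 hA hB hAc hBc hAi hBi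
  uniq320 _ _ hA hB hAc hBc hAi hBi := inv_unique320 hA hB hAc hBc hAi hBi

end Cfsg.Agent.SuzRank
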