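import Mathlib

/-!
# Counting in a rank three group with subdegrees 416 and 1365

A vertex at distance two from `a` has a neighbour at distance two from `a`; moving that neighbour
to `a` gives a subgroup of order 576 in the stabiliser of an edge.
-/

set_option autoImplicit false

namespace Cfsg.Agent.SuzRank

open MulAction

universe u v

variable {Ω : Type u}

/-- Order of the stabiliser of an ordered pair. -/
noncomputable def pairCard (G : Subgroup (Equiv.Perm Ω)) (x y : Ω) : ℕ :=
  Nat.card {g : G // g • x = x ∧ g • y = y}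

theorem pairCard_comm (G : Subgroup (Equiv.Perm Ω)) (x y : Ω) :
    pairCard G x y = pairCard G y x :=
  Nat.card_congr (Equiv.subtypeEquivRight fun _ => And.comm)

theorem pairCard_smul (G : Subgroup (Equiv.Perm Ω)) (k : G) (x y : Ω) :
    pairCard G (k • x) (k • y) = pairCard G x y := by
  refine Nat.card_congr ((MulAut.conj k⁻¹).toEquiv.subtypeEquiv fun g => ?_)
  show g • k • x = k • x ∧ g • k • y = k • y ↔
    (k⁻¹ * g * k⁻¹⁻¹) • x = x ∧ (k⁻¹ * g * k⁻¹⁻¹) • y = y
  simp [mul_smul, inv_smul_eq_iff]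

theorem ncard_orbit_mul (G : Subgroup (Equiv.Perm Ω)) [Finite Ω] (a y : Ω) :
    (orbit (stabilizer G a) y).ncard * pairCard G a y = Nat.card (stabilizer G a) := by
  rw [← index_stabilizer, mul_comm, ← (stabilizer (stabilizer G a) y).card_mul_index]
  congr 1
  exact Nat.card_congr
    { toFun := fun g => ⟨⟨g.1, g.2.1⟩, g.2.2⟩
      invFun := fun g => ⟨g.1.1, g.1.2, g.2⟩
      left_inv := fun _ => rfl
      right_inv := fun _ => rfl }

section Graph

variable [Fintype Ω] [DecidableEq Ω] {G : Subgroup (Equiv.Perm Ω)} [IsPretransitive G Ω]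
  {a b c : Ω}

/-- The data of a rank three action of degree 1782 with subdegrees 416 and 1365. -/
structure Rank (G : Subgroup (Equiv.Perm Ω)) (a b c : Ω) : Prop where
  card : Fintype.card Ω = 1782
  hb : (orbit (stabilizer G a) b).ncard = 416
  hc : (orbit (stabilizer G a) c).ncard = 1365

/-- Adjacency: the relation of `a` and `b`. -/
def RankAdj (G : Subgroup (Equiv.Perm Ω)) (a b x y : Ω) : Prop := pairCard G x y = pairCard G a b

omit [Fintype Ω] [DecidableEq Ω] [IsPretransitive G Ω] in
theorem RankAdj.symm {x y : Ω} (h : RankAdj G a b x y) : RankAdj G a b y x := by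
  unfold RankAdj at *; rwa [pairCard_comm]

omit [Fintype Ω] [DecidableEq Ω] [IsPretransitive G Ω] in
theorem rankAdj_smul (k : G) {x y : Ω} : RankAdj G a b (k • x) (k • y) ↔ RankAdj G a b x y := by
  unfold RankAdj; rw [pairCard_smul]

omit [Fintype Ω] [DecidableEq Ω] [IsPretransitive G Ω] in
theorem orbit_of_fix {k : G} (hk : k • a = a) (y : Ω) :
    k • y ∈ orbit (stabilizer G a) y := ⟨⟨k, hk⟩, rfl⟩

omit [Fintype Ω] [DecidableEq Ω] [IsPretransitive G Ω] in
theorem pairCard_orbit {x y : Ω} (h : y ∈ orbit (stabilizer G a) x) :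
    pairCard G a y = pairCard G a x := by
  obtain ⟨⟨k, hk⟩, rfl⟩ := h
  show pairCard G a (k • x) = _
  conv_lhs => rw [← mem_stabilizer_iff.1 hk]
  exact pairCard_smul G k a x

omit [Fintype Ω] [DecidableEq Ω] [IsPretransitive G Ω] in
theorem ncard_orbit_self : (orbit (stabilizer G a) a).ncard = 1 := by
  rw [Set.ncard_eq_one]
  refine ⟨a, Set.ext fun w => ⟨?_, ?_⟩⟩
  · rintro ⟨g, rfl⟩; exact g.2
  · intro hw
    rw [Set.mem_singleton_iff.1 hw]
    exact mem_orbit_self a

omit [DecidableEq Ω] in
theorem not_rankAdj_self (hR : Rank G a b c) (x : Ω) : ¬ RankAdj G a b x x := by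
  obtain ⟨k, rfl⟩ := exists_smul_eq G a x
  rw [rankAdj_smul]
  intro h
  have hb := ncard_orbit_mul G a b
  have ha := ncard_orbit_mul G a a
  have hM : 0 < Nat.card (stabilizer G a) := Nat.card_pos
  rw [hR.hb] at hb
  rw [ncard_orbit_self, one_mul] at ha
  unfold RankAdj at h
  omega

omit [IsPretransitive G Ω] in
theorem cases_of_rank (hR : Rank G a b c) (y : Ω) :
    y = a ∨ y ∈ orbit (stabilizer G a) b ∨ y ∈ orbit (stabilizer G a) c := by
  set Q := orbit (stabilizer G a) b with hQ
  set R := orbit (stabilizer G a) c with hR'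
  have hd : Disjoint Q R := by
    rw [Set.disjoint_left]
    intro z hz hz'
    have h1 : Q = R := (orbit_eq_iff.2 hz).symm.trans (orbit_eq_iff.2 hz')
    rw [hQ, hR'] at h1
    have h2 := hR.hb
    rw [h1, hR.hc] at h2
    omega
  have ha : ∀ z, (orbit (stabilizer G a) z).ncard ≠ 1 → a ∉ orbit (stabilizer G a) z := by
    intro z hz h
    apply hz
    rw [← orbit_eq_iff.2 h, ncard_orbit_self]
  have haQ : a ∉ Q ∪ R := fun h => h.elim (ha b (by rw [hR.hb]; omega)) (ha c (by rw [hR.hc]; omega))
  have h3 : (insert a (Q ∪ R)).ncard = 1782 := by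
    rw [Set.ncard_insert_of_notMem haQ, Set.ncard_union_eq hd, hR.hb, hR.hc]
  have h4 : insert a (Q ∪ R) = Set.univ := by
    refine Set.eq_of_subset_of_ncard_le (Set.subset_univ _) ?_
    rw [h3, Set.ncard_univ, Nat.card_eq_fintype_card, hR.card]
  have := h4.ge (Set.mem_univ y)
  simpa using this

omit [IsPretransitive G Ω] in
theorem mem_orbit_iff_of_rank (hR : Rank G a b c) (y : Ω) :
    (y ∈ orbit (stabilizer G a) b ↔ RankAdj G a b a y) ∧
      (y ∈ orbit (stabilizer G a) c ↔ y ≠ a ∧ ¬ RankAdj G a b a y) := by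
  have hb := ncard_orbit_mul G a b
  have hc := ncard_orbit_mul G a c
  have ha := ncard_orbit_mul G a a
  have hM : 0 < Nat.card (stabilizer G a) := Nat.card_pos
  have h1 : (orbit (stabilizer G a) a).ncard = 1 := ncard_orbit_self
  rw [hR.hb] at hb
  rw [hR.hc] at hc
  rw [h1, one_mul] at ha
  rcases cases_of_rank hR y with rfl | hy | hy
  · refine ⟨iff_of_false ?_ ?_, iff_of_false ?_ (fun h => h.1 rfl)⟩
    · intro h; have := pairCard_orbit h; omega
    · intro h; unfold RankAdj at h; omega
    · intro h; have := pairCard_orbit h; omega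
  · have e := pairCard_orbit hy
    refine ⟨iff_of_true hy e, iff_of_false (fun h => ?_) fun h => h.2 e⟩
    have := pairCard_orbit h; omega
  · have e := pairCard_orbit hy
    refine ⟨iff_of_false (fun h => ?_) (fun h => ?_), iff_of_true hy ⟨fun h => ?_, fun h => ?_⟩⟩
    · have := pairCard_orbit h; omega
    · unfold RankAdj at h; omega
    · subst h; omega
    · unfold RankAdj at h; omega

theorem ncard_rankAdj (hR : Rank G a b c) (x : Ω) : {y | RankAdj G a b x y}.ncard = 416 := by
  obtain ⟨k, rfl⟩ := exists_smul_eq G a x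
  rw [← hR.hb]
  have h : {y | RankAdj G a b (k • a) y} = (fun y => k • y) '' orbit (stabilizer G a) b := by
    ext y
    simp only [Set.mem_setOf_eq, Set.mem_image, (mem_orbit_iff_of_rank hR _).1]
    refine ⟨fun hy => ⟨k⁻¹ • y, ?_, smul_inv_smul k y⟩, ?_⟩
    · rwa [← rankAdj_smul k, smul_inv_smul]
    · rintro ⟨z, hz, rfl⟩; exact (rankAdj_smul k).2 hz
  rw [h, Set.ncard_image_of_injective _ (MulAction.injective k)]

theorem ncard_common_smul (k : G) (x y : Ω) :
    {z | RankAdj G a b (k • x) z ∧ RankAdj G a b (k • y) z}.ncard =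
      {z | RankAdj G a b x z ∧ RankAdj G a b y z}.ncard := by
  conv_rhs => rw [← Set.ncard_image_of_injective
    {z | RankAdj G a b x z ∧ RankAdj G a b y z} (MulAction.injective k)]
  congr 1
  ext z
  simp only [Set.mem_setOf_eq, Set.mem_image]
  refine ⟨fun hz => ⟨k⁻¹ • z, ?_, smul_inv_smul k z⟩, ?_⟩
  · rwa [← rankAdj_smul k, ← rankAdj_smul k (x := y), smul_inv_smul]
  · rintro ⟨w, hw, rfl⟩; exact ⟨(rankAdj_smul k).2 hw.1, (rankAdj_smul k).2 hw.2⟩

/-- A vertex at distance two from `a` has 32, 64 or 96 neighbours adjacent to `a`. -/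
theorem common_cases (hR : Rank G a b c) :
    {z | RankAdj G a b a z ∧ RankAdj G a b c z}.ncard ∈ ({32, 64, 96} : Set ℕ) := by
  classical
  set n : Ω → ℕ := fun y => {z | RankAdj G a b a z ∧ RankAdj G a b y z}.ncard with hn
  have hconst : ∀ x y : Ω, y ∈ orbit (stabilizer G a) x → n y = n x := by
    rintro x _ ⟨⟨k, hk⟩, rfl⟩
    show {z | RankAdj G a b a z ∧ RankAdj G a b (k • x) z}.ncard = _
    have e := ncard_common_smul (a := a) (b := b) k a x
    rwa [mem_stabilizer_iff.1 hk] at e
  have hna : n a = 416 := by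
    rw [hn, ← ncard_rankAdj hR a]
    simp
  have hnb : n b ≤ 415 := by
    have hsub : {z | RankAdj G a b a z ∧ RankAdj G a b b z} ⊆ {z | RankAdj G a b a z} \ {b} := by
      rintro z ⟨h1, h2⟩
      refine ⟨h1, fun h => ?_⟩
      rw [Set.mem_singleton_iff] at h
      subst h
      exact not_rankAdj_self hR _ h2
    have := Set.ncard_le_ncard hsub
    rw [Set.ncard_sdiff_singleton_of_mem
      (show b ∈ {z | RankAdj G a b a z} from rfl), ncard_rankAdj hR a] at this
    exact Nat.le_trans this (by omega)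
  -- count paths of length two from `a`
  have hsum : ∑ y : Ω, n y = 416 * 416 := by
    simp only [n, Set.ncard_eq_toFinset_card', Set.toFinset_setOf, Finset.card_filter]
    rw [Finset.sum_comm]
    have : ∀ z : Ω, (∑ y : Ω, if RankAdj G a b a z ∧ RankAdj G a b y z then 1 else 0) =
        if RankAdj G a b a z then 416 else 0 := by
      intro z
      by_cases hz : RankAdj G a b a z
      · simp only [hz, true_and, if_true]
        rw [← ncard_rankAdj hR z, Set.ncard_eq_toFinset_card', Set.toFinset_setOf, Finset.card_filter]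
        refine Finset.sum_congr rfl fun y _ => ?_
        exact if_congr ⟨RankAdj.symm, RankAdj.symm⟩ rfl rfl
      · simp [hz]
    rw [Finset.sum_congr rfl fun z _ => this z, Finset.sum_ite, Finset.sum_const_zero, add_zero,
      Finset.sum_const, smul_eq_mul]
    congr 1
    rw [← ncard_rankAdj hR a, Set.ncard_eq_toFinset_card', Set.toFinset_setOf]
  have hsplit : ∑ y : Ω, n y = 416 + 416 * n b + 1365 * n c := by
    have hp : ∀ y : Ω, n y = (if y = a then 416 else 0) +
        (if y ∈ orbit (stabilizer G a) b then n b else 0) +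
        (if y ∈ orbit (stabilizer G a) c then n c else 0) := by
      intro y
      obtain ⟨hQ, hR2⟩ := mem_orbit_iff_of_rank hR y
      rcases cases_of_rank hR y with rfl | hy | hy
      · rw [if_pos rfl, if_neg, if_neg, hna]
        · rw [hR2]; simp
        · rw [hQ]; exact not_rankAdj_self hR _
      · rw [if_pos hy, if_neg, if_neg, hconst b y hy, zero_add, add_zero]
        · rw [hR2]; exact fun h => h.2 (hQ.1 hy)
        · rintro rfl
          exact not_rankAdj_self hR _ (hQ.1 hy)
      · rw [if_pos hy, if_neg (hR2.1 hy).1, if_neg (fun h => (hR2.1 hy).2 (hQ.1 h)),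
          hconst c y hy, zero_add, zero_add]
    rw [Finset.sum_congr rfl fun y _ => hp y, Finset.sum_add_distrib, Finset.sum_add_distrib,
      Finset.sum_ite_eq' Finset.univ a (fun _ => 416), if_pos (Finset.mem_univ a)]
    congr 1
    · congr 1
      rw [Finset.sum_ite, Finset.sum_const_zero, add_zero, Finset.sum_const, smul_eq_mul]
      congr 1
      rw [← hR.hb, Set.ncard_eq_toFinset_card']
      congr 1; ext; simp
    · rw [Finset.sum_ite, Finset.sum_const_zero, add_zero, Finset.sum_const, smul_eq_mul]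
      congr 1
      rw [← hR.hc, Set.ncard_eq_toFinset_card']
      congr 1; ext; simp
  have hne : n c ≠ 0 := by
    intro h0
    -- otherwise adjacency is transitive
    have htr : ∀ x y z : Ω, RankAdj G a b x y → RankAdj G a b y z → z = x ∨ RankAdj G a b x z := by
      intro x y z hxy hyz
      obtain ⟨k, rfl⟩ := exists_smul_eq G a x
      by_cases hz : z = k • a
      · exact Or.inl hz
      refine Or.inr (by_contra fun hn' => ?_)
      have hz' : k⁻¹ • z ∈ orbit (stabilizer G a) c := by
        rw [(mem_orbit_iff_of_rank hR _).2]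
        refine ⟨fun h => hz (by rw [← h, smul_inv_smul]), fun h => hn' ?_⟩
        rwa [← rankAdj_smul k, smul_inv_smul] at h
      have h1 : n (k⁻¹ • z) = 0 := (hconst c _ hz').trans h0
      have h1 : {w | RankAdj G a b a w ∧ RankAdj G a b (k⁻¹ • z) w}.ncard = 0 := h1
      rw [Set.ncard_eq_zero (Set.toFinite _)] at h1
      refine (Set.eq_empty_iff_forall_notMem.1 h1 (k⁻¹ • y)) ⟨?_, ?_⟩
      · rwa [← rankAdj_smul k, smul_inv_smul]
      · rw [← rankAdj_smul k, smul_inv_smul, smul_inv_smul]; exact hyz.symm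
    let s : Setoid Ω :=
      { r := fun x y => y = x ∨ RankAdj G a b x y
        iseqv :=
          { refl := fun x => Or.inl rfl
            symm := by
              rintro x y (rfl | h)
              · exact Or.inl rfl
              · exact Or.inr h.symm
            trans := by
              rintro x y z (rfl | h) (rfl | h')
              · exact Or.inl rfl
              · exact Or.inr h'
              · exact Or.inr h
              · exact htr x y z h h' } }
    have hfib : ∀ q : Quotient s, (Finset.univ.filter fun y => Quotient.mk s y = q).card = 417 := by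
      intro q
      induction q using Quotient.inductionOn with
      | _ x =>
        have e : (Finset.univ.filter fun y => Quotient.mk s y = Quotient.mk s x) =
            (insert x {y | RankAdj G a b x y}).toFinset := by
          ext y
          simp only [Finset.mem_filter, Finset.mem_univ, true_and, Set.mem_toFinset,
            Set.mem_insert_iff, Set.mem_setOf_eq, Quotient.eq]
          exact ⟨fun h => s.symm' h, fun h => s.symm' h⟩
        rw [e, ← Set.ncard_eq_toFinset_card', Set.ncard_insert_of_notMem, ncard_rankAdj hR x]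
        exact not_rankAdj_self hR x
    have h := Finset.card_eq_sum_card_fiberwise (s := (Finset.univ : Finset Ω))
      (t := (Finset.univ : Finset (Quotient s))) (f := Quotient.mk s) (fun _ _ => Finset.mem_univ _)
    rw [Finset.sum_congr rfl fun q _ => hfib q, Finset.sum_const, smul_eq_mul, Finset.card_univ,
      Finset.card_univ, hR.card] at h
    omega
  rw [hsum] at hsplit
  show n c = 32 ∨ n c = 64 ∨ n c = 96
  omega

end Graph

/-- In a rank three group of degree 1782 with subdegrees 416 and 1365 the stabiliser of `a`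
has a subgroup of order 576 with a normal subgroup of order 64 inside both kinds of two-point
stabilisers. -/
theorem exists_W {Ω L : Type*} [Fintype Ω] [DecidableEq Ω] [Group L]
    (hΩ : Fintype.card Ω = 1782) (G : Subgroup (Equiv.Perm Ω))
    [MulAction.IsPretransitive G Ω] (a b c : Ω) (e : MulAction.stabilizer G a ≃* L)
    (hb : (MulAction.orbit (MulAction.stabilizer G a) b).ncard = 416)
    (hc : (MulAction.orbit (MulAction.stabilizer G a) c).ncard = 1365)
    (hP : ∀ X : Subgroup L, X.index = 1365 → ∀ A : Set (L ⧸ X), (∀ h ∈ X, ∀ q ∈ A, h • q ∈ A) →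
      A.ncard ∈ ({320, 352, 384} : Set ℕ) → ∀ q ∈ A,
        Nat.card ↥(X ⊓ MulAction.stabilizer L q) = 576 ∧
          ∃ V : Subgroup L, V ≤ X ⊓ MulAction.stabilizer L q ∧ Nat.card ↥V = 64 ∧
            ∀ w ∈ X ⊓ MulAction.stabilizer L q, ∀ v ∈ V, w * v * w⁻¹ ∈ V) :
    ∃ (X W V : Subgroup L), X.index = 1365 ∧ W ≤ X ∧
      W ≤ (MulAction.stabilizer (MulAction.stabilizer G a) b).map e.toMonoidHom ∧
      Nat.card ↥W = 576 ∧ V ≤ W ∧ Nat.card ↥V = 64 ∧ ∀ w ∈ W, ∀ v ∈ V, w * v * w⁻¹ ∈ V := by
  classical
  have hR : Rank G a b c := ⟨hΩ, hb, hc⟩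
  letI : MulAction L Ω := MulAction.compHom Ω e.symm.toMonoidHom
  have hsm : ∀ (h : L) (y : Ω), h • y = e.symm h • y := fun _ _ => rfl
  have horb : ∀ y : Ω, orbit L y = orbit (stabilizer G a) y := by
    intro y; ext z
    constructor
    · rintro ⟨h, rfl⟩; exact ⟨e.symm h, rfl⟩
    · rintro ⟨g, rfl⟩
      refine ⟨e g, ?_⟩
      show e.symm (e g) • y = g • y
      rw [MulEquiv.symm_apply_apply]
  have hidx : ∀ y ∈ orbit (stabilizer G a) c, (stabilizer L y).index = 1365 := by
    intro y hy
    rw [index_stabilizer, horb, orbit_eq_iff.2 hy, hc]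
  set φ := ofQuotientStabilizer L c with hφ
  have hφinj : Function.Injective φ := injective_ofQuotientStabilizer L c
  have hφrange : ∀ y : Ω, y ∈ orbit (stabilizer G a) c → ∃ q, φ q = y := by
    intro y hy
    rw [← horb] at hy
    obtain ⟨h, rfl⟩ := hy
    exact ⟨QuotientGroup.mk h, ofQuotientStabilizer_mk L c h⟩
  let A0 : Set Ω := {y | RankAdj G a b c y ∧ y ∈ orbit (stabilizer G a) c}
  let A : Set (L ⧸ stabilizer L c) := φ ⁻¹' A0
  have hAinv : ∀ h ∈ stabilizer L c, ∀ q ∈ A, h • q ∈ A := by
    intro h hh q hq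
    obtain ⟨hq1, hq2⟩ := hq
    show φ (h • q) ∈ A0
    rw [hφ, ofQuotientStabilizer_smul]
    refine ⟨?_, ?_⟩
    · show RankAdj G a b c ((e.symm h : G) • φ q)
      have hfix : (e.symm h : G) • c = c := hh
      conv_lhs => rw [← hfix]
      exact (rankAdj_smul _).2 hq1
    · rw [hsm]
      exact (orbit_eq_iff.2 hq2) ▸ mem_orbit (φ q) (e.symm h)
  have hAcard : A.ncard ∈ ({320, 352, 384} : Set ℕ) := by
    have h1 : A.ncard = A0.ncard :=
      Set.ncard_preimage_of_injective_subset_range hφinj fun y hy => hφrange y hy.2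
    have hca := (mem_orbit_iff_of_rank hR c).2.1 (mem_orbit_self c)
    have h2 : {y | RankAdj G a b c y} = {z | RankAdj G a b a z ∧ RankAdj G a b c z} ∪ A0 := by
      ext y
      simp only [Set.mem_setOf_eq, Set.mem_union, A0]
      constructor
      · intro hy
        by_cases h : RankAdj G a b a y
        · exact Or.inl ⟨h, hy⟩
        · refine Or.inr ⟨hy, (mem_orbit_iff_of_rank hR y).2.2 ⟨?_, h⟩⟩
          rintro rfl
          exact hca.2 hy.symm
      · rintro (⟨-, h⟩ | ⟨h, -⟩) <;> exact h
    have h3 : Disjoint {z | RankAdj G a b a z ∧ RankAdj G a b c z} A0 :=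
      Set.disjoint_left.2 fun y hy hy' => ((mem_orbit_iff_of_rank hR y).2.1 hy'.2).2 hy.1
    have h4 := ncard_rankAdj hR c
    rw [h2, Set.ncard_union_eq h3] at h4
    have h5 := common_cases hR
    simp only [Set.mem_insert_iff, Set.mem_singleton_iff] at h5 ⊢
    omega
  obtain ⟨q, hq⟩ : A.Nonempty := by
    apply Set.nonempty_of_ncard_ne_zero
    simp only [Set.mem_insert_iff, Set.mem_singleton_iff] at hAcard
    omega
  obtain ⟨h576, V0, hV0, hV64, hV0n⟩ := hP _ (hidx c (mem_orbit_self c)) A hAinv hAcard q hq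
  obtain ⟨hqc, hqR⟩ := hq
  set y := φ q with hy
  -- move `y` to `a` and `c` to `b`
  obtain ⟨k₁, hk₁⟩ := exists_smul_eq G y a
  have hr : k₁ • c ∈ orbit (stabilizer G a) b := by
    rw [(mem_orbit_iff_of_rank hR _).1]
    have h := (rankAdj_smul (a := a) (b := b) k₁).2 hqc.symm
    rwa [hk₁] at h
  obtain ⟨⟨k₂, hk₂⟩, hk₂b⟩ := mem_orbit_symm.1 hr
  set k : G := k₂ * k₁ with hk
  have hky : k • y = a := by rw [hk, mul_smul, hk₁]; exact hk₂
  have hkc : k • c = b := by rw [hk, mul_smul]; exact hk₂b
  have hs : k • a ∈ orbit (stabilizer G a) c := by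
    rw [(mem_orbit_iff_of_rank hR _).2]
    obtain ⟨hya, hyn⟩ := (mem_orbit_iff_of_rank hR y).2.1 hqR
    refine ⟨fun h => hya (MulAction.injective k (hky.trans h.symm)), fun h => hyn ?_⟩
    conv at h => arg 4; rw [← hky]
    exact ((rankAdj_smul k).1 h).symm
  set W0 := stabilizer L c ⊓ stabilizer L q with hW0
  have hfix : ∀ h ∈ W0, (e.symm h : G) • a = a ∧ (e.symm h : G) • c = c ∧
      (e.symm h : G) • y = y := by
    rintro h ⟨h1, h2⟩
    refine ⟨(e.symm h).2, h1, ?_⟩
    show h • φ q = φ q
    rw [hφ, ← ofQuotientStabilizer_smul, mem_stabilizer_iff.1 h2]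
  let f0 : W0 →* stabilizer G a :=
    { toFun := fun h => ⟨k * (e.symm (h : L) : G) * k⁻¹, by
        rw [mem_stabilizer_iff, mul_smul, mul_smul,
          show k⁻¹ • a = y by rw [inv_smul_eq_iff, hky], (hfix h h.2).2.2, hky]⟩
      map_one' := Subtype.ext (by simp)
      map_mul' := fun x y => Subtype.ext (by
        simp only [Subgroup.coe_mul, map_mul]
        group) }
  let f : W0 →* L := e.toMonoidHom.comp f0
  have hf0 : Function.Injective f0 := by
    intro h1 h2 h
    have h' := congrArg Subtype.val h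
    simp only [f0, MonoidHom.coe_mk, OneHom.coe_mk, mul_left_inj, mul_right_inj] at h'
    exact Subtype.ext (e.symm.injective (Subtype.ext h'))
  have hf : Function.Injective f := e.injective.comp hf0
  refine ⟨stabilizer L (k • a), f.range, (V0.subgroupOf W0).map f, hidx _ hs, ?_, ?_, ?_,
    Subgroup.map_le_range f _, ?_, ?_⟩
  · rintro _ ⟨h, rfl⟩
    show e.symm (e (f0 h)) • k • a = k • a
    rw [MulEquiv.symm_apply_apply]
    show (k * (e.symm (h : L) : G) * k⁻¹) • k • a = k • a
    rw [mul_smul, mul_smul, inv_smul_smul, (hfix h h.2).1]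
  · rintro _ ⟨h, rfl⟩
    refine ⟨f0 h, ?_, rfl⟩
    show (k * (e.symm (h : L) : G) * k⁻¹) • b = b
    rw [mul_smul, mul_smul, show k⁻¹ • b = c by rw [inv_smul_eq_iff, hkc], (hfix h h.2).2.1, hkc]
  · rw [← h576]
    exact (Nat.card_congr (MonoidHom.ofInjective hf).toEquiv).symm
  · rw [← hV64, Subgroup.card_map_of_injective hf]
    exact Nat.card_congr (Subgroup.subgroupOfEquivOfLe hV0).toEquiv
  · rintro _ ⟨w, rfl⟩ _ ⟨v, hv, rfl⟩
    refine ⟨w * v * w⁻¹, hV0n w w.2 v hv, by simp⟩

end Cfsg.Agent.SuzRank
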