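import Mathlib

/-!
Gluing for rank three actions of degree 1782 with subdegrees 1, 416, 1365: such an action is
determined by the action of the point stabiliser on the suborbit of size 416, given a model.
-/

set_option autoImplicit false

namespace Cfsg.Agent.SuzRank

open MulAction
open scoped Pointwise

/-- The orbital of a subgroup of permutations given by a base point and a suborbit. -/
def Adj {α : Type*} (S : Subgroup (Equiv.Perm α)) (o : α) (Qs : Set α) (x y : α) : Prop :=
  ∃ g ∈ S, g o = x ∧ g⁻¹ y ∈ Qs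

section Act

variable {H V : Type*} [Group H] [MulAction H V]

/-- The orbital of a pair. -/
def Rel (H : Type*) [Group H] [MulAction H V] (a b x y : V) : Prop :=
  ∃ g : H, g • a = x ∧ g • b = y

/-- The data of a rank three action of degree 1782. -/
structure Act (H V : Type*) [Group H] [MulAction H V] (a b c : V) : Prop where
  card : Nat.card V = 1782
  trans : ∀ x : V, ∃ g : H, g • a = x
  cardB : (orbit (stabilizer H a) b).ncard = 416
  cardC : (orbit (stabilizer H a) c).ncard = 1365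

theorem rel_smul {a b x y : V} (g : H) : Rel H a b (g • x) (g • y) ↔ Rel H a b x y := by
  constructor
  · rintro ⟨h, h1, h2⟩
    exact ⟨g⁻¹ * h, by rw [mul_smul, h1, inv_smul_smul], by rw [mul_smul, h2, inv_smul_smul]⟩
  · rintro ⟨h, h1, h2⟩
    exact ⟨g * h, by rw [mul_smul, h1], by rw [mul_smul, h2]⟩

theorem rel_base_iff {a b y : V} : Rel H a b a y ↔ y ∈ orbit (stabilizer H a) b := by
  constructor
  · rintro ⟨g, h1, h2⟩
    exact ⟨⟨g, h1⟩, h2⟩
  · rintro ⟨g, rfl⟩
    exact ⟨g.1, g.2, rfl⟩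

/-- The neighbours of `a` adjacent to `x`. -/
def com (H : Type*) [Group H] [MulAction H V] (a b x : V) : Set V :=
  {z | z ∈ orbit (stabilizer H a) b ∧ Rel H a b x z}

/-- The non-neighbours of `a` adjacent to `x`. -/
def far (H : Type*) [Group H] [MulAction H V] (a b c x : V) : Set V :=
  {z | z ∈ orbit (stabilizer H a) c ∧ Rel H a b x z}

theorem smul_mem_orbit' {M W : Type*} [Group M] [MulAction M W] (s : M) {z d : W} :
    s • z ∈ orbit M d ↔ z ∈ orbit M d := by
  rw [← orbit_eq_iff, orbit_smul, orbit_eq_iff]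

theorem smul_mem_sub {a b d x z : V} (s : stabilizer H a)
    (hz : z ∈ orbit (stabilizer H a) d ∧ Rel H a b x z) :
    s • z ∈ orbit (stabilizer H a) d ∧ Rel H a b (s • x) (s • z) :=
  ⟨(smul_mem_orbit' s).2 hz.1, (rel_smul (s : H)).2 hz.2⟩

variable [Finite V] {a b c : V}

omit [Finite V] in
theorem orbit_self (a : V) : (orbit (stabilizer H a) a).ncard = 1 := by
  rw [show orbit (stabilizer H a) a = {a} from
    Set.eq_singleton_iff_unique_mem.mpr ⟨mem_orbit_self a, fun x ⟨g, hg⟩ => hg ▸ g.2⟩,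
    Set.ncard_singleton]

theorem disjoint_orbit {M W : Type*} [Group M] [MulAction M W] {u w : W}
    (h : (orbit M u).ncard ≠ (orbit M w).ncard) : Disjoint (orbit M u) (orbit M w) := by
  rw [Set.disjoint_left]
  intro x hx hx'
  exact h (by rw [← orbit_eq_iff.mpr hx, orbit_eq_iff.mpr hx'])

theorem Act.disjoint (A : Act H V a b c) :
    a ∉ orbit (stabilizer H a) b ∧ a ∉ orbit (stabilizer H a) c ∧
      Disjoint (orbit (stabilizer H a) b) (orbit (stabilizer H a) c) := by
  refine ⟨fun h => ?_, fun h => ?_, disjoint_orbit (by rw [A.cardB, A.cardC]; omega)⟩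
  · exact Set.disjoint_left.mp
      (disjoint_orbit (by rw [orbit_self, A.cardB]; omega)) (mem_orbit_self a) h
  · exact Set.disjoint_left.mp
      (disjoint_orbit (by rw [orbit_self, A.cardC]; omega)) (mem_orbit_self a) h

theorem Act.cases (A : Act H V a b c) (x : V) :
    x = a ∨ x ∈ orbit (stabilizer H a) b ∨ x ∈ orbit (stabilizer H a) c := by
  obtain ⟨h1, h2, h3⟩ := A.disjoint
  by_contra h
  simp only [not_or] at h
  have hsub : insert x (insert a (orbit (stabilizer H a) b ∪ orbit (stabilizer H a) c)) ⊆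
      (Set.univ : Set V) := Set.subset_univ _
  have hle := Set.ncard_le_ncard hsub
  rw [Set.ncard_univ, A.card, Set.ncard_insert_of_notMem (by simp [h.1, h.2.1, h.2.2]),
    Set.ncard_insert_of_notMem (by simp [h1, h2]),
    Set.ncard_union_eq h3, A.cardB, A.cardC] at hle
  omega

omit [Finite V] in
theorem Act.out_card (A : Act H V a b c) (x : V) : {y | Rel H a b x y}.ncard = 416 := by
  obtain ⟨g, rfl⟩ := A.trans x
  rw [← A.cardB, ← Set.ncard_image_of_injective (orbit (stabilizer H a) b) (MulAction.injective g)]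
  congr 1
  ext y
  constructor
  · intro hy
    refine ⟨g⁻¹ • y, rel_base_iff.1 ?_, smul_inv_smul g y⟩
    rw [← rel_smul g, smul_inv_smul]
    exact hy
  · rintro ⟨z, hz, rfl⟩
    exact (rel_smul g).2 (rel_base_iff.2 hz)

theorem Act.rel_symm (A : Act H V a b c) {x y : V} (h : Rel H a b x y) : Rel H a b y x := by
  classical
  let := Fintype.ofFinite V
  have hconst : ∀ x, {y | Rel H a b y x}.ncard = {y | Rel H a b y a}.ncard := by
    intro x
    obtain ⟨g, rfl⟩ := A.trans x
    rw [← Set.ncard_image_of_injective {y | Rel H a b y a} (MulAction.injective g)]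
    congr 1
    ext y
    constructor
    · intro hy
      refine ⟨g⁻¹ • y, ?_, smul_inv_smul g y⟩
      show Rel H a b (g⁻¹ • y) a
      rw [← rel_smul g, smul_inv_smul]
      exact hy
    · rintro ⟨z, hz, rfl⟩
      exact (rel_smul g).2 hz
  have hin : {y | Rel H a b y a}.ncard = 416 := by
    have h := Finset.sum_card_bipartiteAbove_eq_sum_card_bipartiteBelow
      (s := (Finset.univ : Finset V)) (t := (Finset.univ : Finset V)) (r := Rel H a b)
    have e1 : ∀ x, ((Finset.univ : Finset V).bipartiteAbove (Rel H a b) x).card = 416 := by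
      intro x
      rw [← A.out_card x, Set.ncard_eq_toFinset_card']
      congr 1
      ext y
      simp [Finset.bipartiteAbove]
    have e2 : ∀ x, ((Finset.univ : Finset V).bipartiteBelow (Rel H a b) x).card =
        {y | Rel H a b y a}.ncard := by
      intro x
      rw [← hconst x, Set.ncard_eq_toFinset_card']
      congr 1
      ext y
      simp [Finset.bipartiteBelow]
    simp only [e1, e2, Finset.sum_const, Finset.card_univ, ← Nat.card_eq_fintype_card, A.card,
      smul_eq_mul] at h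
    omega
  obtain ⟨g, rfl⟩ := A.trans y
  obtain ⟨z, rfl⟩ : ∃ z, g • z = x := ⟨g⁻¹ • x, smul_inv_smul g x⟩
  rw [rel_smul] at h ⊢
  have hz : orbit (stabilizer H a) z ⊆ {y | Rel H a b y a} := by
    rintro _ ⟨s, rfl⟩
    have := (rel_smul s.1).mpr h
    rwa [mem_stabilizer_iff.mp s.2] at this
  rw [rel_base_iff]
  rcases A.cases z with rfl | hzb | hzc
  · exact absurd (rel_base_iff.mp h) A.disjoint.1
  · exact hzb
  · exfalso
    have hle := Set.ncard_le_ncard hz
    rw [orbit_eq_iff.mpr hzc, A.cardC, hin] at hle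
    omega

theorem Act.not_rel_self (A : Act H V a b c) (x : V) : ¬ Rel H a b x x := by
  rintro ⟨g, h1, h2⟩
  exact A.disjoint.1 (by rw [MulAction.injective g (h1.trans h2.symm)]; exact mem_orbit_self b)

theorem Act.out_split (A : Act H V a b c) (x : V) (hx : ¬ Rel H a b x a) :
    (com H a b x).ncard + (far H a b c x).ncard = 416 := by
  rw [← A.out_card x, ← Set.ncard_union_eq]
  · congr 1
    ext z
    simp only [com, far, Set.mem_union, Set.mem_ofPred_eq]
    refine ⟨fun h => h.elim And.right And.right, fun h => ?_⟩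
    rcases A.cases z with rfl | hz | hz
    · exact absurd h hx
    · exact .inl ⟨hz, h⟩
    · exact .inr ⟨hz, h⟩
  · rw [Set.disjoint_left]
    exact fun z hz hz' => Set.disjoint_left.1 A.disjoint.2.2 hz.1 hz'.1

theorem Act.not_rel_c (A : Act H V a b c) : ¬ Rel H a b c a := fun h =>
  Set.disjoint_left.1 A.disjoint.2.2 (rel_base_iff.1 (A.rel_symm h)) (mem_orbit_self c)

omit [Finite V] in
theorem ncard_sub_smul (s : stabilizer H a) (d x : V) :
    ({z | z ∈ orbit (stabilizer H a) d ∧ Rel H a b (s • x) z} : Set V).ncard =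
      ({z | z ∈ orbit (stabilizer H a) d ∧ Rel H a b x z} : Set V).ncard := by
  rw [← Set.ncard_image_of_injective {z | z ∈ orbit (stabilizer H a) d ∧ Rel H a b x z}
    (MulAction.injective s)]
  congr 1
  ext z
  constructor
  · intro hz
    refine ⟨s⁻¹ • z, ?_, smul_inv_smul s z⟩
    have h := smul_mem_sub s⁻¹ hz
    rwa [inv_smul_smul] at h
  · rintro ⟨w, hw, rfl⟩
    exact smul_mem_sub s hw

/-- The parameters of the graph. -/
theorem Act.params (A : Act H V a b c)
    (hl : (com H a b b).ncard = 0 ∨ (com H a b b).ncard = 100 ∨ (com H a b b).ncard = 315 ∨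
      (com H a b b).ncard = 415) :
    (com H a b b).ncard = 100 ∧ (com H a b c).ncard = 96 ∧ (far H a b c c).ncard = 320 := by
  classical
  let := Fintype.ofFinite V
  have hQ : ∀ y ∈ orbit (stabilizer H a) b, (com H a b y).ncard = (com H a b b).ncard := by
    rintro _ ⟨s, rfl⟩
    exact ncard_sub_smul s b b
  have hR : ∀ z ∈ orbit (stabilizer H a) c, (com H a b z).ncard = (com H a b c).ncard := by
    rintro _ ⟨s, rfl⟩
    exact ncard_sub_smul s b c
  have hsplit : ∀ y ∈ orbit (stabilizer H a) b,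
      (com H a b y).ncard + (far H a b c y).ncard + 1 = 416 := by
    intro y hy
    have hd : Disjoint (com H a b y) (far H a b c y) := by
      rw [Set.disjoint_left]
      exact fun z hz hz' => Set.disjoint_left.1 A.disjoint.2.2 hz.1 hz'.1
    have hna : a ∉ com H a b y ∪ far H a b c y := by
      rintro (h | h)
      exacts [A.disjoint.1 h.1, A.disjoint.2.1 h.1]
    rw [← A.out_card y, ← Set.ncard_union_eq hd, ← Set.ncard_insert_of_notMem hna]
    congr 1
    ext z
    simp only [com, far, Set.mem_insert_iff, Set.mem_union, Set.mem_ofPred_eq]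
    constructor
    · rintro (rfl | ⟨-, h⟩ | ⟨-, h⟩)
      exacts [A.rel_symm (rel_base_iff.2 hy), h, h]
    · intro h
      rcases A.cases z with hz | hz | hz
      exacts [.inl hz, .inr (.inl ⟨hz, h⟩), .inr (.inr ⟨hz, h⟩)]
  set Q := (orbit (stabilizer H a) b).toFinset with hQd
  set R := (orbit (stabilizer H a) c).toFinset with hRd
  have hQc : Q.card = 416 := by rw [hQd, ← Set.ncard_eq_toFinset_card']; exact A.cardB
  have hRc : R.card = 1365 := by rw [hRd, ← Set.ncard_eq_toFinset_card']; exact A.cardC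
  have hcount := Finset.sum_card_bipartiteAbove_eq_sum_card_bipartiteBelow
    (s := Q) (t := R) (r := Rel H a b)
  have e1 : ∀ y ∈ Q, (R.bipartiteAbove (Rel H a b) y).card =
      415 - (com H a b b).ncard := by
    intro y hy
    rw [hQd, Set.mem_toFinset] at hy
    have h := hsplit y hy
    rw [hQ y hy] at h
    have he : (R.bipartiteAbove (Rel H a b) y).card = (far H a b c y).ncard := by
      rw [Set.ncard_eq_toFinset_card']
      congr 1
      ext z
      rw [Set.mem_toFinset]
      simp [hRd, Finset.bipartiteAbove, far]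
    omega
  have e2 : ∀ z ∈ R, (Q.bipartiteBelow (Rel H a b) z).card = (com H a b c).ncard := by
    intro z hz
    rw [hRd, Set.mem_toFinset] at hz
    rw [← hR z hz, Set.ncard_eq_toFinset_card']
    congr 1
    ext y
    rw [Set.mem_toFinset]
    simp only [hQd, Finset.bipartiteBelow, com, Finset.mem_filter, Set.mem_toFinset,
      Set.mem_ofPred_eq]
    exact ⟨fun h => ⟨h.1, A.rel_symm h.2⟩, fun h => ⟨h.1, A.rel_symm h.2⟩⟩
  rw [Finset.sum_congr rfl e1, Finset.sum_congr rfl e2, Finset.sum_const, Finset.sum_const,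
    smul_eq_mul, smul_eq_mul, hQc, hRc] at hcount
  have h415 : (com H a b b).ncard ≠ 415 := by
    intro h415
    let B : Set V := insert a (orbit (stabilizer H a) b)
    have hcl : ∀ y ∈ orbit (stabilizer H a) b, insert y {z | Rel H a b y z} = B := by
      intro y hy
      have hR0 : far H a b c y = ∅ := by
        rw [← Set.ncard_eq_zero]
        have h := hsplit y hy
        rw [hQ y hy, h415] at h
        omega
      refine Set.eq_of_subset_of_ncard_le (fun z hz => ?_) ?_
      · rcases hz with rfl | hz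
        · exact .inr hy
        · rcases A.cases z with rfl | hz' | hz'
          · exact .inl rfl
          · exact .inr hz'
          · exact absurd (show z ∈ far H a b c y from ⟨hz', hz⟩) (by rw [hR0]; simp)
      · rw [Set.ncard_insert_of_notMem
            (show y ∉ {z | Rel H a b y z} from A.not_rel_self y), A.out_card,
          Set.ncard_insert_of_notMem A.disjoint.1, A.cardB]
    have hN : ∀ g : H, g • B = insert (g • a) {z | Rel H a b (g • a) z} := by
      intro g
      ext z
      rw [Set.mem_smul_set_iff_inv_smul_mem]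
      constructor
      · rintro (h | h)
        · exact .inl (inv_smul_eq_iff.1 h)
        · refine .inr ?_
          show Rel H a b (g • a) z
          rw [← rel_smul g⁻¹, inv_smul_smul]
          exact rel_base_iff.2 h
      · rintro (h | h)
        · exact .inl (by rw [h, inv_smul_smul])
        · refine .inr (rel_base_iff.1 ?_)
          rw [← rel_smul g, smul_inv_smul]
          exact h
    have : IsPretransitive H V := ⟨fun x y => by
      obtain ⟨g, rfl⟩ := A.trans x
      obtain ⟨k, rfl⟩ := A.trans y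
      exact ⟨k * g⁻¹, by rw [mul_smul, inv_smul_smul]⟩⟩
    have hclass : ∀ w ∈ B, insert w {z | Rel H a b w z} = B := by
      rintro w (rfl | hw)
      · have h1 := hN 1
        rw [one_smul, one_smul] at h1
        exact h1.symm
      · exact hcl w hw
    have hblock : IsBlock H B := by
      rw [isBlock_iff_smul_eq_of_nonempty]
      rintro g ⟨w, hwg, hwB⟩
      obtain ⟨v, hv, rfl⟩ := hwg
      have e1 : g • (insert v {z | Rel H a b v z} : Set V) =
          insert (g • v) {z | Rel H a b (g • v) z} := by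
        ext z
        rw [Set.mem_smul_set_iff_inv_smul_mem]
        simp only [Set.mem_insert_iff, Set.mem_ofPred_eq, inv_smul_eq_iff]
        refine or_congr Iff.rfl ?_
        rw [← rel_smul g, smul_inv_smul]
      rwa [hclass v hv, hclass _ hwB] at e1
    have hd := hblock.ncard_dvd_card ⟨a, .inl rfl⟩
    rw [A.card, Set.ncard_insert_of_notMem A.disjoint.1, A.cardB] at hd
    exact absurd hd (by norm_num)
  rcases hl with hl | hl | hl | hl
  · rw [hl] at hcount; omega
  · have hm : (com H a b c).ncard = 96 := by rw [hl] at hcount; omega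
    refine ⟨hl, hm, ?_⟩
    have := A.out_split c A.not_rel_c
    omega
  · rw [hl] at hcount; omega
  · exact absurd hl h415

omit [Finite V] in
/-- An equivariant map of one orbit. -/
theorem exists_equivariant {M M' W : Type*} [Group M] [Group M'] [MulAction M V] [MulAction M' W]
    (e : M ≃* M') {x : V} {y : W} (h : (stabilizer M x).map e.toMonoidHom = stabilizer M' y) :
    ∃ f : V → W, (∀ m : M, f (m • x) = e m • y) ∧
      ∀ m n : M, f (m • x) = f (n • x) → m • x = n • x := by
  classical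
  have key : ∀ m n : M, m • x = n • x ↔ e m • y = e n • y := by
    intro m n
    have h1 : n⁻¹ * m ∈ stabilizer M x ↔ e (n⁻¹ * m) ∈ stabilizer M' y := by
      rw [← h, Subgroup.mem_map]
      exact ⟨fun hm => ⟨_, hm, rfl⟩, fun ⟨k, hk, hke⟩ => e.injective hke ▸ hk⟩
    rw [mem_stabilizer_iff, mem_stabilizer_iff, mul_smul, map_mul, map_inv, mul_smul,
      inv_smul_eq_iff, inv_smul_eq_iff] at h1
    exact h1
  refine ⟨fun z => if hz : ∃ m : M, m • x = z then e hz.choose • y else y, fun m => ?_, ?_⟩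
  · have hz : ∃ k : M, k • x = m • x := ⟨m, rfl⟩
    beta_reduce
    rw [dif_pos hz]
    exact (key _ _).1 hz.choose_spec
  · intro m n hmn
    have hm : ∃ k : M, k • x = m • x := ⟨m, rfl⟩
    have hn : ∃ k : M, k • x = n • x := ⟨n, rfl⟩
    beta_reduce at hmn
    rw [dif_pos hm, dif_pos hn, (key _ _).1 hm.choose_spec, (key _ _).1 hn.choose_spec] at hmn
    exact (key _ _).2 hmn

end Act

/-- Invariant subsets of the suborbit of size 416, seen from one of its points. -/
theorem small_sets {M W : Type*} [Group M] [MulAction M W] [Finite W] {q u v : W} {T : Set W}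
    (hT : T.ncard = 416) (hTi : ∀ h : M, ∀ z ∈ T, h • z ∈ T) (hq : q ∈ T) (hu : u ∈ T)
    (hv : v ∈ T) (hfix : ∀ h : M, h • q = q) (hu' : (orbit M u).ncard = 100)
    (hv' : (orbit M v).ncard = 315) {A : Set W} (hA : A ⊆ T) (hAq : q ∉ A)
    (hAi : ∀ h : M, ∀ z ∈ A, h • z ∈ A) :
    (A.ncard = 0 ∨ A.ncard = 100 ∨ A.ncard = 315 ∨ A.ncard = 415) ∧
      (A.ncard = 100 → A = orbit M u) := by
  have hq1 : orbit M q = {q} := Set.eq_singleton_iff_unique_mem.mpr
    ⟨mem_orbit_self q, fun x ⟨g, hg⟩ => hg ▸ hfix g⟩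
  have hd : Disjoint (orbit M u) (orbit M v) := disjoint_orbit (by rw [hu', hv']; omega)
  have hqn : q ∉ orbit M u ∪ orbit M v := by
    rintro (h | h) <;>
    · have h' := congrArg Set.ncard (orbit_eq_iff.2 h)
      rw [hq1, Set.ncard_singleton] at h'
      omega
  have horb : ∀ {B : Set W}, (∀ h : M, ∀ z ∈ B, h • z ∈ B) → ∀ {w : W}, w ∈ B → orbit M w ⊆ B :=
    fun hB w hw z ⟨m, hm⟩ => hm ▸ hB m w hw
  have hT' : insert q (orbit M u ∪ orbit M v) = T := by
    refine Set.eq_of_subset_of_ncard_le (Set.insert_subset hq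
      (Set.union_subset (horb hTi hu) (horb hTi hv))) ?_
    rw [Set.ncard_insert_of_notMem hqn, Set.ncard_union_eq hd, hu', hv', hT]
  have hsub : A ⊆ orbit M u ∪ orbit M v := fun z hz => by
    rcases hT'.symm.subset (hA hz) with rfl | h
    exacts [absurd hz hAq, h]
  have hall : ∀ w, (∃ z ∈ A, z ∈ orbit M w) → orbit M w ⊆ A := by
    rintro w ⟨z, hz, hzw⟩
    rw [← orbit_eq_iff.2 hzw]
    exact horb hAi hz
  by_cases h1 : ∃ z ∈ A, z ∈ orbit M u <;> by_cases h2 : ∃ z ∈ A, z ∈ orbit M v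
  · have e : A = orbit M u ∪ orbit M v :=
      Set.Subset.antisymm hsub (Set.union_subset (hall u h1) (hall v h2))
    have hc : A.ncard = 415 := by rw [e, Set.ncard_union_eq hd, hu', hv']
    exact ⟨.inr (.inr (.inr hc)), fun h => by omega⟩
  · have e : A = orbit M u := Set.Subset.antisymm
      (fun z hz => (hsub hz).resolve_right fun h => h2 ⟨z, hz, h⟩) (hall u h1)
    exact ⟨.inr (.inl (by rw [e, hu'])), fun _ => e⟩
  · have e : A = orbit M v := Set.Subset.antisymm
      (fun z hz => (hsub hz).resolve_left fun h => h1 ⟨z, hz, h⟩) (hall v h2)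
    have hc : A.ncard = 315 := by rw [e, hv']
    exact ⟨.inr (.inr (.inl hc)), fun h => by omega⟩
  · have e : A = ∅ := Set.eq_empty_iff_forall_notMem.2 fun z hz =>
      (hsub hz).elim (fun h => h1 ⟨z, hz, h⟩) (fun h => h2 ⟨z, hz, h⟩)
    have hc : A.ncard = 0 := by rw [e, Set.ncard_empty]
    exact ⟨.inl hc, fun h => by omega⟩

/-- Uniqueness of an invariant subset moves along an orbit. -/
theorem unique_of_orbit {M W : Type*} [Group M] [MulAction M W] {T : Set W} (n : ℕ)
    (hTi : ∀ h : M, ∀ z ∈ T, h • z ∈ T) {r0 : W}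
    (h : ∀ A B : Set W, A ⊆ T → B ⊆ T → A.ncard = n → B.ncard = n →
      (∀ h ∈ stabilizer M r0, ∀ q ∈ A, h • q ∈ A) →
      (∀ h ∈ stabilizer M r0, ∀ q ∈ B, h • q ∈ B) → A = B)
    {r : W} (hr : r ∈ orbit M r0) (A B : Set W) (hA : A ⊆ T) (hB : B ⊆ T) (hAn : A.ncard = n)
    (hBn : B.ncard = n) (hAi : ∀ h ∈ stabilizer M r, ∀ q ∈ A, h • q ∈ A)
    (hBi : ∀ h ∈ stabilizer M r, ∀ q ∈ B, h • q ∈ B) : A = B := by
  obtain ⟨s, rfl⟩ := hr
  have hin : Function.Injective fun z : W => s⁻¹ • z := MulAction.injective s⁻¹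
  have aux : ∀ C : Set W, C ⊆ T → (∀ h ∈ stabilizer M (s • r0), ∀ q ∈ C, h • q ∈ C) →
      (fun z => s⁻¹ • z) '' C ⊆ T ∧
      ∀ h ∈ stabilizer M r0, ∀ q ∈ (fun z => s⁻¹ • z) '' C, h • q ∈ (fun z => s⁻¹ • z) '' C := by
    intro C hC hCi
    refine ⟨fun z ⟨w, hw, hwz⟩ => hwz ▸ hTi _ _ (hC hw), ?_⟩
    rintro k hk _ ⟨w, hw, rfl⟩
    refine ⟨(s * k * s⁻¹) • w, hCi _ ?_ w hw, ?_⟩
    · rw [mem_stabilizer_iff, mul_smul, mul_smul, inv_smul_smul, mem_stabilizer_iff.1 hk]
    · show s⁻¹ • (s * k * s⁻¹) • w = k • s⁻¹ • w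
      rw [mul_smul, mul_smul, inv_smul_smul]
  refine hin.image_injective (h _ _ (aux A hA hAi).1 (aux B hB hBi).1 ?_ ?_
    (aux A hA hAi).2 (aux B hB hBi).2)
  · rw [Set.ncard_image_of_injective _ hin, hAn]
  · rw [Set.ncard_image_of_injective _ hin, hBn]

section Iso

variable {H V : Type*} [Group H] [MulAction H V] {H' W : Type*} [Group H'] [MulAction H' W]
  {a b c : V} {o q0 r0 : W}

/-- Two rank three actions with corresponding point stabilisers have the same graph. -/
theorem exists_graph_iso (A : Act H V a b c) (A' : Act H' W o q0 r0)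
    (e : stabilizer H a ≃* stabilizer H' o)
    (he : (stabilizer (stabilizer H a) b).map e.toMonoidHom = stabilizer (stabilizer H' o) q0)
    {u v : W} (hu : u ∈ orbit (stabilizer H' o) q0) (hv : v ∈ orbit (stabilizer H' o) q0)
    (hu' : (orbit (stabilizer (stabilizer H' o) q0) u).ncard = 100)
    (hv' : (orbit (stabilizer (stabilizer H' o) q0) v).ncard = 315)
    (hX : ∀ X : Subgroup (stabilizer H' o), X.index = 1365 →
      (∃ B : Set W, B ⊆ orbit (stabilizer H' o) q0 ∧ B.ncard = 96 ∧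
        ∀ h ∈ X, ∀ q ∈ B, h • q ∈ B) →
      ∃ r ∈ orbit (stabilizer H' o) r0, X = stabilizer (stabilizer H' o) r)
    (h96 : ∀ A B : Set W, A ⊆ orbit (stabilizer H' o) q0 → B ⊆ orbit (stabilizer H' o) q0 →
      A.ncard = 96 → B.ncard = 96 →
      (∀ h ∈ stabilizer (stabilizer H' o) r0, ∀ q ∈ A, h • q ∈ A) →
      (∀ h ∈ stabilizer (stabilizer H' o) r0, ∀ q ∈ B, h • q ∈ B) → A = B)
    (h320 : ∀ A B : Set W, A ⊆ orbit (stabilizer H' o) r0 → B ⊆ orbit (stabilizer H' o) r0 →
      A.ncard = 320 → B.ncard = 320 →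
      (∀ h ∈ stabilizer (stabilizer H' o) r0, ∀ q ∈ A, h • q ∈ A) →
      (∀ h ∈ stabilizer (stabilizer H' o) r0, ∀ q ∈ B, h • q ∈ B) → A = B) :
    ∃ ψ : V ≃ W, ψ a = o ∧ (∀ (h : stabilizer H a) (z : V), ψ (h • z) = e h • ψ z) ∧
      ∀ x y, Rel H' o q0 (ψ x) (ψ y) ↔ Rel H a b x y := by
  classical
  have : Finite V := Nat.finite_of_card_ne_zero (by rw [A.card]; norm_num)
  have : Finite W := Nat.finite_of_card_ne_zero (by rw [A'.card]; norm_num)
  obtain ⟨fQ, hfQ, hfQi⟩ := exists_equivariant e he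
  have hQinj : Set.InjOn fQ (orbit (stabilizer H a) b) := by
    rintro _ ⟨m, rfl⟩ _ ⟨n, rfl⟩ h
    exact hfQi m n h
  -- invariance of the sets cut out on a suborbit
  have invV : ∀ (d x : V) (s : stabilizer H a), s • x = x →
      ∀ z, (z ∈ orbit (stabilizer H a) d ∧ Rel H a b x z) →
        (s • z ∈ orbit (stabilizer H a) d ∧ Rel H a b x (s • z)) := by
    intro d x s hs z hz
    have := smul_mem_sub s hz
    rwa [hs] at this
  have invW : ∀ (d x : W) (s : stabilizer H' o), s • x = x →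
      ∀ z, (z ∈ orbit (stabilizer H' o) d ∧ Rel H' o q0 x z) →
        (s • z ∈ orbit (stabilizer H' o) d ∧ Rel H' o q0 x (s • z)) := by
    intro d x s hs z hz
    have := smul_mem_sub s hz
    rwa [hs] at this
  have sub_fQ : ∀ B : Set V, B ⊆ orbit (stabilizer H a) b →
      fQ '' B ⊆ orbit (stabilizer H' o) q0 := by
    rintro B hB _ ⟨z, hz, rfl⟩
    obtain ⟨m, rfl⟩ := hB hz
    exact ⟨e m, (hfQ m).symm⟩
  -- parameters of the model
  have hb_small : ∀ B : Set W, B ⊆ orbit (stabilizer H' o) q0 → q0 ∉ B →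
      (∀ h ∈ stabilizer (stabilizer H' o) q0, ∀ z ∈ B, h • z ∈ B) →
      (B.ncard = 0 ∨ B.ncard = 100 ∨ B.ncard = 315 ∨ B.ncard = 415) ∧
        (B.ncard = 100 → B = orbit (stabilizer (stabilizer H' o) q0) u) := fun B hB hBq hBi =>
    small_sets (M := stabilizer (stabilizer H' o) q0) (T := orbit (stabilizer H' o) q0) A'.cardB
      (fun h z hz => (smul_mem_orbit' (h : stabilizer H' o)).2 hz) (mem_orbit_self q0) hu hv
      (fun h => h.2) hu' hv' hB hBq (fun h z hz => hBi h.1 h.2 z hz)
  have hcW := hb_small (com H' o q0 q0) (fun z hz => hz.1) (fun h => A'.not_rel_self q0 h.2)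
    (fun h hh z hz => invW q0 q0 h hh z hz)
  have hcomV : com H a b b ⊆ orbit (stabilizer H a) b := fun z hz => hz.1
  have hcV := hb_small (fQ '' com H a b b) (sub_fQ _ hcomV)
    (by
      rintro ⟨z, hz, hzq⟩
      have : z = b := hQinj (hcomV hz) (mem_orbit_self b) (by
        rw [hzq]
        have h1 := hfQ 1
        rw [one_smul, map_one, one_smul] at h1
        exact h1.symm)
      exact A.not_rel_self b (this ▸ hz.2))
    (by
      rintro h hh _ ⟨z, hz, rfl⟩
      rw [← he] at hh
      obtain ⟨k, hk, rfl⟩ := hh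
      refine ⟨k • z, invV b b k hk z hz, ?_⟩
      obtain ⟨m, rfl⟩ := hcomV hz
      rw [← mul_smul, hfQ, hfQ, map_mul, mul_smul]
      rfl)
  have hnc : (fQ '' com H a b b).ncard = (com H a b b).ncard :=
    (hQinj.mono hcomV).ncard_image
  obtain ⟨pV1, pV2, pV3⟩ := A.params (hnc ▸ hcV.1)
  obtain ⟨pW1, pW2, pW3⟩ := A'.params hcW.1
  have eqQQ : fQ '' com H a b b = com H' o q0 q0 :=
    (hcV.2 (hnc.trans pV1)).trans (hcW.2 pW1).symm
  -- the point of the far suborbit of the model
  have hcomc : com H a b c ⊆ orbit (stabilizer H a) b := fun z hz => hz.1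
  have hXi : ∀ h ∈ (stabilizer (stabilizer H a) c).map e.toMonoidHom,
      ∀ q ∈ fQ '' com H a b c, h • q ∈ fQ '' com H a b c := by
    rintro h hh _ ⟨z, hz, rfl⟩
    obtain ⟨k, hk, rfl⟩ := hh
    refine ⟨k • z, invV b c k hk z hz, ?_⟩
    obtain ⟨m, rfl⟩ := hcomc hz
    rw [← mul_smul, hfQ, hfQ, map_mul, mul_smul]
    rfl
  have h96c : (fQ '' com H a b c).ncard = 96 := by
    rw [(hQinj.mono hcomc).ncard_image, pV2]
  obtain ⟨r, hr, hXr⟩ := hX ((stabilizer (stabilizer H a) c).map e.toMonoidHom)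
    (((Subgroup.index_map_equiv _ e).trans (index_stabilizer _ _)).trans A.cardC)
    ⟨_, sub_fQ _ hcomc, h96c, hXi⟩
  obtain ⟨fR, hfR, hfRi⟩ := exists_equivariant e hXr
  have hRinj : Set.InjOn fR (orbit (stabilizer H a) c) := by
    rintro _ ⟨m, rfl⟩ _ ⟨n, rfl⟩ h
    exact hfRi m n h
  obtain ⟨t, rfl⟩ := hr
  have ncard_r : ∀ d, ({z | z ∈ orbit (stabilizer H' o) d ∧ Rel H' o q0 (t • r0) z} : Set W).ncard =
      ({z | z ∈ orbit (stabilizer H' o) d ∧ Rel H' o q0 r0 z} : Set W).ncard :=
    fun d => ncard_sub_smul t d r0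
  have eqQR : fQ '' com H a b c = com H' o q0 (t • r0) :=
    unique_of_orbit 96 (fun h z hz => (smul_mem_orbit' h).2 hz) h96 ⟨t, rfl⟩ _ _
      (sub_fQ _ hcomc) (fun z hz => hz.1) h96c ((ncard_r q0).trans pW2)
      (fun h hh => hXi h (hXr ▸ hh)) (fun h hh z hz => invW q0 (t • r0) h hh z hz)
  have hfarc : far H a b c c ⊆ orbit (stabilizer H a) c := fun z hz => hz.1
  have sub_fR : fR '' far H a b c c ⊆ orbit (stabilizer H' o) r0 := by
    rintro _ ⟨z, hz, rfl⟩
    obtain ⟨m, rfl⟩ := hfarc hz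
    rw [hfR]
    exact (smul_mem_orbit' _).2 ⟨t, rfl⟩
  have eqRR : fR '' far H a b c c = far H' o q0 r0 (t • r0) :=
    unique_of_orbit 320 (fun h z hz => (smul_mem_orbit' h).2 hz) h320 ⟨t, rfl⟩ _ _
      sub_fR (fun z hz => hz.1) (by rw [(hRinj.mono hfarc).ncard_image, pV3])
      ((ncard_r r0).trans pW3)
      (by
        rintro h hh _ ⟨z, hz, rfl⟩
        rw [← hXr] at hh
        obtain ⟨k, hk, rfl⟩ := hh
        refine ⟨k • z, invV c c k hk z hz, ?_⟩
        obtain ⟨m, rfl⟩ := hfarc hz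
        rw [← mul_smul, hfR, hfR, map_mul, mul_smul]
        rfl)
      (fun h hh z hz => invW r0 (t • r0) h hh z hz)
  -- the map
  let f : V → W := fun z =>
    if z = a then o else if z ∈ orbit (stabilizer H a) b then fQ z else fR z
  have fa : f a = o := by simp [f]
  have fb : ∀ z ∈ orbit (stabilizer H a) b, f z = fQ z := fun z hz => by
    have : z ≠ a := fun h => A.disjoint.1 (h ▸ hz)
    simp [f, this, hz]
  have fc : ∀ z ∈ orbit (stabilizer H a) c, f z = fR z := fun z hz => by
    have h1 : z ≠ a := fun h => A.disjoint.2.1 (h ▸ hz)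
    have h2 : z ∉ orbit (stabilizer H a) b := fun h => Set.disjoint_left.1 A.disjoint.2.2 h hz
    simp [f, h1, h2]
  have fbm : ∀ m : stabilizer H a, f (m • b) = e m • q0 := fun m => by
    rw [fb _ ⟨m, rfl⟩, hfQ]
  have fcm : ∀ m : stabilizer H a, f (m • c) = e m • t • r0 := fun m => by
    rw [fc _ ⟨m, rfl⟩, hfR]
  have fsmul : ∀ (h : stabilizer H a) (z : V), f (h • z) = e h • f z := by
    intro h z
    rcases A.cases z with rfl | ⟨m, rfl⟩ | ⟨m, rfl⟩
    · have h1 : h • z = z := h.2
      have h2 : e h • o = o := (e h).2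
      rw [h1, fa, h2]
    · rw [← mul_smul, fbm, fbm, map_mul, mul_smul]
    · rw [← mul_smul, fcm, fcm, map_mul, mul_smul]
  have hfQ' : ∀ z ∈ orbit (stabilizer H a) b, f z ∈ orbit (stabilizer H' o) q0 := by
    rintro _ ⟨m, rfl⟩
    rw [fbm]
    exact ⟨e m, rfl⟩
  have hfR' : ∀ z ∈ orbit (stabilizer H a) c, f z ∈ orbit (stabilizer H' o) r0 := by
    rintro _ ⟨m, rfl⟩
    rw [fcm]
    exact (smul_mem_orbit' _).2 ⟨t, rfl⟩
  have finj : Function.Injective f := by
    intro x y hxy
    rcases A.cases x with hx | hx | hx <;> rcases A.cases y with hy | hy | hy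
    · rw [hx, hy]
    · rw [hx, fa] at hxy
      exact absurd (hxy ▸ hfQ' y hy) A'.disjoint.1
    · rw [hx, fa] at hxy
      exact absurd (hxy ▸ hfR' y hy) A'.disjoint.2.1
    · rw [hy, fa] at hxy
      exact absurd (hxy ▸ hfQ' x hx) A'.disjoint.1
    · rw [fb x hx, fb y hy] at hxy
      exact hQinj hx hy hxy
    · exact absurd (hfR' y hy) (Set.disjoint_left.1 A'.disjoint.2.2 (hxy ▸ hfQ' x hx))
    · rw [hy, fa] at hxy
      exact absurd (hxy ▸ hfR' x hx) A'.disjoint.2.1
    · exact absurd (hfR' x hx) (Set.disjoint_left.1 A'.disjoint.2.2 (hxy.symm ▸ hfQ' y hy))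
    · rw [fc x hx, fc y hy] at hxy
      exact hRinj hx hy hxy
  have fbij : Function.Bijective f :=
    (Nat.bijective_iff_injective_and_card f).2 ⟨finj, by rw [A.card, A'.card]⟩
  have key : ∀ x y, Rel H a b x y → Rel H' o q0 (f x) (f y) := by
    have base : ∀ (x : V), (x = a ∨ x = b ∨ x = c) → ∀ y, Rel H a b x y →
        Rel H' o q0 (f x) (f y) := by
      intro x hx y hxy
      have fb0 : f b = q0 := by
        have := fbm 1
        rwa [one_smul, map_one, one_smul] at this
      have fc0 : f c = t • r0 := by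
        have := fcm 1
        rwa [one_smul, map_one, one_smul] at this
      rcases hx with rfl | rfl | rfl
      · rw [fa]
        exact rel_base_iff.2 (hfQ' y (rel_base_iff.1 hxy))
      · rw [fb0]
        rcases A.cases y with rfl | hy | hy
        · rw [fa]
          exact A'.rel_symm (rel_base_iff.2 (mem_orbit_self q0))
        · rw [fb y hy]
          exact (eqQQ.subset ⟨y, ⟨hy, hxy⟩, rfl⟩).2
        · obtain ⟨m, rfl⟩ := hy
          have h1 : Rel H a x c (m⁻¹ • x) := by
            have := (rel_smul (↑(m⁻¹) : H)).2 (A.rel_symm hxy)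
            change Rel H a x (m⁻¹ • m • c) (m⁻¹ • x) at this
            rwa [inv_smul_smul] at this
          have hz : m⁻¹ • x ∈ orbit (stabilizer H a) x := ⟨_, rfl⟩
          have h2 : fQ (m⁻¹ • x) ∈ com H' o q0 (t • r0) := eqQR.subset ⟨_, ⟨hz, h1⟩, rfl⟩
          rw [hfQ] at h2
          have h3 := (rel_smul ((e m : stabilizer H' o) : H')).2 h2.2
          change Rel H' o q0 (e m • t • r0) (e m • e m⁻¹ • q0) at h3
          rw [map_inv, smul_inv_smul] at h3
          rw [fcm]
          exact A'.rel_symm h3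
      · rw [fc0]
        rcases A.cases y with rfl | hy | hy
        · exact absurd hxy A.not_rel_c
        · rw [fb y hy]
          exact (eqQR.subset ⟨y, ⟨hy, hxy⟩, rfl⟩).2
        · rw [fc y hy]
          exact (eqRR.subset ⟨y, ⟨hy, hxy⟩, rfl⟩).2
    intro x y hxy
    obtain ⟨m, x', hx', rfl⟩ : ∃ (m : stabilizer H a) (x' : V),
        (x' = a ∨ x' = b ∨ x' = c) ∧ m • x' = x := by
      rcases A.cases x with h | ⟨m, hm⟩ | ⟨m, hm⟩
      exacts [⟨1, a, .inl rfl, by rw [one_smul, h]⟩, ⟨m, b, .inr (.inl rfl), hm⟩,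
        ⟨m, c, .inr (.inr rfl), hm⟩]
    obtain ⟨y', rfl⟩ : ∃ y', m • y' = y := ⟨m⁻¹ • y, smul_inv_smul m y⟩
    rw [fsmul, fsmul]
    exact (rel_smul ((e m : stabilizer H' o) : H')).2 (base x' hx' y' ((rel_smul (m : H)).1 hxy))
  refine ⟨Equiv.ofBijective f fbij, fa, fsmul, fun x y => ⟨fun h => ?_, key x y⟩⟩
  have heq : f '' {z | Rel H a b x z} = {z | Rel H' o q0 (f x) z} := by
    refine Set.eq_of_subset_of_ncard_le (fun z ⟨w, hw, hwz⟩ => hwz ▸ key x w hw) ?_
    rw [Set.ncard_image_of_injective _ finj, A.out_card, A'.out_card]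
  obtain ⟨w, hw, hwy⟩ := heq.symm.subset h
  rwa [finj hwy] at hw

end Iso

theorem adj_iff_rel {α : Type*} (S : Subgroup (Equiv.Perm α)) (o q x y : α) :
    Adj S o (orbit (stabilizer S o) q) x y ↔ Rel S o q x y := by
  constructor
  · rintro ⟨g, hg, h1, s, hs⟩
    refine ⟨⟨g, hg⟩ * (s : ↥S), ?_, ?_⟩
    · rw [mul_smul, s.2]
      exact h1
    · rw [mul_smul]
      show g ((s : ↥S) • q) = y
      rw [show ((s : ↥S) • q) = g⁻¹ y from hs]
      exact g.apply_symm_apply y
  · rintro ⟨g, h1, h2⟩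
    refine ⟨g.1, g.2, h1, ?_⟩
    rw [← h2]
    show g.1⁻¹ (g.1 q) ∈ _
    rw [Equiv.Perm.inv_def, Equiv.symm_apply_apply]
    exact mem_orbit_self q

/-- Two groups of automorphisms of one graph with the same point stabiliser are equal. -/
theorem eq_of_stab {W : Type*} [Finite W] (S G' : Subgroup (Equiv.Perm W)) {o q r : W}
    (A' : Act S W o q r) (hS : Nat.card S = 448345497600)
    (htrans : ∀ x : W, ∃ g ∈ G', g o = x)
    (hstab : ∀ g : Equiv.Perm W, g o = o → (g ∈ G' ↔ g ∈ S))
    (hadj : ∀ g ∈ G', ∀ x y, Rel S o q (g x) (g y) ↔ Rel S o q x y)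
    (hbound : Nat.card {h : Equiv.Perm W // h o = o ∧ ∀ x y, Rel S o q x y ↔ Rel S o q (h x) (h y)}
      < 1782 * 251596800) : G' = S := by
  classical
  have : IsPretransitive S W := ⟨fun x y => by
    obtain ⟨g, rfl⟩ := A'.trans x
    obtain ⟨k, rfl⟩ := A'.trans y
    exact ⟨k * g⁻¹, by rw [mul_smul, inv_smul_smul]⟩⟩
  set K : Subgroup S := G'.subgroupOf S with hK
  have hle : stabilizer S o ≤ K := fun g hg => by
    rw [hK, Subgroup.mem_subgroupOf]
    exact (hstab g.1 hg).2 g.2
  have hidx : (orbit K o).ncard * K.index = 1782 := by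
    have h1 : (stabilizer S o).relIndex K = (orbit K o).ncard := by
      rw [← index_stabilizer, Subgroup.relIndex]
      congr 1
    rw [← h1, Subgroup.relIndex_mul_index hle, index_stabilizer_of_transitive, A'.card]
  have hcl : ∀ w ∈ orbit K o, orbit (stabilizer S o) w ⊆ orbit K o := by
    rintro _ hw _ ⟨s, rfl⟩
    exact (smul_mem_orbit' (⟨s.1, hle s.2⟩ : K)).2 hw
  by_cases hfull : ∀ x, x ∈ orbit K o
  · have hSG : S ≤ G' := by
      intro g hg
      obtain ⟨k, hk⟩ := hfull (g o)
      have hk' : (k : S).1 o = g o := hk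
      have hkG : (k : S).1 ∈ G' := Subgroup.mem_subgroupOf.1 k.2
      have h0 : ((k : S).1⁻¹ * g) o = o := by
        rw [Equiv.Perm.mul_apply, ← hk', Equiv.Perm.inv_def, Equiv.symm_apply_apply]
      have := (hstab _ h0).2 (mul_mem (inv_mem (k : S).2) hg)
      simpa using mul_mem hkG this
    refine le_antisymm (fun g hg => ?_) hSG
    obtain ⟨s, hs⟩ := A'.trans (g o)
    have hs' : s.1 o = g o := hs
    have h0 : (s.1⁻¹ * g) o = o := by
      rw [Equiv.Perm.mul_apply, ← hs', Equiv.Perm.inv_def, Equiv.symm_apply_apply]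
    have := (hstab _ h0).1 (mul_mem (inv_mem (hSG s.2)) hg)
    simpa using mul_mem s.2 this
  exfalso
  have hone : orbit K o = {o} := by
    have hq : Disjoint (orbit K o) (orbit (stabilizer S o) q) ∨
        orbit (stabilizer S o) q ⊆ orbit K o := by
      by_cases h : ∃ w ∈ orbit K o, w ∈ orbit (stabilizer S o) q
      · obtain ⟨w, hw, hw'⟩ := h
        exact .inr (orbit_eq_iff.2 hw' ▸ hcl w hw)
      · exact .inl (Set.disjoint_left.2 fun w hw hw' => h ⟨w, hw, hw'⟩)
    have hr : Disjoint (orbit K o) (orbit (stabilizer S o) r) ∨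
        orbit (stabilizer S o) r ⊆ orbit K o := by
      by_cases h : ∃ w ∈ orbit K o, w ∈ orbit (stabilizer S o) r
      · obtain ⟨w, hw, hw'⟩ := h
        exact .inr (orbit_eq_iff.2 hw' ▸ hcl w hw)
      · exact .inl (Set.disjoint_left.2 fun w hw hw' => h ⟨w, hw, hw'⟩)
    rcases hq with hq | hq <;> rcases hr with hr | hr
    · ext x
      refine ⟨fun hx => ?_, fun hx => by rw [Set.mem_singleton_iff.1 hx]; exact mem_orbit_self o⟩
      rcases A'.cases x with h | h | h
      exacts [h, absurd h (Set.disjoint_left.1 hq hx), absurd h (Set.disjoint_left.1 hr hx)]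
    · have he : orbit K o = insert o (orbit (stabilizer S o) r) := by
        refine Set.Subset.antisymm (fun x hx => ?_) (Set.insert_subset (mem_orbit_self o) hr)
        rcases A'.cases x with h | h | h
        exacts [.inl h, absurd h (Set.disjoint_left.1 hq hx), .inr h]
      rw [he, Set.ncard_insert_of_notMem A'.disjoint.2.1, A'.cardC] at hidx
      exfalso; omega
    · have he : orbit K o = insert o (orbit (stabilizer S o) q) := by
        refine Set.Subset.antisymm (fun x hx => ?_) (Set.insert_subset (mem_orbit_self o) hq)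
        rcases A'.cases x with h | h | h
        exacts [.inl h, .inr h, absurd h (Set.disjoint_left.1 hr hx)]
      rw [he, Set.ncard_insert_of_notMem A'.disjoint.1, A'.cardB] at hidx
      exfalso; omega
    · refine absurd (fun x => ?_) hfull
      rcases A'.cases x with h | h | h
      exacts [by rw [h]; exact mem_orbit_self o, hq h, hr h]
  rw [hone, Set.ncard_singleton, one_mul] at hidx
  -- too many automorphisms
  have hfix : ∀ g : Equiv.Perm W, g ∈ S → g ∈ G' → g o = o := fun g hg hg' => by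
    have h : (⟨⟨g, hg⟩, Subgroup.mem_subgroupOf.2 hg'⟩ : K) • o ∈ orbit K o := ⟨_, rfl⟩
    rw [hone] at h
    exact h
  choose R hR hRo using htrans
  have hSadj : ∀ s ∈ S, ∀ x y, Rel S o q (s x) (s y) ↔ Rel S o q x y :=
    fun s hs x y => rel_smul (⟨s, hs⟩ : S)
  set T := {h : Equiv.Perm W // h o = o ∧ ∀ x y, Rel S o q x y ↔ Rel S o q (h x) (h y)}
  have : Finite T := inferInstanceAs (Finite (Subtype _))
  have hsel : ∀ x : W, ∃ s : S, s.1 o = x := A'.trans
  choose L hL using hsel
  let Φ : W × S → W × T := fun p =>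
    let g := R p.1 * p.2.1
    (g o, ⟨(L (g o)).1⁻¹ * g, by
      refine ⟨?_, fun x y => ?_⟩
      · rw [Equiv.Perm.mul_apply]
        exact Equiv.Perm.inv_eq_iff_eq.2 (hL _).symm
      · show _ ↔ Rel S o q ((L (g o)).1⁻¹ (g x)) ((L (g o)).1⁻¹ (g y))
        rw [hSadj _ (inv_mem (L (g o)).2)]
        show _ ↔ Rel S o q (R p.1 (p.2.1 x)) (R p.1 (p.2.1 y))
        rw [hadj _ (hR _), hSadj _ p.2.2]⟩)
  have hΦ : Function.Injective Φ := by
    rintro ⟨x, s⟩ ⟨x', s'⟩ h
    have h1 : (R x * s.1) o = (R x' * s'.1) o := congrArg Prod.fst h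
    have h2 : (L ((R x * s.1) o)).1⁻¹ * (R x * s.1) = (L ((R x' * s'.1) o)).1⁻¹ * (R x' * s'.1) :=
      congrArg (fun p : W × T => p.2.1) h
    rw [h1, mul_right_inj] at h2
    have h3 : (R x')⁻¹ * R x = s'.1 * s.1⁻¹ := by
      rw [eq_mul_inv_iff_mul_eq, mul_assoc, h2, inv_mul_cancel_left]
    have h4 : ((R x')⁻¹ * R x) o = o :=
      hfix _ (h3 ▸ mul_mem s'.2 (inv_mem s.2)) (mul_mem (inv_mem (hR _)) (hR _))
    rw [Equiv.Perm.mul_apply, hRo, Equiv.Perm.inv_eq_iff_eq, hRo] at h4
    subst h4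
    exact Prod.ext rfl (Subtype.ext (mul_left_cancel h2))
  have := Nat.card_le_card_of_injective Φ hΦ
  rw [Nat.card_prod, Nat.card_prod, hS, A'.card] at this
  omega

/-- A rank three group of degree 1782 with the stabiliser of the model is the model group. -/
theorem iso_of_model {Ω : Type*} [Fintype Ω] [DecidableEq Ω] (hΩ : Fintype.card Ω = 1782)
    (G : Subgroup (Equiv.Perm Ω)) [MulAction.IsPretransitive G Ω] (a b c : Ω)
    (hb : (MulAction.orbit (MulAction.stabilizer G a) b).ncard = 416)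
    (hc : (MulAction.orbit (MulAction.stabilizer G a) c).ncard = 1365)
    (S : Subgroup (Equiv.Perm (Fin 1782))) (hScard : Nat.card ↥S = 448345497600)
    [MulAction.IsPretransitive S (Fin 1782)] (q0 r0 : Fin 1782)
    (hq : (MulAction.orbit (MulAction.stabilizer S (0 : Fin 1782)) q0).ncard = 416)
    (hr : (MulAction.orbit (MulAction.stabilizer S (0 : Fin 1782)) r0).ncard = 1365)
    (e : MulAction.stabilizer G a ≃* MulAction.stabilizer S (0 : Fin 1782))
    (he : (MulAction.stabilizer (MulAction.stabilizer G a) b).map e.toMonoidHom =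
      MulAction.stabilizer (MulAction.stabilizer S (0 : Fin 1782)) q0)
    (hsub : ∃ u v,
      u ∈ MulAction.orbit (MulAction.stabilizer S (0 : Fin 1782)) q0 ∧
      v ∈ MulAction.orbit (MulAction.stabilizer S (0 : Fin 1782)) q0 ∧
      (MulAction.orbit (MulAction.stabilizer (MulAction.stabilizer S (0 : Fin 1782)) q0) u).ncard
        = 100 ∧
      (MulAction.orbit (MulAction.stabilizer (MulAction.stabilizer S (0 : Fin 1782)) q0) v).ncard
        = 315)
    (hX : ∀ X : Subgroup (MulAction.stabilizer S (0 : Fin 1782)), X.index = 1365 →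
      (∃ A : Set (Fin 1782), A ⊆ MulAction.orbit (MulAction.stabilizer S (0 : Fin 1782)) q0 ∧
        A.ncard = 96 ∧ ∀ h ∈ X, ∀ q ∈ A, h • q ∈ A) →
      ∃ r ∈ MulAction.orbit (MulAction.stabilizer S (0 : Fin 1782)) r0,
        X = MulAction.stabilizer (MulAction.stabilizer S (0 : Fin 1782)) r)
    (h96 : ∀ A B : Set (Fin 1782),
      A ⊆ MulAction.orbit (MulAction.stabilizer S (0 : Fin 1782)) q0 →
      B ⊆ MulAction.orbit (MulAction.stabilizer S (0 : Fin 1782)) q0 →
      A.ncard = 96 → B.ncard = 96 →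
      (∀ h ∈ MulAction.stabilizer (MulAction.stabilizer S (0 : Fin 1782)) r0,
        ∀ q ∈ A, h • q ∈ A) →
      (∀ h ∈ MulAction.stabilizer (MulAction.stabilizer S (0 : Fin 1782)) r0,
        ∀ q ∈ B, h • q ∈ B) → A = B)
    (h320 : ∀ A B : Set (Fin 1782),
      A ⊆ MulAction.orbit (MulAction.stabilizer S (0 : Fin 1782)) r0 →
      B ⊆ MulAction.orbit (MulAction.stabilizer S (0 : Fin 1782)) r0 →
      A.ncard = 320 → B.ncard = 320 →
      (∀ h ∈ MulAction.stabilizer (MulAction.stabilizer S (0 : Fin 1782)) r0,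
        ∀ q ∈ A, h • q ∈ A) →
      (∀ h ∈ MulAction.stabilizer (MulAction.stabilizer S (0 : Fin 1782)) r0,
        ∀ q ∈ B, h • q ∈ B) → A = B)
    (hbound : Nat.card {h : Equiv.Perm (Fin 1782) // h 0 = 0 ∧ ∀ x y,
      Adj S 0 (MulAction.orbit (MulAction.stabilizer S (0 : Fin 1782)) q0) x y ↔
        Adj S 0 (MulAction.orbit (MulAction.stabilizer S (0 : Fin 1782)) q0) (h x) (h y)}
      < 1782 * 251596800) :
    Nonempty (G ≃* S) := by
  have A : Act G Ω a b c :=
    ⟨by rw [Nat.card_eq_fintype_card, hΩ], fun x => exists_smul_eq G a x, hb, hc⟩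
  have A' : Act S (Fin 1782) 0 q0 r0 :=
    ⟨by rw [Nat.card_eq_fintype_card, Fintype.card_fin], fun x => exists_smul_eq S 0 x, hq, hr⟩
  obtain ⟨u, v, hu, hv, hu', hv'⟩ := hsub
  obtain ⟨ψ, ψa, ψe, ψr⟩ := exists_graph_iso A A' e he hu hv hu' hv' hX h96 h320
  set Φ : Equiv.Perm Ω →* Equiv.Perm (Fin 1782) := ψ.permCongrHom.toMonoidHom with hΦ
  have hΦa : ∀ g x, Φ g (ψ x) = ψ (g x) := fun g x => by
    simp [hΦ, Equiv.permCongr_apply]
  have hΦinj : Function.Injective Φ := ψ.permCongrHom.injective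
  have heG : ∀ h : stabilizer G a, Φ h.1.1 = (e h).1.1 := fun h => Equiv.ext fun w => by
    obtain ⟨x, rfl⟩ := ψ.surjective w
    rw [hΦa]
    exact ψe h x
  have hbound' : Nat.card {h : Equiv.Perm (Fin 1782) // h 0 = 0 ∧
      ∀ x y, Rel S 0 q0 x y ↔ Rel S 0 q0 (h x) (h y)} < 1782 * 251596800 := by
    simpa only [adj_iff_rel] using hbound
  have hEq : G.map Φ = S := by
    refine eq_of_stab S (G.map Φ) A' hScard (fun w => ?_) (fun g hg => ⟨?_, fun hgS => ?_⟩)
      ?_ hbound'
    · obtain ⟨x, rfl⟩ := ψ.surjective w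
      obtain ⟨g, hg⟩ := exists_smul_eq G a x
      refine ⟨Φ g.1, ⟨g.1, g.2, rfl⟩, ?_⟩
      rw [← ψa, hΦa]
      exact congrArg ψ hg
    · rintro ⟨k, hk, rfl⟩
      have hka : k a = a := ψ.injective (by rw [← hΦa, ψa, hg])
      rw [heG ⟨⟨k, hk⟩, hka⟩]
      exact (e _).1.2
    · set h := e.symm ⟨⟨g, hgS⟩, hg⟩ with hh
      refine ⟨h.1.1, h.1.2, ?_⟩
      rw [heG h, hh, e.apply_symm_apply]
    · rintro _ ⟨g, hg, rfl⟩ x y
      obtain ⟨x, rfl⟩ := ψ.surjective x
      obtain ⟨y, rfl⟩ := ψ.surjective y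
      rw [hΦa, hΦa, ψr, ψr]
      exact rel_smul (⟨g, hg⟩ : G)
  exact ⟨(G.equivMapOfInjective Φ hΦinj).trans (MulEquiv.subgroupCongr hEq)⟩

end Cfsg.Agent.SuzRank
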