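import Cfsg.Agent.SuzRank.Perms

/-!
The two parabolic subgroups through the flag (point `1`, line `2`).
-/

set_option autoImplicit false

namespace Cfsg.Agent.SuzRank

/-- The base point of the suborbit of length 1365. -/
abbrev p1 : Fin 1782 := ⟨1, by norm_num⟩

/-- The five points of the base line (line `2` of `SporB.SuzukiHex.linesT`). -/
def line0 : Finset (Fin 1782) :=
  {⟨1, by norm_num⟩, ⟨16, by norm_num⟩, ⟨30, by norm_num⟩, ⟨68, by norm_num⟩, ⟨260, by norm_num⟩}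

/-- The stabiliser of the base point. -/
def P1 : Subgroup (Equiv.Perm (Fin 1782)) := Gam ⊓ MulAction.stabilizer (Equiv.Perm (Fin 1782)) p1

/-- The stabiliser of the base line. -/
def P2 : Subgroup (Equiv.Perm (Fin 1782)) where
  carrier := {g | g ∈ Gam ∧ ∀ x, g x ∈ line0 ↔ x ∈ line0}
  one_mem' := ⟨one_mem _, fun _ => Iff.rfl⟩
  mul_mem' {a b} ha hb := ⟨mul_mem ha.1 hb.1, fun x => by
    rw [Equiv.Perm.mul_apply]; exact (ha.2 _).trans (hb.2 x)⟩
  inv_mem' {a} ha := ⟨inv_mem ha.1, fun x => by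
    simpa using (ha.2 (a⁻¹ x)).symm⟩

/-- The stabiliser of the base flag. -/
def Bflag : Subgroup (Equiv.Perm (Fin 1782)) := P1 ⊓ P2

theorem mem_P2 {g : Equiv.Perm (Fin 1782)} :
    g ∈ P2 ↔ g ∈ Gam ∧ ∀ x, g x ∈ line0 ↔ x ∈ line0 := Iff.rfl

theorem mem_P1 {g : Equiv.Perm (Fin 1782)} : g ∈ P1 ↔ g ∈ Gam ∧ g p1 = p1 := by
  rw [P1, Subgroup.mem_inf, MulAction.mem_stabilizer_iff]
  rfl

end Cfsg.Agent.SuzRank
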