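import Cfsg.Agent.SuzRank.SigCheck

/-!
The orbital graph of valency 416: automorphisms fixing `0` are determined by a few points.
-/

set_option autoImplicit false
set_option maxRecDepth 100000

namespace Cfsg.Agent.SuzRank

open Cfsg.Agent.CosetCert

theorem isQ_Gam {g : Equiv.Perm (Fin 1782)} (hg : g ∈ Gam) (x : Fin 1782) :
    isQ (g x) = isQ x := by
  rw [Gam, ← Subgroup.mem_toSubmonoid, Subgroup.closure_toSubmonoid_of_finite] at hg
  induction hg using Submonoid.closure_induction generalizing x with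
  | one => rfl
  | mul a b _ _ ha hb => rw [Equiv.Perm.mul_apply, ha, hb]
  | mem g hg =>
    obtain ⟨j, rfl⟩ := hg
    rw [gperm_val]
    have h := allB_spec_zero (isQ_gen j) (by norm_num : 1782 ≤ 2 ^ 11) x.2
    rw [Bool.or_eq_true] at h
    exact eq_of_beq (h.resolve_left fun hc =>
      absurd (Nat.le_of_ble_eq_true hc) (not_le.2 x.2))

/-- Adjacency. -/
def QAdj (x y : Fin 1782) : Prop := ∃ g ∈ Big, g pz = x ∧ isQ (g⁻¹ y : Fin 1782) = true

theorem QAdj_smul {k : Equiv.Perm (Fin 1782)} (hk : k ∈ Big) {x y : Fin 1782} (h : QAdj x y) :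
    QAdj (k x) (k y) := by
  obtain ⟨g, hg, h1, h2⟩ := h
  refine ⟨k * g, mul_mem hk hg, by rw [Equiv.Perm.mul_apply, h1], ?_⟩
  simpa [mul_inv_rev] using h2

/-- Automorphisms of the graph fixing `0`. -/
def Aut0 : Set (Equiv.Perm (Fin 1782)) :=
  {h | h pz = pz ∧ ∀ x y, QAdj x y ↔ QAdj (h x) (h y)}

theorem Gam_sub_Aut0 {g : Equiv.Perm (Fin 1782)} (hg : g ∈ Gam) : g ∈ Aut0 := by
  refine ⟨Gam_fix hg, fun x y => ⟨fun h => QAdj_smul (Gam_le_Big hg) h, fun h => ?_⟩⟩
  have := QAdj_smul (inv_mem (Gam_le_Big hg)) h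
  simpa using this

theorem Aut0_mul {g h : Equiv.Perm (Fin 1782)} (hg : g ∈ Aut0) (hh : h ∈ Aut0) : g * h ∈ Aut0 :=
  ⟨by rw [Equiv.Perm.mul_apply, hh.1, hg.1],
    fun x y => (hh.2 x y).trans (hg.2 (h x) (h y))⟩

theorem Aut0_inv {g : Equiv.Perm (Fin 1782)} (hg : g ∈ Aut0) : g⁻¹ ∈ Aut0 := by
  refine ⟨?_, fun x y => ?_⟩
  · rw [Equiv.Perm.inv_def, Equiv.symm_apply_eq, hg.1]
  · simpa using (hg.2 (g⁻¹ x) (g⁻¹ y)).symm

/-- The automorphisms fixing `0`, as a subgroup. -/
def AutG : Subgroup (Equiv.Perm (Fin 1782)) where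
  carrier := Aut0
  one_mem' := ⟨rfl, fun _ _ => Iff.rfl⟩
  mul_mem' := Aut0_mul
  inv_mem' := Aut0_inv

/-- The permutation of a word in all seven generators. -/
noncomputable def lw7 (w : List ℕ) : Equiv.Perm (Fin 1782) :=
  (w.map fun l => if h : l < 7 then gperm ⟨l, h⟩ else 1).prod

theorem lw7_mem (w : List ℕ) : lw7 w ∈ Big := by
  refine list_prod_mem fun g hg => ?_
  obtain ⟨l, -, rfl⟩ := List.mem_map.1 hg
  by_cases h : l < 7
  · rw [dif_pos h]
    exact Subgroup.subset_closure ⟨_, rfl⟩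
  · rw [dif_neg h]
    exact one_mem _

theorem lw7_val {w : List ℕ} (hw : w.all (fun l => Nat.blt l 7) = true) (x : Fin 1782) :
    (lw7 w x : ℕ) = evalW7 w x := by
  induction w with
  | nil => rfl
  | cons l w ih =>
    rw [List.all_cons, Bool.and_eq_true] at hw
    have hl : l < 7 := Nat.le_of_ble_eq_true hw.1
    have e : lw7 (l :: w) = gperm ⟨l, hl⟩ * lw7 w := by
      simp [lw7, List.map_cons, List.prod_cons, dif_pos hl]
    rw [e, Equiv.Perm.mul_apply, gperm_val, ih hw.2]
    rfl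

/-- A base point. -/
noncomputable def bp (i : Fin 29) : Fin 1782 := ⟨bpN i, bp_lt i⟩

theorem adj_bp (i : Fin 29) (y : Fin 1782) : QAdj (bp i) y ↔ Nat.testBit (sig y) i = true := by
  have hlen : baseW.length = 29 := rfl
  have hw : (baseW.getD i []).all (fun l => Nat.blt l 7) = true := by
    rw [List.getD_eq_getElem _ _ (hlen.symm ▸ i.2)]
    exact List.all_eq_true.1 base_words.1 _ (List.getElem_mem _)
  set k := lw7 (baseW.getD i []) with hk
  have h0 : k (bp i) = pz := by
    refine Fin.ext ?_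
    rw [lw7_val hw]
    exact Nat.eq_of_beq_eq_true (List.all_eq_true.1 base_words.2 i (List.mem_range.2 i.2))
  have hbit : isQ (k y) = Nat.testBit (sig y) i := by
    have h := allB_spec_zero (sig_table i.2)
      (by norm_num : 1782 ≤ 2 ^ 11) y.2
    rw [Bool.or_eq_true] at h
    rw [lw7_val hw]
    exact eq_of_beq (h.resolve_left fun hc => absurd (Nat.le_of_ble_eq_true hc) (not_le.2 y.2))
  rw [← hbit]
  constructor
  · rintro ⟨g, hg, hg0, hgq⟩
    have hkg : k * g ∈ Gam := mem_Gam_of_fix (mul_mem (lw7_mem _) hg)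
      (by rw [Equiv.Perm.mul_apply, hg0, h0])
    have h2 := isQ_Gam hkg (g⁻¹ y)
    rw [hgq] at h2
    simpa using h2
  · intro h
    exact ⟨k⁻¹, inv_mem (lw7_mem _), by rw [Equiv.Perm.inv_def, Equiv.symm_apply_eq, h0],
      by simpa using h⟩

theorem cand_ok {h : Equiv.Perm (Fin 1782)} (hh : h ∈ Aut0) (i : Fin 29)
    (hfix : ∀ j : Fin 29, j < i → h (bp j) = bp j) : candB i (h (bp i)) = true := by
  by_cases hi0 : (i : ℕ) = 0
  · have e0 : bp i = pz := Fin.ext (by
      show bpN i = 0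
      rw [hi0]; rfl)
    rw [candB, e0, hh.1, hi0]
    rfl
  have hb0 : Nat.beq (i : ℕ) 0 = false := Bool.eq_false_iff.2 fun hc => hi0 (Nat.eq_of_beq_eq_true hc)
  rw [candB, hb0, Bool.false_and, Bool.false_or, Bool.not_false, Bool.true_and, Bool.and_eq_true,
    Bool.not_eq_true']
  constructor
  · rw [Bool.eq_false_iff]
    intro hc
    rw [List.contains_iff_mem, List.mem_take_iff_getElem] at hc
    obtain ⟨j, hj, hje⟩ := hc
    have hlen : basePts.length = 29 := rfl
    have hj' : j < 29 := by omega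
    have hji : (⟨j, hj'⟩ : Fin 29) < i := by
      show j < (i : ℕ)
      omega
    have e : bp ⟨j, hj'⟩ = h (bp i) := Fin.ext (by
      show bpN j = _
      rw [bpN, List.getD_eq_getElem _ _ (by omega)]
      exact hje)
    have e2 : h (bp ⟨j, hj'⟩) = h (bp i) := by rw [hfix _ hji, e]
    have e3 := congrArg Fin.val (h.injective e2)
    exact absurd (bpN_inj _ _ e3) (ne_of_lt hji)
  · rw [Nat.beq_eq]
    refine Nat.eq_of_testBit_eq fun j => ?_
    simp only [Nat.testBit_mod_two_pow]
    by_cases hj : j < (i : ℕ)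
    · simp only [hj, decide_true, Bool.true_and]
      have hj' : j < 29 := by omega
      have h1 := adj_bp ⟨j, hj'⟩ (h (bp i))
      have h2 := adj_bp ⟨j, hj'⟩ (bp i)
      have h3 := hh.2 (bp ⟨j, hj'⟩) (bp i)
      rw [hfix ⟨j, hj'⟩ hj] at h3
      exact Bool.eq_iff_iff.2 (h1.symm.trans (h3.symm.trans h2))
    · simp [hj]

theorem Aut0_eq_one {h : Equiv.Perm (Fin 1782)} (hh : h ∈ Aut0)
    (hD : ∀ x : Fin 1782, (x : ℕ) ∈ dPts → h x = x) : h = 1 := by
  have hfix : ∀ i : Fin 29, h (bp i) = bp i := by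
    intro i
    induction i using WellFoundedLT.induction with
    | _ i ih =>
      have h1 := List.all_eq_true.1 free_points i (List.mem_range.2 i.2)
      rw [Bool.or_eq_true, Bool.or_eq_true] at h1
      rcases h1 with (h1 | h1) | h1
      · have e0 : bp i = pz := by
          have : (i : ℕ) = 0 := Nat.eq_of_beq_eq_true h1
          refine Fin.ext ?_
          show bpN i = 0
          rw [this]
          rfl
        rw [e0]
        exact hh.1
      · exact hD _ (List.contains_iff_mem.1 h1)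
      · have h2 := allB_spec_zero h1 (by norm_num : 1782 ≤ 2 ^ 11) (h (bp i)).2
        rw [Bool.or_eq_true, Bool.or_eq_true] at h2
        rcases h2 with (h2 | h2) | h2
        · exact absurd (Nat.le_of_ble_eq_true h2) (not_le.2 (h (bp i)).2)
        · rw [cand_ok hh i ih] at h2
          simp at h2
        · exact Fin.ext (Nat.eq_of_beq_eq_true h2)
  refine Equiv.ext fun x => ?_
  rw [Equiv.Perm.one_apply]
  set key : ℕ → ℕ := fun y => sig y + 2 ^ 29 * (basePts.idxOf y + 1) % (2 ^ 29 * 30) with hkey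
  have hk : key (h x) = key x := by
    have hs : sig (h x) % 2 ^ 29 = sig x % 2 ^ 29 := by
      refine Nat.eq_of_testBit_eq fun j => ?_
      simp only [Nat.testBit_mod_two_pow]
      by_cases hj : j < 29
      · simp only [hj, decide_true, Bool.true_and]
        have h3 := hh.2 (bp ⟨j, hj⟩) x
        rw [hfix ⟨j, hj⟩] at h3
        exact Bool.eq_iff_iff.2 ((adj_bp ⟨j, hj⟩ (h x)).symm.trans (h3.symm.trans (adj_bp ⟨j, hj⟩ x)))
      · simp [hj]
    rw [Nat.mod_eq_of_lt (sig_lt _), Nat.mod_eq_of_lt (sig_lt _)] at hs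
    by_cases hx : ∃ i : Fin 29, bp i = x
    · obtain ⟨i, rfl⟩ := hx
      rw [hfix i]
    · have hn : ∀ y : Fin 1782, (∀ i : Fin 29, bp i ≠ y) → (y : ℕ) ∉ basePts := by
        intro y hy hc
        rw [List.mem_iff_getElem] at hc
        obtain ⟨j, hj, hje⟩ := hc
        have hlen : basePts.length = 29 := rfl
        exact hy ⟨j, by omega⟩ (Fin.ext (by
          show bpN j = _
          rw [bpN, List.getD_eq_getElem _ _ hj, hje]))
      have hx' : ∀ i : Fin 29, bp i ≠ x := fun i e => hx ⟨i, e⟩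
      have hhx : ∀ i : Fin 29, bp i ≠ h x := fun i e => hx ⟨i, h.injective ((hfix i).trans e)⟩
      simp only [hkey, List.idxOf_eq_length (hn x hx'), List.idxOf_eq_length (hn (h x) hhx), hs]
  have hmono : ∀ a b : ℕ, a < b → b < 1782 → key (sOrdT.get 16 a) < key (sOrdT.get 16 b) := by
    intro a b hab hb
    induction hab with
    | refl =>
      have h4 := allB_spec_zero base_injective.1 (by norm_num : 1781 ≤ 2 ^ 11) (show a < 1781 by omega)
      rw [Bool.or_eq_true] at h4
      exact Nat.le_of_ble_eq_true (h4.resolve_left fun hc =>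
        absurd (Nat.le_of_ble_eq_true hc) (by omega))
    | @step m hm ih =>
      have hm' : a < m := hm
      have h4 := allB_spec_zero base_injective.1 (by norm_num : 1781 ≤ 2 ^ 11) (show m < 1781 by omega)
      rw [Bool.or_eq_true] at h4
      exact (ih (by omega)).trans (Nat.le_of_ble_eq_true (h4.resolve_left fun hc =>
        absurd (Nat.le_of_ble_eq_true hc) (by omega)))
  have hrk : ∀ y : Fin 1782, sRkT.get 16 y < 1782 ∧ sOrdT.get 16 (sRkT.get 16 y) = y := by
    intro y
    have h4 := allB_spec_zero base_injective.2 (by norm_num : 1782 ≤ 2 ^ 11) y.2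
    rw [Bool.or_eq_true, Bool.and_eq_true] at h4
    have h5 := h4.resolve_left fun hc => absurd (Nat.le_of_ble_eq_true hc) (not_le.2 y.2)
    exact ⟨Nat.le_of_ble_eq_true h5.1, Nat.eq_of_beq_eq_true h5.2⟩
  obtain ⟨ha, ha'⟩ := hrk (h x)
  obtain ⟨hb, hb'⟩ := hrk x
  refine Fin.ext ?_
  rw [← ha', ← hb']
  rcases lt_trichotomy (sRkT.get 16 (h x)) (sRkT.get 16 x) with hl | hl | hl
  · have := hmono _ _ hl hb
    rw [ha', hb', hk] at this
    exact absurd this (lt_irrefl _)
  · rw [hl]
  · have := hmono _ _ hl ha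
    rw [ha', hb', hk] at this
    exact absurd this (lt_irrefl _)

/-- Two automorphisms fixing `0` agreeing at the determining points are equal. -/
theorem det_eq {g h : Equiv.Perm (Fin 1782)} (hg : g ∈ Aut0) (hh : h ∈ Aut0)
    (hD : ∀ x : Fin 1782, (x : ℕ) ∈ dPts → g x = h x) : g = h := by
  refine inv_mul_eq_one.1 (Aut0_eq_one (Aut0_mul (Aut0_inv hg) hh) fun x hx => ?_)
  rw [Equiv.Perm.mul_apply, ← hD x hx, Equiv.Perm.inv_def, Equiv.symm_apply_apply]

/-- The automorphisms fixing `0` and the first `i` base points. -/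
def AutFix (i : ℕ) : Subgroup (Equiv.Perm (Fin 1782)) where
  carrier := {h | h ∈ Aut0 ∧ ∀ j : Fin 29, (j : ℕ) < i → h (bp j) = bp j}
  one_mem' := ⟨AutG.one_mem, fun _ _ => rfl⟩
  mul_mem' {a b} ha hb := ⟨Aut0_mul ha.1 hb.1, fun j hj => by
    rw [Equiv.Perm.mul_apply, hb.2 j hj, ha.2 j hj]⟩
  inv_mem' {a} ha := ⟨Aut0_inv ha.1, fun j hj => by
    rw [Equiv.Perm.inv_def, Equiv.symm_apply_eq, ha.2 j hj]⟩

theorem card_AutFix_step (i : Fin 29) :
    Nat.card ↥(AutFix i) ≤ baseCnt.getD i 0 * Nat.card ↥(AutFix ((i : ℕ) + 1)) := by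
  classical
  have hkey : ((AutFix ((i : ℕ) + 1)).subgroupOf (AutFix i)) =
      MulAction.stabilizer ↥(AutFix i) (bp i) := by
    ext h
    rw [Subgroup.mem_subgroupOf, MulAction.mem_stabilizer_iff]
    constructor
    · exact fun hm => hm.2 i (Nat.lt_succ_self _)
    · refine fun hm => ⟨h.2.1, fun j hj => ?_⟩
      rcases Nat.lt_succ_iff_lt_or_eq.1 hj with hj' | hj'
      · exact h.2.2 j hj'
      · rw [Fin.ext hj']; exact hm
  have hle : AutFix ((i : ℕ) + 1) ≤ AutFix i := fun h hm => ⟨hm.1, fun j hj => hm.2 j (by omega)⟩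
  rw [← Subgroup.index_mul_card ((AutFix ((i : ℕ) + 1)).subgroupOf (AutFix i)),
    Nat.card_congr (Subgroup.subgroupOfEquivOfLe hle).toEquiv, hkey, MulAction.index_stabilizer]
  refine Nat.mul_le_mul_right _ ?_
  have hsub : MulAction.orbit ↥(AutFix i) (bp i) ⊆
      ↑(Finset.univ.filter fun x : Fin 1782 => candB i x = true) := by
    rintro _ ⟨h, rfl⟩
    simp only [Finset.coe_filter, Finset.mem_univ, true_and, Set.mem_setOf_eq]
    exact cand_ok h.2.1 i fun j hj => h.2.2 j hj
  refine (Set.ncard_le_ncard hsub).trans ?_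
  rw [Set.ncard_coe_finset]
  have h1 := List.all_eq_true.1 cand_count i (List.mem_range.2 i.2)
  refine le_trans (le_of_eq ?_) (Nat.le_of_ble_eq_true h1)
  rw [List.countP_eq_length_filter, ← List.toFinset_card_of_nodup
    ((List.nodup_range (n := 1782)).filter _)]
  refine Finset.card_bij (fun x _ => (x : ℕ)) ?_ (fun a _ b _ hab => Fin.ext hab) ?_
  · intro x hx
    exact List.mem_toFinset.2
      (List.mem_filter.2 ⟨List.mem_range.2 x.2, (Finset.mem_filter.1 hx).2⟩)
  · intro y hy
    simp only [List.mem_toFinset, List.mem_filter, List.mem_range] at hy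
    refine ⟨⟨y, hy.1⟩, ?_, rfl⟩
    simp only [Finset.mem_filter, Finset.mem_univ, true_and]
    exact hy.2

/-- The bound on automorphisms fixing `0`. -/
theorem card_Aut0_lt : Nat.card Aut0 < 1782 * 251596800 := by
  have h29 : AutFix 29 = ⊥ := by
    refine (Subgroup.eq_bot_iff_forall _).2 fun h hm => Aut0_eq_one hm.1 fun x hx => ?_
    obtain ⟨i, hi⟩ := dPts_base _ hx
    rw [show x = bp i from Fin.ext hi.symm]
    exact hm.2 i i.2
  have key : ∀ n, n ≤ 29 → Nat.card ↥(AutFix (29 - n)) ≤ (baseCnt.drop (29 - n)).prod := by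
    intro n hn
    induction n with
    | zero => simp [h29, show baseCnt.drop 29 = [] from rfl]
    | succ n ih =>
      have hi : 29 - (n + 1) < 29 := by omega
      have e : 29 - (n + 1) + 1 = 29 - n := by omega
      refine (card_AutFix_step ⟨_, hi⟩).trans ?_
      have hlen : baseCnt.length = 29 := rfl
      rw [List.drop_eq_getElem_cons (hlen.symm ▸ hi), List.prod_cons, e,
        List.getD_eq_getElem _ _ (hlen.symm ▸ hi)]
      exact Nat.mul_le_mul_left _ (ih (by omega))
  have h0 := key 29 le_rfl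
  simp only [Nat.sub_self, List.drop_zero] at h0
  have e0 : Nat.card Aut0 = Nat.card ↥(AutFix 0) := Nat.card_congr
    { toFun := fun h => ⟨h.1, h.2, fun j hj => absurd hj (Nat.not_lt_zero _)⟩
      invFun := fun h => ⟨h.1, h.2.1⟩
      left_inv := fun _ => rfl
      right_inv := fun _ => rfl }
  rw [e0]
  exact h0.trans_lt (by decide +kernel)

end Cfsg.Agent.SuzRank
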