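import Cfsg.Agent.SuzRank.UCheck
import Cfsg.Agent.SuzRank.Sig

/-!
A Sylow 2-subgroup of order 4096 with multiplication on indices, and a torus of order 9 normalising
it.
-/

set_option autoImplicit false
set_option maxRecDepth 100000

namespace Cfsg.Agent.SuzRank

open Cfsg.Agent.CosetCert

/-- The element with digits `i` among the first `n` generators. -/
noncomputable def uelN : ℕ → ℕ → Equiv.Perm (Fin 1782)
  | 0, _ => 1
  | n + 1, i => (bif i.testBit n then nel n else 1) * uelN n i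

/-- The element of index `i`. -/
noncomputable def uel (i : ℕ) : Equiv.Perm (Fin 1782) := uelN 12 i

theorem uelN_val : ∀ {n : ℕ}, n ≤ 12 → ∀ (i : ℕ) (x : Fin 1782),
    (uelN n i x : ℕ) = uimgN n i x
  | 0, _, _, _ => rfl
  | n + 1, hn, i, x => by
    have ih := uelN_val (show n ≤ 12 by omega) i x
    rw [uelN, Equiv.Perm.mul_apply]
    show _ = cond (i.testBit n) (nimg n (uimgN n i x)) (uimgN n i x)
    cases i.testBit n
    · simpa using ih
    · simp only [cond_true]
      rw [nel_val (show n < 29 by omega), ih]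

theorem uel_val (i : ℕ) (x : Fin 1782) : (uel i x : ℕ) = uimg i x := uelN_val le_rfl i x

theorem uel_mem (i : ℕ) : uel i ∈ Gam := by
  have : ∀ n, uelN n i ∈ Gam := fun n => by
    induction n with
    | zero => exact one_mem _
    | succ n ih =>
      rw [uelN]
      refine mul_mem ?_ ih
      cases i.testBit n
      exacts [one_mem _, nel_mem _]
  exact this 12

theorem uel_zero : uel 0 = 1 := by
  have : ∀ n, uelN n 0 = 1 := fun n => by
    induction n with
    | zero => rfl
    | succ n ih => rw [uelN, ih, Nat.zero_testBit]; simp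
  exact this 12

/-- Two elements of the group agreeing on the determining points are equal. -/
theorem gam_eq {g h : Equiv.Perm (Fin 1782)} (hg : g ∈ Gam) (hh : h ∈ Gam)
    (hD : ∀ x : Fin 1782, (x : ℕ) ∈ dPts → (g x : ℕ) = h x) : g = h :=
  det_eq (Gam_sub_Aut0 hg) (Gam_sub_Aut0 hh) fun x hx => Fin.ext (hD x hx)

theorem uelN_of_lt {n i : ℕ} (hn : n ≤ 12) (hi : i < 2 ^ n) : uelN n i = uel i := by
  have key : ∀ k, uelN (n + k) i = uelN n i := fun k => by
    induction k with
    | zero => rfl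
    | succ k ih =>
      rw [← add_assoc, uelN, Nat.testBit_lt_two_pow
        (lt_of_lt_of_le hi (Nat.pow_le_pow_right (by norm_num) (Nat.le_add_right n k)))]
      simpa using ih
  obtain ⟨k, hk⟩ := Nat.exists_eq_add_of_le hn
  rw [uel, hk, key]

theorem uelN_add_pow {m : ℕ} (i : ℕ) : ∀ {n}, n ≤ m → uelN n (2 ^ m + i) = uelN n i
  | 0, _ => rfl
  | n + 1, h => by
    rw [uelN, uelN, Nat.testBit_two_pow_add_gt (show n < m by omega), uelN_add_pow i (by omega)]

theorem uel_top {m i : ℕ} (hm : m < 12) (hi : i < 2 ^ m) : uel (2 ^ m + i) = nel m * uel i := by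
  rw [← uelN_of_lt (n := m + 1) (by omega) (by rw [pow_succ]; omega), uelN,
    Nat.testBit_two_pow_add_eq, Nat.testBit_lt_two_pow hi, uelN_add_pow i le_rfl,
    uelN_of_lt (by omega) hi]
  rfl

theorem uel_pow {m : ℕ} (hm : m < 12) : uel (2 ^ m) = nel m := by
  have := uel_top hm (i := 0) (Nat.two_pow_pos m)
  rwa [uel_zero, mul_one, add_zero] at this

theorem dPts_eval {g h : Equiv.Perm (Fin 1782)} (hg : g ∈ Gam) (hh : h ∈ Gam) (f f' : ℕ → ℕ)
    (hf : ∀ x : Fin 1782, (g x : ℕ) = f x) (hf' : ∀ x : Fin 1782, (h x : ℕ) = f' x)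
    (hc : (dPts.all fun d => Nat.beq (f d) (f' d)) = true) : g = h :=
  gam_eq hg hh fun x hx => by
    rw [hf, hf']
    exact Nat.eq_of_beq_eq_true (List.all_eq_true.1 hc _ hx)

/-- Closure of the indices below `2 ^ m`. -/
def Closed (m : ℕ) : Prop :=
  ∀ i < 2 ^ m, ∀ j < m, rtN j i < 2 ^ m ∧ uel (rtN j i) = uel i * nel j

theorem mulN_closed {m : ℕ} (_hm : m ≤ 12) (h : Closed m) :
    ∀ {n}, n ≤ m → ∀ {a} (b : ℕ), a < 2 ^ m →
      mulN n a b < 2 ^ m ∧ uel (mulN n a b) = uel a * uelN n b := by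
  intro n hn
  induction n with
  | zero => exact fun b ha => ⟨ha, by simp [uelN, mulN]⟩
  | succ n ih =>
    intro a b ha
    show mulN n (cond (b.testBit n) (rtN n a) a) b < 2 ^ m ∧
      uel (mulN n (cond (b.testBit n) (rtN n a) a) b) = _
    rw [uelN]
    cases b.testBit n
    · simpa using ih (by omega) b ha
    · simp only [cond_true]
      obtain ⟨h1, h2⟩ := h a ha n (by omega)
      obtain ⟨h3, h4⟩ := ih (by omega) b h1
      exact ⟨h3, by rw [h4, h2, mul_assoc]⟩

theorem closed : ∀ {m}, m ≤ 12 → Closed m := by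
  intro m hm
  induction m with
  | zero => exact fun _ _ j hj => absurd hj (Nat.not_lt_zero j)
  | succ m ih =>
    have hm' : m < 12 := by omega
    have hC : Closed m := ih (by omega)
    have h2m : 2 ^ (m + 1) = 2 ^ m + 2 ^ m := by rw [pow_succ]; omega
    have hb := List.all_eq_true.1 rt_base m (List.mem_range.2 hm')
    rw [Bool.and_eq_true, Bool.and_eq_true] at hb
    obtain ⟨⟨hs1, hs2⟩, hp⟩ := hb
    have hs : rtN m (2 ^ m) < 2 ^ m := Nat.le_of_ble_eq_true hs1
    have hsq : uel (rtN m (2 ^ m)) = nel m * nel m := by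
      refine dPts_eval (uel_mem _) (mul_mem (nel_mem _) (nel_mem _)) _ (fun x => nimg m (nimg m x))
        (uel_val _) (fun x => ?_) hs2
      rw [Equiv.Perm.mul_apply, nel_val (show m < 29 by omega), nel_val (show m < 29 by omega)]
    have hlt : ∀ i < 2 ^ m, 2 ^ m ≤ rtN m i ∧ rtN m i < 2 ^ m + 2 ^ m := fun i hi => by
      have h := allB_spec_zero (rt_top ⟨m, hm'⟩) le_rfl hi
      rw [Bool.and_eq_true, Bool.and_eq_true] at h
      exact ⟨Nat.le_of_ble_eq_true h.1.1, Nat.le_of_ble_eq_true h.1.2⟩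
    -- right multiplication by the new generator below `2 ^ m`
    have hlow : ∀ p, p ≤ m → ∀ i < 2 ^ p, uel (rtN m i) = uel i * nel m := by
      intro p hpm
      induction p with
      | zero =>
        intro i hi
        obtain rfl : i = 0 := by rw [pow_zero] at hi; omega
        rw [Nat.eq_of_beq_eq_true (List.all_eq_true.1 rt_zero m (List.mem_range.2 hm')),
          uel_pow hm', uel_zero, one_mul]
      | succ p ihp =>
        intro i hi
        by_cases hip : i < 2 ^ p
        · exact ihp (by omega) i hip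
        obtain ⟨i', rfl⟩ := Nat.exists_eq_add_of_le (le_of_not_gt hip)
        have hi' : i' < 2 ^ p := by rw [pow_succ] at hi; omega
        have hpm' : 2 ^ p < 2 ^ m := Nat.pow_lt_pow_right (by norm_num) (by omega)
        obtain ⟨hc1, hc2⟩ := hlt (2 ^ p) hpm'
        obtain ⟨hq1, hq2⟩ := hlt i' (by omega)
        obtain ⟨c, hc⟩ := Nat.exists_eq_add_of_le hc1
        obtain ⟨q, hq⟩ := Nat.exists_eq_add_of_le hq1
        have hcc : c < 2 ^ m := by omega
        have hqq : q < 2 ^ m := by omega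
        have h1 := List.all_eq_true.1 (rt_conj ⟨m, hm'⟩) p
          (List.mem_range.2 (show p < m by omega))
        have h1 := Nat.eq_of_beq_eq_true (allB_spec_zero h1 le_rfl hi')
        simp only [hc, hq, Nat.add_sub_cancel_left] at h1
        have hbase : nel p * nel m = nel m * uel c := by
          have h3 := List.all_eq_true.1 hp p (List.mem_range.2 (show p < m by omega))
          simp only [hc, Nat.add_sub_cancel_left] at h3
          refine dPts_eval (mul_mem (nel_mem _) (nel_mem _)) (mul_mem (nel_mem _) (uel_mem _))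
            (fun x => nimg p (nimg m x)) (fun x => nimg m (uimg c x)) (fun x => ?_) (fun x => ?_) h3
          · rw [Equiv.Perm.mul_apply, nel_val (show p < 29 by omega),
              nel_val (show m < 29 by omega)]
          · rw [Equiv.Perm.mul_apply, nel_val (show m < 29 by omega), uel_val]
        obtain ⟨hk1, hk2⟩ := mulN_closed (by omega) hC le_rfl q hcc
        have hrec := ihp (by omega) i' hi'
        rw [hq, uel_top hm' hqq] at hrec
        rw [h1, uel_top hm' hk1, hk2, uelN_of_lt (by omega) hqq, uel_top (by omega) hi',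
          mul_assoc (nel p), ← hrec, ← mul_assoc, ← mul_assoc, hbase]
    intro i hi j hj
    by_cases him : i < 2 ^ m
    · rcases Nat.lt_succ_iff_lt_or_eq.1 hj with hjm | rfl
      · obtain ⟨h1, h2⟩ := hC i him j hjm
        exact ⟨by omega, h2⟩
      · exact ⟨by have := hlt i him; omega, hlow j le_rfl i him⟩
    obtain ⟨i', rfl⟩ := Nat.exists_eq_add_of_le (le_of_not_gt him)
    have hi' : i' < 2 ^ m := by omega
    rcases Nat.lt_succ_iff_lt_or_eq.1 hj with hjm | rfl
    · obtain ⟨h1, h2⟩ := hC i' hi' j hjm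
      have h3 := List.all_eq_true.1 (allB_spec_zero (rt_low ⟨m, hm'⟩) le_rfl hi') j
        (List.mem_range.2 hjm)
      have e : rtN j (2 ^ m + i') = 2 ^ m + rtN j i' := Nat.eq_of_beq_eq_true h3
      rw [e, uel_top hm' h1, h2, uel_top hm' hi', mul_assoc]
      exact ⟨by omega, rfl⟩
    · obtain ⟨hq1, hq2⟩ := hlt i' hi'
      obtain ⟨q, hq⟩ := Nat.exists_eq_add_of_le hq1
      have hqq : q < 2 ^ j := by omega
      have h3 := allB_spec_zero (rt_top ⟨j, hm'⟩) le_rfl hi'
      rw [Bool.and_eq_true] at h3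
      have h3 := Nat.eq_of_beq_eq_true h3.2
      simp only [hq, Nat.add_sub_cancel_left] at h3
      obtain ⟨hk1, hk2⟩ := mulN_closed (by omega) hC le_rfl q hs
      have hrec := hlow j le_rfl i' hi'
      rw [hq, uel_top hm' hqq] at hrec
      rw [h3, hk2, uelN_of_lt (by omega) hqq, uel_top hm' hi', hsq, mul_assoc, hrec, ← mul_assoc]
      exact ⟨by omega, rfl⟩

theorem rt_spec {i j : ℕ} (hi : i < 4096) (hj : j < 12) :
    rtN j i < 4096 ∧ uel (rtN j i) = uel i * nel j :=
  closed le_rfl i hi j hj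

theorem mulU_spec {a b : ℕ} (ha : a < 4096) : mulU a b < 4096 ∧ uel (mulU a b) = uel a * uel b := by
  have key : ∀ n, n ≤ 12 → ∀ a, a < 4096 →
      mulN n a b < 4096 ∧ uel (mulN n a b) = uel a * uelN n b := by
    intro n hn
    induction n with
    | zero => exact fun a ha => ⟨ha, by simp [uelN, mulN]⟩
    | succ n ih =>
      intro a ha
      show mulN n (cond (b.testBit n) (rtN n a) a) b < 4096 ∧
        uel (mulN n (cond (b.testBit n) (rtN n a) a) b) = _
      rw [uelN]
      cases b.testBit n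
      · simpa using ih (by omega) a ha
      · simp only [cond_true]
        obtain ⟨h1, h2⟩ := rt_spec ha (show n < 12 by omega)
        obtain ⟨h3, h4⟩ := ih (by omega) _ h1
        exact ⟨h3, by rw [h4, h2, mul_assoc]⟩
  exact key 12 le_rfl a ha

theorem invU_spec {a : ℕ} (ha : a < 4096) : invU a < 4096 ∧ uel (invU a) = (uel a)⁻¹ := by
  have h := allB_spec_zero inv_check (by norm_num : 4096 ≤ 2 ^ 12) ha
  rw [Bool.and_eq_true] at h
  have hlt : invU a < 4096 := Nat.le_of_ble_eq_true h.1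
  refine ⟨hlt, ?_⟩
  have h1 := (mulU_spec (b := a) hlt).2
  rw [Nat.eq_of_beq_eq_true h.2, uel_zero] at h1
  exact eq_inv_of_mul_eq_one_left h1.symm

theorem kimg_spec : ∀ {n}, n ≤ 12 → ∀ i < 2 ^ n, ∀ (k : Fin 6) (x : Fin 1782),
    (x : ℕ) = dPts.getD k 0 → (uel i x : ℕ) = kimg k i
  | 0, _, i, hi, k, x, hx => by
    obtain rfl : i = 0 := by rw [pow_zero] at hi; omega
    rw [uel_zero, Nat.eq_of_beq_eq_true
      (List.all_eq_true.1 kimg_zero k (List.mem_range.2 k.2)), ← hx]
    rfl
  | n + 1, hn, i, hi, k, x, hx => by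
    by_cases hin : i < 2 ^ n
    · exact kimg_spec (by omega) i hin k x hx
    obtain ⟨i', rfl⟩ := Nat.exists_eq_add_of_le (le_of_not_gt hin)
    have hi' : i' < 2 ^ n := by rw [pow_succ] at hi; omega
    rw [uel_top (by omega) hi', Equiv.Perm.mul_apply, nel_val (show n < 29 by omega),
      kimg_spec (by omega) i' hi' k x hx]
    exact (Nat.eq_of_beq_eq_true (List.all_eq_true.1
      (allB_spec_zero (kimg_step ⟨n, by omega⟩) le_rfl hi') k (List.mem_range.2 k.2))).symm

theorem uel_inj {a b : ℕ} (ha : a < 4096) (hb : b < 4096) (h : uel a = uel b) : a = b := by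
  have hk : ukey a = ukey b := by
    have hd : ∀ k ∈ List.range 6, kimg k a = kimg k b := fun k hk => by
      have hk' : k < 6 := List.mem_range.1 hk
      have hlt : dPts.getD k 0 < 1782 :=
        (by decide : ∀ k : Fin 6, dPts.getD k 0 < 1782) ⟨k, hk'⟩
      rw [← kimg_spec le_rfl a ha ⟨k, hk'⟩ ⟨_, hlt⟩ rfl, ← kimg_spec le_rfl b hb ⟨k, hk'⟩ ⟨_, hlt⟩ rfl, h]
    unfold ukey
    have : ∀ (l : List ℕ), (∀ k ∈ l, kimg k a = kimg k b) → ∀ v,
        l.foldl (fun v k => v * 2048 + kimg k a) v = l.foldl (fun v k => v * 2048 + kimg k b) v := by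
      intro l
      induction l with
      | nil => intro _ v; rfl
      | cons d l ih =>
        intro hl v
        rw [List.foldl_cons, List.foldl_cons, hl d (List.mem_cons_self ..),
          ih fun e he => hl e (List.mem_cons_of_mem _ he)]
    exact this _ hd 0
  have hrk : ∀ i < 4096, uRkT.get 16 i < 4096 ∧ uOrdT.get 16 (uRkT.get 16 i) = i := fun i hi => by
    have h1 := allB_spec_zero ukey_sorted.2 (by norm_num : 4096 ≤ 2 ^ 12) hi
    rw [Bool.and_eq_true] at h1
    exact ⟨Nat.le_of_ble_eq_true h1.1, Nat.eq_of_beq_eq_true h1.2⟩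
  have hmono : ∀ r s : ℕ, r < s → s < 4096 → ukey (uOrdT.get 16 r) < ukey (uOrdT.get 16 s) := by
    intro r s hrs hs
    induction hrs with
    | refl =>
      have h4 := allB_spec_zero ukey_sorted.1 (by norm_num : 4095 ≤ 2 ^ 12) (show r < 4095 by omega)
      rw [Bool.or_eq_true] at h4
      exact Nat.le_of_ble_eq_true (h4.resolve_left fun hc =>
        absurd (Nat.le_of_ble_eq_true hc) (by omega))
    | @step m hm ih =>
      have hm' : r < m := hm
      have h4 := allB_spec_zero ukey_sorted.1 (by norm_num : 4095 ≤ 2 ^ 12) (show m < 4095 by omega)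
      rw [Bool.or_eq_true] at h4
      exact (ih (by omega)).trans (Nat.le_of_ble_eq_true (h4.resolve_left fun hc =>
        absurd (Nat.le_of_ble_eq_true hc) (by omega)))
  obtain ⟨ha1, ha2⟩ := hrk a ha
  obtain ⟨hb1, hb2⟩ := hrk b hb
  rw [← ha2, ← hb2]
  rcases lt_trichotomy (uRkT.get 16 a) (uRkT.get 16 b) with hl | hl | hl
  · have := hmono _ _ hl hb1
    rw [ha2, hb2, hk] at this
    exact absurd this (lt_irrefl _)
  · rw [hl]
  · have := hmono _ _ hl ha1
    rw [ha2, hb2, hk] at this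
    exact absurd this (lt_irrefl _)

theorem uel_eq_one {i : ℕ} (hi : i < 4096) (h : uel i = 1) : i = 0 :=
  uel_inj hi (by norm_num) (h.trans uel_zero.symm)

/-- The Sylow 2-subgroup. -/
def U : Subgroup (Equiv.Perm (Fin 1782)) where
  carrier := {g | ∃ i < 4096, uel i = g}
  one_mem' := ⟨0, by norm_num, uel_zero⟩
  mul_mem' := by
    rintro _ _ ⟨a, ha, rfl⟩ ⟨b, -, rfl⟩
    exact ⟨_, (mulU_spec ha).1, (mulU_spec ha).2⟩
  inv_mem' := by
    rintro _ ⟨a, ha, rfl⟩
    exact ⟨_, (invU_spec ha).1, (invU_spec ha).2⟩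

theorem mem_U {g : Equiv.Perm (Fin 1782)} : g ∈ U ↔ ∃ i < 4096, uel i = g := Iff.rfl

theorem U_le : U ≤ Gam := by
  rintro _ ⟨i, -, rfl⟩
  exact uel_mem i

theorem card_U : Nat.card ↥U = 4096 := by
  rw [← Nat.card_fin 4096]
  refine (Nat.card_congr (Equiv.ofBijective
    (fun i : Fin 4096 => (⟨uel i, i, i.2, rfl⟩ : ↥U)) ⟨fun a b h => ?_, ?_⟩)).symm
  · exact Fin.ext (uel_inj a.2 b.2 (congrArg Subtype.val h))
  · rintro ⟨_, i, hi, rfl⟩
    exact ⟨⟨i, hi⟩, rfl⟩

/-- An element of the torus; `k < 9`. -/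
noncomputable def tel (k : ℕ) : Equiv.Perm (Fin 1782) := nel 12 ^ (k / 3) * nel 13 ^ (k % 3)

theorem cj_spec (s : Fin 2) {i : ℕ} (hi : i < 4096) :
    cjN s i < 4096 ∧ uel (cjN s i) = nel (12 + s) * uel i * (nel (12 + s))⁻¹ := by
  have key : ∀ n, n ≤ 12 → ∀ i < 2 ^ n,
      cjN s i < 4096 ∧ uel (cjN s i) = nel (12 + s) * uel i * (nel (12 + s))⁻¹ := by
    intro n hn
    induction n with
    | zero =>
      intro i hi
      obtain rfl : i = 0 := by rw [pow_zero] at hi; omega
      rw [Nat.eq_of_beq_eq_true (cj_zero s), uel_zero]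
      exact ⟨by norm_num, by simp⟩
    | succ n ih =>
      intro i hi
      by_cases hin : i < 2 ^ n
      · exact ih (by omega) i hin
      obtain ⟨i', rfl⟩ := Nat.exists_eq_add_of_le (le_of_not_gt hin)
      have hi' : i' < 2 ^ n := by rw [pow_succ] at hi; omega
      obtain ⟨hr1, hr2⟩ := ih (by omega) i' hi'
      have hb := List.all_eq_true.1 (cj_base s) n (List.mem_range.2 (show n < 12 by omega))
      rw [Bool.and_eq_true] at hb
      have hc : cjN s (2 ^ n) < 4096 := Nat.le_of_ble_eq_true hb.1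
      have hce : uel (cjN s (2 ^ n)) * nel (12 + s) = nel (12 + s) * nel n := by
        refine dPts_eval (mul_mem (uel_mem _) (nel_mem _)) (mul_mem (nel_mem _) (nel_mem _))
          (fun x => uimg (cjN s (2 ^ n)) (nimg (12 + s) x)) (fun x => nimg (12 + s) (nimg n x))
          (fun x => ?_) (fun x => ?_) hb.2
        · rw [Equiv.Perm.mul_apply, uel_val, nel_val (show 12 + (s : ℕ) < 29 by omega)]
        · rw [Equiv.Perm.mul_apply, nel_val (show 12 + (s : ℕ) < 29 by omega),
            nel_val (show n < 29 by omega)]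
      rw [Nat.eq_of_beq_eq_true (allB_spec_zero (cj_step s ⟨n, by omega⟩) le_rfl hi')]
      refine ⟨(mulU_spec hc).1, ?_⟩
      rw [(mulU_spec hc).2, eq_mul_inv_of_mul_eq hce, hr2, uel_top (by omega) hi']
      group
  exact key 12 le_rfl i hi

theorem torus_comm : Commute (nel 12) (nel 13) := by
  refine gam_eq (mul_mem (nel_mem _) (nel_mem _)) (mul_mem (nel_mem _) (nel_mem _)) fun x hx => ?_
  have h := List.all_eq_true.1 torus_checks _ hx
  rw [Bool.and_eq_true] at h
  rw [Equiv.Perm.mul_apply, Equiv.Perm.mul_apply, nel_val (by norm_num), nel_val (by norm_num),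
    nel_val (by norm_num), nel_val (by norm_num)]
  exact Nat.eq_of_beq_eq_true h.1

theorem torus_cube (s : Fin 2) : nel (12 + s) ^ 3 = 1 := by
  refine gam_eq (pow_mem (nel_mem _) 3) (one_mem _) fun x hx => ?_
  have h := List.all_eq_true.1 torus_checks _ hx
  rw [Bool.and_eq_true, Bool.and_eq_true] at h
  simp only [pow_succ, pow_zero, one_mul, Equiv.Perm.mul_apply, Equiv.Perm.one_apply]
  fin_cases s
  · simp only [Nat.add_zero]
    rw [nel_val (by norm_num), nel_val (by norm_num), nel_val (by norm_num)]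
    exact Nat.eq_of_beq_eq_true h.2.1
  · simp only [Nat.reduceAdd]
    rw [nel_val (by norm_num), nel_val (by norm_num), nel_val (by norm_num)]
    exact Nat.eq_of_beq_eq_true h.2.2

theorem tel_mem (k : ℕ) : tel k ∈ Gam :=
  mul_mem (pow_mem (nel_mem _) _) (pow_mem (nel_mem _) _)

/-- The torus. -/
def T : Subgroup (Equiv.Perm (Fin 1782)) where
  carrier := {g | ∃ a b : ℕ, g = nel 12 ^ a * nel 13 ^ b}
  one_mem' := ⟨0, 0, by simp⟩
  mul_mem' := by
    rintro _ _ ⟨a, b, rfl⟩ ⟨c, d, rfl⟩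
    refine ⟨a + c, b + d, ?_⟩
    rw [pow_add, pow_add, mul_assoc, mul_assoc, ← mul_assoc (nel 13 ^ b),
      ← ((torus_comm.pow_pow c b).eq), mul_assoc]
  inv_mem' := by
    rintro _ ⟨a, b, rfl⟩
    refine ⟨2 * a, 2 * b, inv_eq_of_mul_eq_one_right ?_⟩
    rw [mul_assoc, ← mul_assoc (nel 13 ^ b), ← ((torus_comm.pow_pow (2 * a) b).eq), mul_assoc,
      ← mul_assoc, ← pow_add, ← pow_add, show a + 2 * a = 3 * a by ring,
      show b + 2 * b = 3 * b by ring, pow_mul, pow_mul,
      show nel 12 ^ 3 = 1 from torus_cube 0, show nel 13 ^ 3 = 1 from torus_cube 1, one_pow, one_pow,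
      one_mul]

theorem mem_T {g : Equiv.Perm (Fin 1782)} : g ∈ T ↔ ∃ k < 9, tel k = g := by
  constructor
  · rintro ⟨a, b, rfl⟩
    refine ⟨3 * (a % 3) + b % 3, by omega, ?_⟩
    rw [tel, show (3 * (a % 3) + b % 3) / 3 = a % 3 by omega,
      show (3 * (a % 3) + b % 3) % 3 = b % 3 by omega]
    have h0 : nel 12 ^ 3 = 1 := torus_cube 0
    have h1 : nel 13 ^ 3 = 1 := torus_cube 1
    rw [← pow_eq_pow_mod a h0, ← pow_eq_pow_mod b h1]
  · rintro ⟨k, -, rfl⟩
    exact ⟨_, _, rfl⟩

theorem T_le : T ≤ Gam := by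
  rintro _ ⟨a, b, rfl⟩
  exact mul_mem (pow_mem (nel_mem _) _) (pow_mem (nel_mem _) _)

theorem tel_val (k : ℕ) (x : Fin 1782) : (tel k x : ℕ) = timg k x := by
  have hp : ∀ (i : ℕ), i < 29 → ∀ (m : ℕ) (y : Fin 1782),
      ((nel i ^ m) y : ℕ) = Nat.rec (motive := fun _ => ℕ) (y : ℕ) (fun _ z => nimg i z) m := by
    intro i hi m y
    induction m with
    | zero => rfl
    | succ m ih => rw [pow_succ', Equiv.Perm.mul_apply, nel_val hi, ih]
  rw [tel, Equiv.Perm.mul_apply, hp 12 (by norm_num), hp 13 (by norm_num)]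
  rfl

theorem card_T : Nat.card ↥T = 9 := by
  rw [← Nat.card_fin 9]
  refine (Nat.card_congr (Equiv.ofBijective
    (fun k : Fin 9 => (⟨tel k, mem_T.2 ⟨k, k.2, rfl⟩⟩ : ↥T)) ⟨fun a b h => ?_, ?_⟩)).symm
  · have h' : tel a = tel b := congrArg Subtype.val h
    have hd : ∀ d ∈ dPts, timg a d = timg b d := fun d hd => by
      have h1 := tel_val a ⟨d, dPts_lt d hd⟩
      rw [h', tel_val] at h1
      exact h1.symm
    refine torus_key a b (List.all_eq_true.2 fun d hd' => ?_)
    rw [hd d hd']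
    exact Nat.beq_refl _
  · rintro ⟨g, hg⟩
    obtain ⟨k, hk, rfl⟩ := mem_T.1 hg
    exact ⟨⟨k, hk⟩, rfl⟩

theorem T_conj_U {t u : Equiv.Perm (Fin 1782)} (ht : t ∈ T) (hu : u ∈ U) : t * u * t⁻¹ ∈ U := by
  have h1 : ∀ s : Fin 2, ∀ v ∈ U, nel (12 + s) * v * (nel (12 + s))⁻¹ ∈ U := by
    rintro s _ ⟨i, hi, rfl⟩
    exact ⟨_, (cj_spec s hi).1, (cj_spec s hi).2⟩
  have h2 : ∀ (s : Fin 2) (m : ℕ), ∀ v ∈ U,
      nel (12 + s) ^ m * v * (nel (12 + s) ^ m)⁻¹ ∈ U := by
    intro s m
    induction m with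
    | zero => intro v hv; simpa using hv
    | succ m ih =>
      intro v hv
      have := h1 s _ (ih v hv)
      simpa [pow_succ', mul_inv_rev, mul_assoc] using this
  obtain ⟨a, b, rfl⟩ := ht
  have := h2 0 a _ (h2 1 b u hu)
  simpa [mul_inv_rev, mul_assoc] using this

end Cfsg.Agent.SuzRank
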