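import Cfsg.Agent.SuzRank.Base
import Cfsg.Agent.SuzRank.Glue
import Cfsg.Agent.SuzRank.Counting
import Cfsg.Agent.SuzRank.UGroup
import Cfsg.Agent.SuzRank.ParaDefs
import Cfsg.Agent.SuzRank.CaseData
import Cfsg.Agent.SuzRank.LatData

/-!
A rank three group of degree 1782 with point stabiliser `G₂(4)` is the Suzuki group, from the
facts about parabolic subgroups, the lattice of invariant subgroups and the fifteen cases.
-/

set_option autoImplicit false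
set_option maxRecDepth 100000

namespace Cfsg.Agent.SuzRank

open MulAction

/-- The point stabiliser in the model. -/
noncomputable def stabEquiv : ↥Gam ≃* ↥(stabilizer ↥Big (0 : Fin 1782)) where
  toFun g := ⟨⟨g.1, Gam_le_Big g.2⟩, Gam_fix g.2⟩
  invFun s := ⟨s.1.1, mem_Gam_of_fix s.1.2 s.2⟩
  left_inv _ := rfl
  right_inv _ := rfl
  map_mul' _ _ := rfl

theorem orbit_stabBig (x : Fin 1782) :
    orbit ↥(stabilizer ↥Big (0 : Fin 1782)) x = orbit ↥Gam x := by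
  ext y
  constructor
  · rintro ⟨s, rfl⟩
    exact ⟨stabEquiv.symm s, rfl⟩
  · rintro ⟨g, rfl⟩
    exact ⟨stabEquiv g, rfl⟩

theorem isQ_pts : isQ 301 = true ∧ isQ 47 = true ∧ isQ 72 = true := by decide +kernel

theorem card_isQ : (List.range 1782).countP isQ = 416 := by decide +kernel

theorem orbit_isQ_eq (x : Fin 1782) (hx : isQ x = true) :
    orbit ↥Gam x = {y : Fin 1782 | isQ y = true} := by
  have h47 : orbit ↥Gam (47 : Fin 1782) = {y : Fin 1782 | isQ y = true} := by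
    refine Set.eq_of_subset_of_ncard_le ?_ ?_
    · rintro _ ⟨g, rfl⟩
      show isQ ((g : Equiv.Perm (Fin 1782)) (47 : Fin 1782)) = true
      rw [isQ_Gam g.2]
      exact isQ_pts.2.1
    · rw [orbit_Gam_Q, ← card_isQ, Set.ncard_eq_toFinset_card']
      refine le_of_eq ?_
      rw [List.countP_eq_length_filter, ← List.toFinset_card_of_nodup
        ((List.nodup_range (n := 1782)).filter _)]
      refine Finset.card_bij (fun z _ => (z : ℕ)) ?_ (fun a _ b _ hab => Fin.ext hab) ?_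
      · intro z hz
        have hz' := Set.mem_toFinset.1 hz
        exact List.mem_toFinset.2 (List.mem_filter.2 ⟨List.mem_range.2 z.2, hz'⟩)
      · intro z hz
        rw [List.mem_toFinset, List.mem_filter, List.mem_range] at hz
        exact ⟨⟨z, hz.1⟩, Set.mem_toFinset.2 hz.2, rfl⟩
  rw [← h47]
  exact orbit_eq_iff.2 (h47 ▸ hx)

theorem orbit_Q_mem {x : Fin 1782} :
    x ∈ orbit ↥(stabilizer ↥Big (0 : Fin 1782)) (301 : Fin 1782) ↔ isQ x = true := by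
  rw [orbit_stabBig, orbit_isQ_eq _ isQ_pts.1]
  rfl

/-- Conjugation of subgroups. -/
noncomputable def cmap {M : Type*} [Group M] (g : M) (X : Subgroup M) : Subgroup M :=
  X.map (MulAut.conj g).toMonoidHom

theorem cmap_cmap {M : Type*} [Group M] (g h : M) (X : Subgroup M) :
    cmap g (cmap h X) = cmap (g * h) X := by
  rw [cmap, cmap, cmap, Subgroup.map_map]
  congr 1
  ext x
  simp [mul_assoc]

theorem mem_cmap {M : Type*} [Group M] {g x : M} {X : Subgroup M} :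
    x ∈ cmap g X ↔ g⁻¹ * x * g ∈ X := by
  constructor
  · rintro ⟨y, hy, rfl⟩
    simpa [mul_assoc] using hy
  · exact fun h => ⟨_, h, by simp [mul_assoc]⟩

theorem card_cmap {M : Type*} [Group M] (g : M) (X : Subgroup M) :
    Nat.card ↥(cmap g X) = Nat.card ↥X :=
  (Nat.card_congr (X.equivMapOfInjective _ (MulAut.conj g).injective).toEquiv).symm

theorem cmap_le {g : Equiv.Perm (Fin 1782)} (hg : g ∈ Gam) {X : Subgroup (Equiv.Perm (Fin 1782))}
    (hX : X ≤ Gam) : cmap g X ≤ Gam := by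
  intro x hx
  have h := mul_mem (mul_mem hg (hX (mem_cmap.1 hx))) (inv_mem hg)
  simpa [mul_assoc] using h

theorem card_sub {X : Subgroup ↥Gam} :
    Nat.card ↥(X.map Gam.subtype) = Nat.card ↥X :=
  (Nat.card_congr (X.equivMapOfInjective _ Gam.subtype_injective).toEquiv).symm

theorem card_of_index {X : Subgroup ↥Gam} (h : X.index = 1365) : Nat.card ↥X = 184320 := by
  have h2 := X.card_mul_index
  rw [h, card_Gam] at h2
  omega

/-- The subgroup of permutations given by a subgroup of the model stabiliser. -/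
noncomputable def downL (X : Subgroup ↥(stabilizer ↥Big (0 : Fin 1782))) :
    Subgroup (Equiv.Perm (Fin 1782)) :=
  (X.map stabEquiv.symm.toMonoidHom).map Gam.subtype

theorem downL_le (X : Subgroup ↥(stabilizer ↥Big (0 : Fin 1782))) : downL X ≤ Gam :=
  Subgroup.map_subtype_le _

theorem mem_downL {X : Subgroup ↥(stabilizer ↥Big (0 : Fin 1782))} {g : Equiv.Perm (Fin 1782)} :
    g ∈ downL X ↔ ∃ hg : g ∈ Gam, stabEquiv ⟨g, hg⟩ ∈ X := by
  constructor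
  · rintro ⟨_, ⟨s, hs, rfl⟩, rfl⟩
    refine ⟨(stabEquiv.symm s).2, ?_⟩
    show stabEquiv (stabEquiv.symm s) ∈ X
    rwa [MulEquiv.apply_symm_apply]
  · rintro ⟨hg, h⟩
    exact ⟨⟨g, hg⟩, ⟨_, h, stabEquiv.symm_apply_apply _⟩, rfl⟩

theorem card_downL {X : Subgroup ↥(stabilizer ↥Big (0 : Fin 1782))} (h : X.index = 1365) :
    Nat.card ↥(downL X) = 184320 := by
  rw [downL, card_sub]
  refine card_of_index ?_
  exact (Subgroup.index_map_of_bijective stabEquiv.symm.bijective X).trans h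

/-- The stabiliser of the base point, inside the model. -/
theorem P1_smul {A : Set (Fin 1782)}
    (h : ∀ s ∈ stabilizer ↥(stabilizer ↥Big (0 : Fin 1782)) (1 : Fin 1782), ∀ q ∈ A, s • q ∈ A) :
    ∀ g ∈ P1, ∀ q ∈ A, g q ∈ A := by
  intro g hg q hq
  obtain ⟨hgG, hg1⟩ := mem_P1.1 hg
  exact h (stabEquiv ⟨g, hgG⟩) hg1 q hq

/-- The facts on which the recognition rests. -/
structure Facts : Prop where
  para : ∀ X : Subgroup (Equiv.Perm (Fin 1782)), X ≤ Gam → Nat.card ↥X = 184320 →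
    ∃ g ∈ Gam, X.map (MulAut.conj g).toMonoidHom = P1 ∨ X.map (MulAut.conj g).toMonoidHom = P2
  sub : ∀ X : Subgroup (Equiv.Perm (Fin 1782)), X ≤ Gam → Nat.card ↥X = 184320 →
    ∀ A : Set (↥Gam ⧸ X.subgroupOf Gam), (∀ h ∈ X.subgroupOf Gam, ∀ q ∈ A, h • q ∈ A) →
      A.ncard ∈ ({320, 352, 384} : Set ℕ) → ∀ q ∈ A,
        Nat.card ↥(X.subgroupOf Gam ⊓ stabilizer ↥Gam q) = 576 ∧
          ∃ V : Subgroup ↥Gam, V ≤ X.subgroupOf Gam ⊓ stabilizer ↥Gam q ∧ Nat.card ↥V = 64 ∧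
            ∀ w ∈ X.subgroupOf Gam ⊓ stabilizer ↥Gam q, ∀ v ∈ V, w * v * w⁻¹ ∈ V
  n_mem : ∀ X : Subgroup (Equiv.Perm (Fin 1782)), X ≤ Gam → T ≤ X → Nat.card ↥X = 27 → nel 14 ∈ X
  wconj : ∀ X W V : Subgroup (Equiv.Perm (Fin 1782)), (X = P1 ∨ X = P2) → W ≤ X →
    Nat.card ↥W = 576 → V ≤ W → Nat.card ↥V = 64 → (∀ w ∈ W, ∀ v ∈ V, w * v * w⁻¹ ∈ V) →
    ∃ g ∈ Gam, T ≤ W.map (MulAut.conj g).toMonoidHom ∧ V.map (MulAut.conj g).toMonoidHom ≤ U
  lat : ∀ V : Subgroup (Equiv.Perm (Fin 1782)), V ≤ U → (∀ t ∈ T, ∀ v ∈ V, t * v * t⁻¹ ∈ V) →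
    Nat.card ↥V = 64 →
    ∃ c : Fin 15, ∀ g, g ∈ V ↔ ∃ i ∈ latS.getD (vIdx.getD c 0) [], uel i = g
  gens : ∀ c : Fin 15, ∀ i ∈ caseGens.getD c [], i ∈ latS.getD (vIdx.getD c 0) []
  case : ∀ (c : Fin 15) (H : Subgroup (Equiv.Perm (Fin 1782))), H ≤ Gam → Nat.card ↥H = 604800 →
    (∀ i ∈ caseGens.getD c [], uel i ∈ H) → T ≤ H → nel 14 ∈ H →
    ∃ g ∈ Gam, H.map (MulAut.conj g).toMonoidHom =
      Gam ⊓ stabilizer (Equiv.Perm (Fin 1782)) (301 : Fin 1782)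
  orb47 : (orbit ↥(Gam ⊓ stabilizer (Equiv.Perm (Fin 1782)) (301 : Fin 1782))
    (47 : Fin 1782)).ncard = 315
  orb72 : (orbit ↥(Gam ⊓ stabilizer (Equiv.Perm (Fin 1782)) (301 : Fin 1782))
    (72 : Fin 1782)).ncard = 100
  inv96 : ∀ X : Subgroup (Equiv.Perm (Fin 1782)), X ≤ Gam → Nat.card ↥X = 184320 →
    ∀ A : Set (Fin 1782), (∀ x ∈ A, isQ x = true) → A.ncard = 96 →
      (∀ h ∈ X, ∀ q ∈ A, h q ∈ A) →
      ∃ r ∈ orbit ↥Gam p1, X = Gam ⊓ stabilizer (Equiv.Perm (Fin 1782)) r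
  uniq96 : ∀ A B : Set (Fin 1782), (∀ x ∈ A, isQ x = true) → (∀ x ∈ B, isQ x = true) →
    A.ncard = 96 → B.ncard = 96 → (∀ h ∈ P1, ∀ q ∈ A, h q ∈ A) → (∀ h ∈ P1, ∀ q ∈ B, h q ∈ B) →
    A = B
  uniq320 : ∀ A B : Set (Fin 1782), A ⊆ orbit ↥Gam p1 → B ⊆ orbit ↥Gam p1 →
    A.ncard = 320 → B.ncard = 320 → (∀ h ∈ P1, ∀ q ∈ A, h q ∈ A) → (∀ h ∈ P1, ∀ q ∈ B, h q ∈ B) →
    A = B

theorem card_sylow_three {H : Subgroup (Equiv.Perm (Fin 1782))} (hc : Nat.card ↥H = 604800)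
    (hT : T ≤ H) : ∃ X ≤ H, T ≤ X ∧ Nat.card ↥X = 27 := by
  have : Fact (Nat.Prime 3) := ⟨Nat.prime_three⟩
  have hp : IsPGroup 3 ↥(T.subgroupOf H) := IsPGroup.of_card (n := 2)
    (by rw [Nat.card_congr (Subgroup.subgroupOfEquivOfLe hT).toEquiv, card_T]; rfl)
  obtain ⟨P, hP⟩ := hp.exists_le_sylow
  obtain ⟨k, hk⟩ := IsPGroup.iff_card.1 P.2
  have hidx := (P : Subgroup ↥H).card_mul_index
  rw [hk, hc] at hidx
  have hnd : ¬ 3 ∣ (P : Subgroup ↥H).index := P.not_dvd_index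
  have hk3 : k = 3 := by
    have h1 : 3 ^ k ∣ 604800 := ⟨_, hidx.symm⟩
    rcases Nat.lt_or_ge k 4 with h | h
    · interval_cases k <;> omega
    · exact absurd (dvd_trans (pow_dvd_pow 3 h) h1) (by norm_num)
  refine ⟨(P : Subgroup ↥H).map H.subtype, Subgroup.map_subtype_le _, fun t ht => ?_, ?_⟩
  · exact ⟨⟨t, hT ht⟩, hP ht, rfl⟩
  · rw [← Nat.card_congr ((P : Subgroup ↥H).equivMapOfInjective _ H.subtype_injective).toEquiv,
      hk, hk3]
    rfl

theorem bound_adj :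
    Nat.card {h : Equiv.Perm (Fin 1782) // h 0 = 0 ∧ ∀ x y,
      Adj Big 0 (orbit ↥(stabilizer ↥Big (0 : Fin 1782)) (301 : Fin 1782)) x y ↔
        Adj Big 0 (orbit ↥(stabilizer ↥Big (0 : Fin 1782)) (301 : Fin 1782)) (h x) (h y)}
      < 1782 * 251596800 := by
  have hA : ∀ x y,
      Adj Big 0 (orbit ↥(stabilizer ↥Big (0 : Fin 1782)) (301 : Fin 1782)) x y ↔ QAdj x y := by
    intro x y
    constructor
    · rintro ⟨g, hg, h1, h2⟩
      exact ⟨g, hg, h1, orbit_Q_mem.1 h2⟩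
    · rintro ⟨g, hg, h1, h2⟩
      exact ⟨g, hg, h1, orbit_Q_mem.2 h2⟩
  refine lt_of_le_of_lt (le_of_eq (Nat.card_congr (Equiv.subtypeEquivRight fun h => ?_)))
    card_Aut0_lt
  show _ ↔ h ∈ Aut0
  refine and_congr Iff.rfl (forall_congr' fun x => forall_congr' fun y => ?_)
  rw [hA, hA]

/-- The recognition theorem over the model. -/
theorem iso_Big (F : Facts) {Ω : Type*} [Fintype Ω] [DecidableEq Ω] (hΩ : Fintype.card Ω = 1782)
    (G : Subgroup (Equiv.Perm Ω)) [IsPretransitive G Ω] (a b c : Ω)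
    (e : stabilizer G a ≃* ↥Gam)
    (hb : (orbit (stabilizer G a) b).ncard = 416) (hc : (orbit (stabilizer G a) c).ncard = 1365) :
    Nonempty (G ≃* ↥Big) := by
  classical
  have hP : ∀ X : Subgroup ↥Gam, X.index = 1365 → ∀ A : Set (↥Gam ⧸ X),
      (∀ h ∈ X, ∀ q ∈ A, h • q ∈ A) →
      A.ncard ∈ ({320, 352, 384} : Set ℕ) → ∀ q ∈ A,
        Nat.card ↥(X ⊓ stabilizer ↥Gam q) = 576 ∧
          ∃ V : Subgroup ↥Gam, V ≤ X ⊓ stabilizer ↥Gam q ∧ Nat.card ↥V = 64 ∧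
            ∀ w ∈ X ⊓ stabilizer ↥Gam q, ∀ v ∈ V, w * v * w⁻¹ ∈ V := by
    intro X hX
    have h := F.sub (X.map Gam.subtype) (Subgroup.map_subtype_le _)
      (card_sub.trans (card_of_index hX))
    have hXe : (X.map Gam.subtype).subgroupOf Gam = X :=
      Subgroup.comap_map_eq_self_of_injective Gam.subtype_injective X
    rw [hXe] at h
    exact h
  obtain ⟨X, W, V, hXi, hWX, hWH, hW, hVW, hV, hVn⟩ := exists_W hΩ G a b c e hb hc hP
  set H : Subgroup ↥Gam := (stabilizer (stabilizer G a) b).map e.toMonoidHom with hH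
  have hHc : Nat.card ↥H = 604800 := by
    have h1 := (stabilizer (stabilizer G a) b).card_mul_index
    rw [index_stabilizer, hb, Nat.card_congr e.toEquiv, card_Gam] at h1
    rw [hH, ← Nat.card_congr
      ((stabilizer (stabilizer G a) b).equivMapOfInjective _ e.injective).toEquiv]
    omega
  obtain ⟨g1, hg1, hX'⟩ := F.para _ (Subgroup.map_subtype_le X)
    (card_sub.trans (card_of_index hXi))
  obtain ⟨g2, hg2, hTW, hVU⟩ := F.wconj (cmap g1 (X.map Gam.subtype))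
    (cmap g1 (W.map Gam.subtype)) (cmap g1 (V.map Gam.subtype)) hX'
    (Subgroup.map_mono (Subgroup.map_mono hWX)) (by rw [card_cmap, card_sub, hW])
    (Subgroup.map_mono (Subgroup.map_mono hVW)) (by rw [card_cmap, card_sub, hV])
    (by
      rintro _ ⟨_, ⟨w, hw, rfl⟩, rfl⟩ _ ⟨_, ⟨v, hv, rfl⟩, rfl⟩
      exact ⟨_, ⟨_, hVn w hw v hv, rfl⟩, by simp [mul_assoc]⟩)
  set g := g2 * g1 with hgdef
  have hg : g ∈ Gam := mul_mem hg2 hg1
  have hTW' : T ≤ cmap g (W.map Gam.subtype) := by rw [← cmap_cmap]; exact hTW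
  have hVU' : cmap g (V.map Gam.subtype) ≤ U := by rw [← cmap_cmap]; exact hVU
  obtain ⟨k, hk⟩ := F.lat (cmap g (V.map Gam.subtype)) hVU' (by
      intro t ht v hv
      obtain ⟨_, ⟨w, hw, rfl⟩, rfl⟩ := hTW' ht
      obtain ⟨_, ⟨v, hv', rfl⟩, rfl⟩ := hv
      exact ⟨_, ⟨_, hVn w hw v hv', rfl⟩, by simp [mul_assoc]⟩)
    (by rw [card_cmap, card_sub, hV])
  set H3 := cmap g (H.map Gam.subtype) with hH3
  have hH3le : H3 ≤ Gam := cmap_le hg (Subgroup.map_subtype_le _)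
  have hH3c : Nat.card ↥H3 = 604800 := by rw [hH3, card_cmap, card_sub, hHc]
  have hWH3 : cmap g (W.map Gam.subtype) ≤ H3 := Subgroup.map_mono (Subgroup.map_mono hWH)
  have hVW3 : cmap g (V.map Gam.subtype) ≤ H3 :=
    le_trans (Subgroup.map_mono (Subgroup.map_mono hVW)) hWH3
  have hT3 : T ≤ H3 := hTW'.trans hWH3
  obtain ⟨P, hPH, hTP, hPc⟩ := card_sylow_three hH3c hT3
  obtain ⟨g3, hg3, hfin⟩ := F.case k H3 hH3le hH3c
    (fun i hi => hVW3 ((hk _).2 ⟨i, F.gens k i hi, rfl⟩)) hT3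
    (hPH (F.n_mem P (hPH.trans hH3le) hTP hPc))
  set gg : ↥Gam := ⟨g3 * g, mul_mem hg3 hg⟩ with hgg
  set e' : stabilizer G a ≃* ↥(stabilizer ↥Big (0 : Fin 1782)) :=
    (e.trans (MulAut.conj gg)).trans stabEquiv with he'
  have hfin' : cmap (g3 * g) (H.map Gam.subtype) =
      Gam ⊓ stabilizer (Equiv.Perm (Fin 1782)) (301 : Fin 1782) := by
    rw [← cmap_cmap]
    exact hfin
  have he : (stabilizer (stabilizer G a) b).map e'.toMonoidHom =
      stabilizer ↥(stabilizer ↥Big (0 : Fin 1782)) (301 : Fin 1782) := by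
    ext s
    obtain ⟨t, rfl⟩ := stabEquiv.surjective s
    have h1 : (stabEquiv t) ∈ stabilizer ↥(stabilizer ↥Big (0 : Fin 1782)) (301 : Fin 1782) ↔
        (t : Equiv.Perm (Fin 1782)) ∈
          Gam ⊓ stabilizer (Equiv.Perm (Fin 1782)) (301 : Fin 1782) :=
      ⟨fun h => ⟨t.2, h⟩, fun h => h.2⟩
    rw [h1, ← hfin', mem_cmap]
    constructor
    · rintro ⟨x, hx, hxe⟩
      have h2 : gg * e x * gg⁻¹ = t := stabEquiv.injective hxe
      refine ⟨e x, ⟨x, hx, rfl⟩, ?_⟩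
      rw [← h2]
      simp [hgg, mul_assoc]
    · rintro ⟨y, ⟨x, hx, rfl⟩, hy⟩
      refine ⟨x, hx, congrArg stabEquiv (Subtype.ext ?_)⟩
      show (g3 * g) * ((e x : ↥Gam) : Equiv.Perm (Fin 1782)) * (g3 * g)⁻¹ = t
      have hy' : ((e x : ↥Gam) : Equiv.Perm (Fin 1782)) = (g3 * g)⁻¹ * t * (g3 * g) := hy
      rw [hy']
      simp [mul_assoc]
  have : IsPretransitive ↥Big (Fin 1782) := transitive_Big
  have hr : (orbit ↥(stabilizer ↥Big (0 : Fin 1782)) (1 : Fin 1782)).ncard = 1365 := by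
    rw [orbit_stabBig]; exact orbit_Gam_R
  have hq : (orbit ↥(stabilizer ↥Big (0 : Fin 1782)) (301 : Fin 1782)).ncard = 416 := by
    rw [orbit_stabBig, orbit_isQ_eq _ isQ_pts.1, ← orbit_isQ_eq (47 : Fin 1782) isQ_pts.2.1]
    exact orbit_Gam_Q
  have hK : ∀ x : Fin 1782,
      orbit ↥(stabilizer ↥(stabilizer ↥Big (0 : Fin 1782)) (301 : Fin 1782)) x =
        orbit ↥(Gam ⊓ stabilizer (Equiv.Perm (Fin 1782)) (301 : Fin 1782)) x := by
    intro x
    ext y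
    constructor
    · rintro ⟨s, rfl⟩
      exact ⟨⟨_, (stabEquiv.symm s.1).2, s.2⟩, rfl⟩
    · rintro ⟨⟨h, hh, hh'⟩, rfl⟩
      exact ⟨⟨stabEquiv ⟨h, hh⟩, hh'⟩, rfl⟩
  refine iso_of_model hΩ G a b c hb hc Big card_Big 301 1 hq hr e' he
    ⟨72, 47, orbit_Q_mem.2 isQ_pts.2.2, orbit_Q_mem.2 isQ_pts.2.1,
      by rw [hK]; exact F.orb72, by rw [hK]; exact F.orb47⟩ ?_ ?_ ?_ bound_adj
  · rintro X hX ⟨A, hA, hAc, hAi⟩
    obtain ⟨r, hr, hXr⟩ := F.inv96 (downL X) (downL_le X) (card_downL hX) A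
      (fun x hx => orbit_Q_mem.1 (hA hx)) hAc (fun h hh q hq => by
        obtain ⟨hg', hh'⟩ := mem_downL.1 hh
        exact hAi _ hh' q hq)
    refine ⟨r, by rw [orbit_stabBig]; exact hr, ?_⟩
    ext s
    obtain ⟨t, rfl⟩ := stabEquiv.surjective s
    constructor
    · intro h
      have h2 : (t : Equiv.Perm (Fin 1782)) ∈ downL X := mem_downL.2 ⟨t.2, h⟩
      rw [hXr] at h2
      exact h2.2
    · intro h
      have h2 : (t : Equiv.Perm (Fin 1782)) ∈ downL X := by rw [hXr]; exact ⟨t.2, h⟩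
      exact (mem_downL.1 h2).2
  · exact fun A B hA hB hAc hBc hAi hBi => F.uniq96 A B (fun x hx => orbit_Q_mem.1 (hA hx))
      (fun x hx => orbit_Q_mem.1 (hB hx)) hAc hBc (P1_smul hAi) (P1_smul hBi)
  · rw [orbit_stabBig]
    exact fun A B hA hB hAc hBc hAi hBi =>
      F.uniq320 A B hA hB hAc hBc (P1_smul hAi) (P1_smul hBi)

end Cfsg.Agent.SuzRank
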