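import Cfsg.Agent.CosetCert.SuzukiG.Main

/-!
The permutations of degree 1782 given by the seven generators of the presented Suzuki group, and the
group fixing the point `0`.
-/

set_option autoImplicit false
set_option maxRecDepth 100000

namespace Cfsg.Agent.SuzRank

open Cfsg.Agent.CosetCert

/-- The point `0`. -/
abbrev pz : Fin 1782 := ⟨0, by norm_num⟩

/-- The permutation of a generator. -/
noncomputable def gperm (j : Fin 7) : Equiv.Perm (Fin 1782) :=
  PresData.perm SuzukiG.valid ((j : ℕ) + 1)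

theorem gperm_val (j : Fin 7) (x : Fin 1782) :
    (gperm j x : ℕ) = SuzukiG.data.look ((j : ℕ) + 1) x := by
  have h1 : 1 ≤ (j : ℕ) + 1 := Nat.le_add_left 1 _
  have h2 : (j : ℕ) + 1 ≤ SuzukiG.data.cols.length :=
    le_trans (Nat.succ_le_of_lt j.2) (by decide +kernel)
  exact PresData.perm_apply SuzukiG.valid h1 h2 x

/-- The whole group. -/
def Big : Subgroup (Equiv.Perm (Fin 1782)) := Subgroup.closure (Set.range gperm)

/-- The group generated by the first six generators. -/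
def Gam : Subgroup (Equiv.Perm (Fin 1782)) :=
  Subgroup.closure (Set.range fun j : Fin 6 => gperm j.castSucc)

theorem Gam_le_Big : Gam ≤ Big :=
  Subgroup.closure_mono (by rintro _ ⟨j, rfl⟩; exact ⟨_, rfl⟩)

theorem gperm_fix : ∀ j : Fin 6, gperm j.castSucc pz = pz := by
  have h : ∀ j : Fin 6, SuzukiG.data.look ((j : ℕ) + 1) 0 = 0 := by decide +kernel
  intro j
  exact Fin.ext ((gperm_val _ _).trans (h j))

theorem Gam_fix {g : Equiv.Perm (Fin 1782)} (hg : g ∈ Gam) : g pz = pz :=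
  ((Subgroup.closure_le (MulAction.stabilizer (Equiv.Perm (Fin 1782)) pz)).2
    (by rintro _ ⟨j, rfl⟩; exact gperm_fix j) : Gam ≤ _) hg

/-- An element of the whole group fixing `0` lies in the subgroup. -/
theorem mem_Gam_of_fix {g : Equiv.Perm (Fin 1782)} (hg : g ∈ Big) (h0 : g pz = pz) : g ∈ Gam := by
  obtain ⟨φ, hof, e, heq, he0⟩ :=
    enum_spec SuzukiG.valid SuzukiG.word_letters SuzukiG.base_letters
  have hgen : ∀ a : Cfsg.Spor.Suz.Gen,
      φ (PresentedGroup.of a) = gperm ⟨SuzukiG.code a - 1, by cases a <;> decide⟩ := by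
    intro a
    rw [hof]
    cases a <;> rfl
  have hbig : Big ≤ φ.range := (Subgroup.closure_le _).2 (by
    rintro _ ⟨j, rfl⟩
    obtain ⟨a, rfl⟩ : ∃ a : Cfsg.Spor.Suz.Gen,
        (⟨SuzukiG.code a - 1, by cases a <;> decide⟩ : Fin 7) = j := by
      fin_cases j
      exacts [⟨.a, rfl⟩, ⟨.b, rfl⟩, ⟨.c, rfl⟩, ⟨.d, rfl⟩, ⟨.e, rfl⟩, ⟨.f, rfl⟩, ⟨.g, rfl⟩]
    exact ⟨_, hgen a⟩)
  obtain ⟨x, rfl⟩ := hbig hg
  have hz := heq x ((1 : Cfsg.Spor.Suz) : Cfsg.Spor.Suz ⧸ _)
  rw [he0] at hz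
  have hq : x • ((1 : Cfsg.Spor.Suz) : Cfsg.Spor.Suz ⧸ (Subgroup.closure
      {r | r ∈ SuzukiG.gensList}).map (PresentedGroup.mk _)) =
      ((1 : Cfsg.Spor.Suz) : Cfsg.Spor.Suz ⧸ _) :=
    e.injective (hz.trans (h0.trans he0.symm))
  have hmem : x ∈ (Subgroup.closure {r | r ∈ SuzukiG.gensList}).map (PresentedGroup.mk _) := by
    have h' := hq
    rw [MulAction.Quotient.smul_coe, QuotientGroup.eq, smul_eq_mul, mul_one, mul_one] at h'
    exact (Subgroup.inv_mem_iff _).1 h'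
  have hle : ((Subgroup.closure {r | r ∈ SuzukiG.gensList}).map (PresentedGroup.mk _)).map φ ≤ Gam := by
    rw [Subgroup.map_map, MonoidHom.map_closure]
    refine (Subgroup.closure_le (G := Equiv.Perm (Fin 1782)) Gam).2 ?_
    rintro _ ⟨r, hr, rfl⟩
    have hcases : r = Cfsg.Spor.Suz.a ∨ r = Cfsg.Spor.Suz.b ∨ r = Cfsg.Spor.Suz.c ∨
        r = Cfsg.Spor.Suz.d ∨ r = Cfsg.Spor.Suz.e ∨ r = Cfsg.Spor.Suz.f := by
      simpa [SuzukiG.gensList] using hr
    refine Subgroup.subset_closure ?_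
    rcases hcases with rfl | rfl | rfl | rfl | rfl | rfl
    exacts [⟨0, (hgen .a).symm⟩, ⟨1, (hgen .b).symm⟩, ⟨2, (hgen .c).symm⟩, ⟨3, (hgen .d).symm⟩,
      ⟨4, (hgen .e).symm⟩, ⟨5, (hgen .f).symm⟩]
  exact hle ⟨x, hmem, rfl⟩

/-- Evaluation of a word in the six generators (the last letter acts first). -/
noncomputable def evalW (w : List ℕ) (x : ℕ) : ℕ :=
  w.foldr (fun l y => SuzukiG.data.look (l + 1) y) x

/-- The permutation of a word in the six generators; other letters count as `1`. -/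
noncomputable def lw (w : List ℕ) : Equiv.Perm (Fin 1782) :=
  (w.map fun l => if h : l < 6 then gperm ⟨l, by omega⟩ else 1).prod

theorem lw_mem (w : List ℕ) : lw w ∈ Gam := by
  refine list_prod_mem fun g hg => ?_
  obtain ⟨l, -, rfl⟩ := List.mem_map.1 hg
  by_cases h : l < 6
  · rw [dif_pos h]
    exact Subgroup.subset_closure ⟨⟨l, h⟩, rfl⟩
  · rw [dif_neg h]
    exact one_mem _

theorem lw_val {w : List ℕ} (hw : w.all (fun l => Nat.blt l 6) = true) (x : Fin 1782) :
    (lw w x : ℕ) = evalW w x := by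
  induction w with
  | nil => rfl
  | cons l w ih =>
    rw [List.all_cons, Bool.and_eq_true] at hw
    have hl : l < 6 := Nat.le_of_ble_eq_true hw.1
    have e : lw (l :: w) = gperm ⟨l, by omega⟩ * lw w := by
      simp [lw, List.map_cons, List.prod_cons, dif_pos hl]
    rw [e, Equiv.Perm.mul_apply, gperm_val, ih hw.2]
    rfl

end Cfsg.Agent.SuzRank
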