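import Cfsg.Agent.SporB.SuzG.Iso
import Cfsg.Agent.ChevGrp.FieldAut
import Cfsg.Agent.SuzRank.Perms
import Mathlib.FieldTheory.Finite.GaloisField

/-! The presented Suzuki group as a rank three group on 1782 points: point stabiliser and
suborbits. -/

set_option autoImplicit false
set_option maxRecDepth 100000

namespace Cfsg.Agent.SuzRank

open Cfsg.Agent.CosetCert Cfsg.Agent.SporB.SuzukiHex

/-- Evaluation of a word of letters on a point. -/
noncomputable def run (l : List ℕ) (x : ℕ) : ℕ := SuzukiG.data.run l x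

theorem gen_rel : ∀ r ∈ Cfsg.Spor.coxRelators Cfsg.Spor.Suz.edges ∪ {r | r ∈ Cfsg.Spor.Suz.extra},
    FreeGroup.lift (PresData.genPerm SuzukiG.valid) r = 1 :=
  PresData.genPerm_rel SuzukiG.valid
    (fun u hu => SuzukiG.word_letters u (List.mem_append_left _ hu)) SuzukiG.base_letters

/-- The permutation representation of degree 1782. -/
noncomputable def phi : Cfsg.Spor.Suz →* Equiv.Perm (Fin 1782) :=
  PresentedGroup.toGroup (f := (PresData.genPerm SuzukiG.valid :
    Cfsg.Spor.Suz.Gen → Equiv.Perm (Fin 1782))) gen_rel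

theorem phi_of (a : Cfsg.Spor.Suz.Gen) :
    phi (PresentedGroup.of a) = (PresData.genPerm SuzukiG.valid a : Equiv.Perm (Fin 1782)) :=
  PresentedGroup.toGroup.of gen_rel

/-- The generators in order. -/
def genOf : Fin 7 → Cfsg.Spor.Suz.Gen := ![.a, .b, .c, .d, .e, .f, .g]

theorem code_genOf : ∀ l : Fin 7, SuzukiG.data.code (genOf l) = (l : ℕ) + 1 := by decide

theorem genOf_surjective : Function.Surjective genOf := by
  intro a
  cases a
  · exact ⟨0, rfl⟩
  · exact ⟨1, rfl⟩
  · exact ⟨2, rfl⟩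
  · exact ⟨3, rfl⟩
  · exact ⟨4, rfl⟩
  · exact ⟨5, rfl⟩
  · exact ⟨6, rfl⟩

/-- The permutation of a generator. -/
noncomputable def letterP (l : Fin 7) : Equiv.Perm (Fin 1782) :=
  phi (PresentedGroup.of (genOf l))

theorem letters_le (l : Fin 7) : (l : ℕ) + 1 ≤ SuzukiG.data.cols.length :=
  le_trans (Nat.succ_le_of_lt l.2) (by decide +kernel)

theorem letterP_eq (l : Fin 7) :
    letterP l = (PresData.perm SuzukiG.valid ((l : ℕ) + 1) : Equiv.Perm (Fin 1782)) := by
  rw [letterP, phi_of]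
  show PresData.perm SuzukiG.valid (SuzukiG.data.code (genOf l)) = _
  rw [code_genOf]

theorem letterP_apply (l : Fin 7) (x : Fin 1782) :
    (letterP l x : ℕ) = SuzukiG.data.look ((l : ℕ) + 1) x := by
  rw [letterP_eq]
  exact PresData.perm_apply SuzukiG.valid (Nat.le_add_left 1 _) (letters_le l) x

theorem letterP_run (l : Fin 7) (x : Fin 1782) : (letterP l x : ℕ) = run [(l : ℕ) + 1] x :=
  letterP_apply l x

/-- The group. -/
noncomputable def S : Subgroup (Equiv.Perm (Fin 1782)) := phi.range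

theorem S_closure : S = Subgroup.closure (Set.range letterP) := by
  rw [S, MonoidHom.range_eq_map, ← PresentedGroup.closure_range_of, MonoidHom.map_closure]
  congr 1
  ext p
  constructor
  · rintro ⟨_, ⟨a, rfl⟩, rfl⟩
    obtain ⟨l, rfl⟩ := genOf_surjective a
    exact ⟨l, rfl⟩
  · rintro ⟨l, rfl⟩
    exact ⟨_, ⟨genOf l, rfl⟩, rfl⟩

theorem phi_injective : Function.Injective phi := by
  obtain ⟨hs, -⟩ := CosetEnum.Suzuki.main
  rw [← MonoidHom.ker_eq_bot_iff]
  rcases hs.eq_bot_or_eq_top_of_normal phi.ker inferInstance with h | h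
  · exact h
  · exfalso
    have h1 : letterP 0 = 1 := MonoidHom.mem_ker.1 (h ▸ Subgroup.mem_top _)
    have h2 : ∀ x : Fin 1782, SuzukiG.data.look 1 x = (x : ℕ) := fun x => by
      have := letterP_apply 0 x
      rw [h1] at this
      exact this.symm
    revert h2
    decide +kernel

theorem card_S : Nat.card ↥S = 448345497600 := by
  obtain ⟨-, hcard⟩ := CosetEnum.Suzuki.main
  rw [← hcard]
  exact (Nat.card_congr (MonoidHom.ofInjective phi_injective).toEquiv).symm

theorem exists_equiv :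
    ∃ e : Cfsg.Spor.Suz ⧸ gSub ≃ Fin 1782,
      (∀ g q, e (g • q) = phi g (e q)) ∧ e ((1 : Cfsg.Spor.Suz) : Cfsg.Spor.Suz ⧸ gSub) = 0 := by
  rw [← gSub_eq]
  obtain ⟨φ, hof, e, he, h1⟩ :=
    enum_spec SuzukiG.valid SuzukiG.word_letters SuzukiG.base_letters
  have hφ : φ = phi := PresentedGroup.ext fun a => (hof a).trans (phi_of a).symm
  subst hφ
  exact ⟨e, he, h1⟩

theorem phi_fix_iff (g : Cfsg.Spor.Suz) : phi g 0 = (0 : Fin 1782) ↔ g ∈ gSub := by
  obtain ⟨e, he, h1⟩ := exists_equiv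
  have h2 : phi g 0 = e (g : Cfsg.Spor.Suz ⧸ gSub) := by
    rw [← h1, ← he, MulAction.Quotient.smul_coe, smul_eq_mul, mul_one]
  conv_lhs => rw [h2, ← h1, e.apply_eq_iff_eq, QuotientGroup.eq, mul_one]
  exact gSub.inv_mem_iff

instance transitive : MulAction.IsPretransitive ↥S (Fin 1782) := by
  obtain ⟨e, he, h1⟩ := exists_equiv
  refine ⟨fun x y => ?_⟩
  obtain ⟨g, hg⟩ := MulAction.exists_smul_eq Cfsg.Spor.Suz (e.symm x) (e.symm y)
  refine ⟨⟨phi g, g, rfl⟩, ?_⟩
  show phi g x = y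
  have h2 := he g (e.symm x)
  rw [hg, e.apply_symm_apply, e.apply_symm_apply] at h2
  exact h2.symm

theorem stab_map :
    (MulAction.stabilizer ↥S (0 : Fin 1782)).map S.subtype = gSub.map phi := by
  ext p
  constructor
  · rintro ⟨⟨q, g, rfl⟩, hq, rfl⟩
    exact ⟨g, (phi_fix_iff g).1 hq, rfl⟩
  · rintro ⟨g, hg, rfl⟩
    exact ⟨⟨phi g, g, rfl⟩, (phi_fix_iff g).2 hg, rfl⟩

theorem inf_stab :
    S ⊓ MulAction.stabilizer (Equiv.Perm (Fin 1782)) (0 : Fin 1782) = gSub.map phi := by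
  ext p
  constructor
  · rintro ⟨⟨g, rfl⟩, hq⟩
    exact ⟨g, (phi_fix_iff g).1 hq, rfl⟩
  · rintro ⟨g, hg, rfl⟩
    exact ⟨⟨g, rfl⟩, (phi_fix_iff g).2 hg⟩

theorem map_gSub :
    gSub.map phi = Subgroup.closure (Set.range fun j : Fin 6 => letterP j.castSucc) := by
  rw [gSub_closure, MonoidHom.map_closure, ← Set.range_comp]
  congr 1
  refine congrArg Set.range (funext fun j => ?_)
  show phi (PresentedGroup.mk _ (SuzukiG.data.act FreeGroup.of ((j : ℕ) + 1))) = letterP j.castSucc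
  rw [PresData.map_act SuzukiG.data (PresentedGroup.mk _), PresData.map_act SuzukiG.data phi]
  rw [show (phi ∘ PresentedGroup.mk _ ∘ FreeGroup.of) = PresData.genPerm SuzukiG.valid from
    funext phi_of]
  erw [PresData.act_genPerm SuzukiG.valid (Nat.le_add_left 1 _) (letters_le j.castSucc)]
  exact (letterP_eq j.castSucc).symm

theorem S0_closure :
    (S ⊓ MulAction.stabilizer (Equiv.Perm (Fin 1782)) (0 : Fin 1782)) =
      Subgroup.closure (Set.range fun j : Fin 6 => letterP j.castSucc) :=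
  inf_stab.trans map_gSub

theorem card_S0 : Nat.card ↥(MulAction.stabilizer ↥S (0 : Fin 1782)) = 251596800 := by
  have h := MulAction.index_stabilizer_of_transitive ↥S (0 : Fin 1782)
  have h2 := (MulAction.stabilizer ↥S (0 : Fin 1782)).card_mul_index
  rw [h, Nat.card_eq_fintype_card (α := Fin 1782), Fintype.card_fin, card_S] at h2
  omega

theorem subs_length : SuzukiG.data.subs.length = 6 := by decide +kernel

theorem subs_getD : ∀ j < 6, SuzukiG.data.subs.getD j [] = [j + 1] := by decide +kernel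

theorem mem_subs : ∀ j : Fin 6, [(j : ℕ) + 1] ∈ SuzukiG.data.subs := by decide +kernel

/-- A certified interval is an orbit of the stabiliser of the point `0`. -/
theorem orbit_of_interval (O : OrbitData) (hO : O.Valid SuzukiG.data) (q : Fin 1782)
    (hq : (q : ℕ) = O.ord.get 32 O.lo) :
    (MulAction.orbit ↥(MulAction.stabilizer ↥S (0 : Fin 1782)) q).ncard = O.hi - O.lo := by
  classical
  obtain ⟨hlh, hok⟩ := hO
  have hlt : ∀ r, O.lo ≤ r → r < O.hi → O.ord.get 32 r < 1782 := fun r h1 h2 => by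
    have h := hok r h1 h2
    rw [OrbitData.ok, Bool.and_eq_true] at h
    exact Nat.le_of_ble_eq_true h.1
  let pt : {r // O.lo ≤ r ∧ r < O.hi} → Fin 1782 := fun r =>
    ⟨O.ord.get 32 r.1, hlt r.1 r.2.1 r.2.2⟩
  have hq' : q = pt ⟨O.lo, le_rfl, hlh⟩ := Fin.ext hq
  let A : Set (Fin 1782) := Set.range pt
  set K := Subgroup.closure (Set.range fun j : Fin 6 => letterP j.castSucc) with hK
  have hKS : (MulAction.stabilizer ↥S (0 : Fin 1782)).map S.subtype = K :=
    stab_map.trans map_gSub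
  have hinv : ∀ p ∈ K, ∀ x ∈ A, p x ∈ A := by
    intro p hp
    rw [hK, ← Subgroup.mem_toSubmonoid, Subgroup.closure_toSubmonoid_of_finite] at hp
    induction hp using Submonoid.closure_induction with
    | one => exact fun x hx => hx
    | mul a b _ _ ha hb' => exact fun x hx => ha _ (hb' x hx)
    | mem s hs =>
      obtain ⟨j, rfl⟩ := hs
      rintro _ ⟨⟨r, hr1, hr2⟩, rfl⟩
      have h := hok r hr1 hr2
      simp only [OrbitData.ok, Bool.and_eq_true] at h
      have hu' := List.all_eq_true.1 h.2.2.1 _ (mem_subs j)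
      simp only [Bool.and_eq_true] at hu'
      obtain ⟨hy1, hy2, hy3⟩ := hu'
      refine ⟨⟨_, Nat.le_of_ble_eq_true hy1, Nat.le_of_ble_eq_true hy2⟩, Fin.ext ?_⟩
      rw [letterP_apply]
      exact Nat.eq_of_beq_eq_true hy3
  have hreach : ∀ (r : ℕ) (h1 : O.lo ≤ r) (h2 : r < O.hi), ∃ g ∈ K, g q = pt ⟨r, h1, h2⟩ := by
    intro r
    induction r using Nat.strong_induction_on with
    | _ r ih =>
      intro h1 h2
      have h := hok r h1 h2
      simp only [OrbitData.ok, Bool.and_eq_true, Bool.or_eq_true] at h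
      rcases h.2.2.2 with hr | ⟨hp1, hp2, hj, hrun⟩
      · obtain rfl := Nat.eq_of_beq_eq_true hr
        exact ⟨1, K.one_mem, hq'⟩
      · set p := Nat.div (O.par.get 32 r) 256
        set j := Nat.mod (O.par.get 32 r) 256
        have hp2' : p < r := Nat.le_of_ble_eq_true hp2
        obtain ⟨g, hg, heg⟩ := ih p hp2' (Nat.le_of_ble_eq_true hp1) (hp2'.trans h2)
        have hj' : j < 6 := subs_length ▸ Nat.le_of_ble_eq_true hj
        refine ⟨letterP (⟨j, hj'⟩ : Fin 6).castSucc * g,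
          K.mul_mem (Subgroup.subset_closure ⟨⟨j, hj'⟩, rfl⟩) hg, ?_⟩
        rw [Equiv.Perm.mul_apply, heg]
        refine Fin.ext ?_
        rw [letterP_apply]
        rw [subs_getD j hj'] at hrun
        exact Nat.eq_of_beq_eq_true hrun
  have horb : MulAction.orbit ↥(MulAction.stabilizer ↥S (0 : Fin 1782)) q = A := by
    refine Set.Subset.antisymm ?_ ?_
    · rintro _ ⟨g, rfl⟩
      show ((g : ↥S) : Equiv.Perm (Fin 1782)) q ∈ A
      exact hinv _ (hKS ▸ ⟨(g : ↥S), g.2, rfl⟩) _ (hq' ▸ ⟨_, rfl⟩)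
    · rintro _ ⟨⟨r, h1, h2⟩, rfl⟩
      obtain ⟨g, hg, heg⟩ := hreach r h1 h2
      rw [← hKS] at hg
      obtain ⟨g', hg', rfl⟩ := hg
      exact ⟨⟨g', hg'⟩, heg⟩
  have hinj : Function.Injective pt := by
    intro a b hab
    have ha := hok a.1 a.2.1 a.2.2
    have hb' := hok b.1 b.2.1 b.2.2
    simp only [OrbitData.ok, Bool.and_eq_true] at ha hb'
    have e1 := Nat.eq_of_beq_eq_true ha.2.1
    have e2 := Nat.eq_of_beq_eq_true hb'.2.1
    have e3 : O.ord.get 32 a.1 = O.ord.get 32 b.1 := congrArg Fin.val hab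
    rw [e3, e2] at e1
    exact Subtype.ext e1.symm
  rw [horb, Set.ncard_range_of_injective hinj,
    Nat.card_congr (Equiv.subtypeEquivRight (q := fun r => r ∈ Finset.Ico O.lo O.hi)
      (fun r => by simp)), Nat.card_eq_fintype_card, Fintype.card_coe, Nat.card_Ico]

theorem orbit_Q :
    (MulAction.orbit ↥(MulAction.stabilizer ↥S (0 : Fin 1782)) (47 : Fin 1782)).ncard = 416 :=
  orbit_of_interval SuzukiG.orbit0 SuzukiG.orbit0_valid 47 (by decide +kernel)

theorem orbit_R :
    (MulAction.orbit ↥(MulAction.stabilizer ↥S (0 : Fin 1782)) (1 : Fin 1782)).ncard = 1365 :=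
  orbit_of_interval SuzukiG.orbit1 SuzukiG.orbit1_valid 1 (by decide +kernel)

/-- The point stabiliser is `G₂(4)`. -/
theorem model_iso {K : Type} [Field K] [Fintype K] (hK : Fintype.card K = 4) :
    Nonempty (Cfsg.Lie.chevG2.group K ≃* ↥(MulAction.stabilizer ↥S (0 : Fin 1782))) := by
  obtain ⟨K', _, _, hK', ⟨e⟩⟩ := gSub_iso
  refine ⟨((ChevGrp.groupEquiv Cfsg.Lie.chevG2
    (FiniteField.ringEquivOfCardEq (K := K) (K' := K') (hK.trans hK'.symm))).trans e.symm).trans
    ((gSub.equivMapOfInjective phi phi_injective).trans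
      ((MulEquiv.subgroupCongr stab_map.symm).trans
        (Subgroup.equivMapOfInjective _ S.subtype S.subtype_injective).symm))⟩


theorem Big_eq_S : Big = S := by
  rw [S_closure, Big]
  exact congrArg (fun f => Subgroup.closure (Set.range f)) (funext fun l => (letterP_eq l).symm)

theorem Gam_eq : Gam = S ⊓ MulAction.stabilizer (Equiv.Perm (Fin 1782)) (0 : Fin 1782) := by
  rw [S0_closure, Gam]
  exact congrArg (fun f => Subgroup.closure (Set.range f))
    (funext fun j => (letterP_eq j.castSucc).symm)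

theorem Gam_eq_map : Gam = (MulAction.stabilizer ↥S (0 : Fin 1782)).map S.subtype :=
  Gam_eq.trans (inf_stab.trans stab_map.symm)

theorem card_Big : Nat.card ↥Big = 448345497600 := by
  rw [Big_eq_S]
  exact card_S

/-- The isomorphism of the stabiliser with `Gam`. -/
theorem exists_stab_equiv : Nonempty (↥(MulAction.stabilizer ↥S (0 : Fin 1782)) ≃* ↥Gam) :=
  ⟨(Subgroup.equivMapOfInjective _ S.subtype S.subtype_injective).trans
    (MulEquiv.subgroupCongr Gam_eq_map.symm)⟩

theorem card_Gam : Nat.card ↥Gam = 251596800 := by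
  obtain ⟨e⟩ := exists_stab_equiv
  rw [← Nat.card_congr e.toEquiv]
  exact card_S0

theorem orbit_Gam_eq (q : Fin 1782) :
    MulAction.orbit ↥Gam q = MulAction.orbit ↥(MulAction.stabilizer ↥S (0 : Fin 1782)) q := by
  ext y
  constructor
  · rintro ⟨⟨g, hg⟩, rfl⟩
    rw [Gam_eq_map] at hg
    obtain ⟨g', hg', rfl⟩ := hg
    exact ⟨⟨g', hg'⟩, rfl⟩
  · rintro ⟨g, rfl⟩
    exact ⟨⟨(g : ↥S), by rw [Gam_eq_map]; exact ⟨(g : ↥S), g.2, rfl⟩⟩, rfl⟩

theorem orbit_Gam_Q : (MulAction.orbit ↥Gam (47 : Fin 1782)).ncard = 416 := by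
  rw [orbit_Gam_eq]
  exact orbit_Q

theorem orbit_Gam_R : (MulAction.orbit ↥Gam (1 : Fin 1782)).ncard = 1365 := by
  rw [orbit_Gam_eq]
  exact orbit_R

theorem transitive_Big : MulAction.IsPretransitive ↥Big (Fin 1782) := by
  rw [Big_eq_S]
  infer_instance

/-- `Gam` is `G₂(4)`. -/
theorem model_iso_Gam {K : Type} [Field K] [Fintype K] (hK : Fintype.card K = 4) :
    Nonempty (Cfsg.Lie.chevG2.group K ≃* ↥Gam) := by
  obtain ⟨e⟩ := model_iso hK
  obtain ⟨f⟩ := exists_stab_equiv
  exact ⟨e.trans f⟩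

end Cfsg.Agent.SuzRank
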