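import Cfsg.Agent.SuzRank.ElemData

/-! Machine-generated checks of tables. -/

set_option autoImplicit false
set_option maxRecDepth 100000

namespace Cfsg.Agent.SuzRank

open Cfsg.Agent.CosetCert

theorem aux_ok0 : tabCheck auxT0 [gT2] = true := by decide +kernel

theorem aux_ok1 : tabCheck auxT1 [gT5] = true := by decide +kernel

theorem aux_ok2 : tabCheck auxT2 [gT4] = true := by decide +kernel

theorem aux_ok3 : tabCheck auxT3 [gT0] = true := by decide +kernel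

theorem aux_ok4 : tabCheck auxT4 [gT3, gT2, gT3] = true := by decide +kernel

theorem aux_ok5 : tabCheck auxT5 [gT1, gT0, gT1, gT5, gT0, gT1] = true := by decide +kernel

theorem aux_ok6 : tabCheck auxT6 [gT1, gT0, gT2, gT1, gT3, gT2, gT1, gT0, gT1, gT3, gT0, gT1, gT2, gT3, gT1, gT2, gT0, gT1, gT3] = true := by decide +kernel

theorem aux_ok7 : tabCheck auxT7 [gT3, gT1, gT0, gT2, gT1, gT3, gT2, gT1, gT0, gT1, gT3, gT0, gT1, gT2, gT3, gT1, gT2, gT0, gT1] = true := by decide +kernel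

theorem aux_ok8 : tabCheck auxT8 [gT1, gT0, gT1, gT2, gT1, gT0, gT3, gT4, gT5, gT2, gT5, gT4, gT1, gT0, gT1, gT2, gT3, gT2, gT1] = true := by decide +kernel

theorem aux_ok9 : tabCheck auxT9 [gT3, gT1, gT0, gT1, gT2, gT1, gT0, gT3, gT4, gT5, gT2, gT5, gT4, gT1, gT0, gT1, gT2, gT3, gT2, gT1, gT3] = true := by decide +kernel

theorem aux_ok10 : tabCheck auxT10 [gT3, gT4, gT1, gT2, gT3, gT2, gT1, gT0, gT1, gT4, gT5, gT2, gT5, gT4, gT3, gT0, gT1, gT2, gT1, gT2, gT1, gT3, gT2, gT1, gT0, gT1, gT3, gT0, gT1, gT2, gT3, gT1, gT2, gT0, gT1, gT4, gT3] = true := by decide +kernel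

theorem aux_ok11 : tabCheck auxT11 [gT3, gT4, gT1, gT0, gT2, gT1, gT3, gT2, gT1, gT0, gT1, gT3, gT0, gT1, gT2, gT3, gT1, gT2, gT1, gT2, gT1, gT0, gT3, gT4, gT5, gT2, gT5, gT4, gT1, gT0, gT1, gT2, gT3, gT2, gT1, gT4, gT3] = true := by decide +kernel

theorem aux_ok12 : tabCheck auxT12 [gT3, gT4, gT1, gT2, gT3, gT2, gT1, gT0, gT1, gT4, gT5, gT2, gT5, gT4, gT3, gT0, gT1, gT2, gT5, gT1, gT2, gT1, gT0, gT3, gT4, gT5, gT2, gT5, gT4, gT1, gT0, gT1, gT2, gT3, gT2, gT1, gT4, gT3] = true := by decide +kernel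

theorem aux_ok13 : tabCheck auxT13 [gT3, gT4, gT1, gT2, gT3, gT2, gT1, gT0, gT1, gT4, gT5, gT2, gT5, gT4, gT3, gT0, gT1, gT2, gT1, gT0, gT1, gT2, gT1, gT0, gT1, gT2, gT1, gT0, gT3, gT4, gT5, gT2, gT5, gT4, gT1, gT0, gT1, gT2, gT3, gT2, gT1, gT4, gT3] = true := by decide +kernel

end Cfsg.Agent.SuzRank
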