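import Cfsg.Agent.SuzRank.ElemData

/-! Machine-generated checks of tables. -/

set_option autoImplicit false
set_option maxRecDepth 100000

namespace Cfsg.Agent.SuzRank

open Cfsg.Agent.CosetCert

theorem aux_ok14 : tabCheck auxT14 [gT3, gT4, gT1, gT0, gT1, gT2, gT1, gT0, gT3, gT4, gT5, gT2, gT5, gT4, gT1, gT0, gT1, gT2, gT3, gT2, gT1, gT3, gT1, gT0, gT1, gT2, gT1, gT0, gT3, gT4, gT5, gT2, gT5, gT4, gT1, gT0, gT1, gT2, gT3, gT2, gT1, gT4, gT3] = true := by decide +kernel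

theorem aux_ok15 : tabCheck auxT15 [gT3, gT4, gT1, gT2, gT3, gT2, gT1, gT0, gT1, gT4, gT5, gT2, gT5, gT4, gT3, gT0, gT1, gT2, gT1, gT0, gT1, gT3, gT4, gT1, gT0, gT1, gT2, gT1, gT0, gT3, gT4, gT5, gT2, gT5, gT4, gT1, gT0, gT1, gT2, gT3, gT2, gT1, gT4, gT3] = true := by decide +kernel

theorem aux_ok16 : tabCheck auxT16 [gT3, gT4, gT1, gT2, gT3, gT2, gT1, gT0, gT1, gT4, gT5, gT2, gT5, gT4, gT3, gT0, gT1, gT2, gT1, gT0, gT1, gT4, gT3, gT1, gT0, gT1, gT2, gT1, gT0, gT3, gT4, gT5, gT2, gT5, gT4, gT1, gT0, gT1, gT2, gT3, gT2, gT1, gT4, gT3] = true := by decide +kernel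

theorem aux_ok17 : tabCheck auxT17 [gT3, gT4, gT1, gT2, gT3, gT2, gT1, gT0, gT1, gT4, gT5, gT2, gT5, gT4, gT3, gT0, gT1, gT2, gT1, gT0, gT1, gT3, gT2, gT3, gT1, gT0, gT1, gT2, gT1, gT0, gT3, gT4, gT5, gT2, gT5, gT4, gT1, gT0, gT1, gT2, gT3, gT2, gT1, gT4, gT3] = true := by decide +kernel

theorem aux_ok18 : tabCheck auxT18 [gT3, gT4, gT1, gT2, gT3, gT2, gT1, gT0, gT1, gT4, gT5, gT2, gT5, gT4, gT3, gT0, gT1, gT2, gT1, gT0, gT1, gT3, gT1, gT0, gT1, gT2, gT1, gT0, gT3, gT4, gT5, gT2, gT5, gT4, gT1, gT0, gT1, gT2, gT3, gT2, gT0, gT1, gT2, gT1, gT0, gT3, gT4, gT5, gT2, gT5, gT4, gT1, gT0, gT1, gT2, gT3, gT2, gT1, gT4, gT3] = true := by decide +kernel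

theorem aux_ok19 : tabCheck auxT19 [gT3, gT4, gT1, gT2, gT3, gT2, gT1, gT0, gT1, gT4, gT5, gT2, gT5, gT4, gT3, gT0, gT1, gT2, gT1, gT0, gT1, gT3, gT1, gT0, gT2, gT1, gT3, gT2, gT1, gT0, gT1, gT3, gT0, gT1, gT2, gT3, gT1, gT2, gT0, gT1, gT3, gT1, gT0, gT1, gT2, gT1, gT0, gT3, gT4, gT5, gT2, gT5, gT4, gT1, gT0, gT1, gT2, gT3, gT2, gT1, gT4, gT3] = true := by decide +kernel

end Cfsg.Agent.SuzRank
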