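import Cfsg.Agent.SuzRank.ElemData

/-! Machine-generated checks of tables. -/

set_option autoImplicit false
set_option maxRecDepth 100000

namespace Cfsg.Agent.SuzRank

open Cfsg.Agent.CosetCert

theorem nam_ok0 : tabCheck nT0 [auxT3] = true := by decide +kernel

theorem nam_ok1 : tabCheck nT1 [auxT1] = true := by decide +kernel

theorem nam_ok2 : tabCheck nT2 [auxT0, auxT1, auxT3] = true := by decide +kernel

theorem nam_ok3 : tabCheck nT3 [auxT1, auxT12, auxT12, auxT0, auxT12] = true := by decide +kernel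

theorem nam_ok4 : tabCheck nT4 [auxT12, auxT9, auxT5, auxT12, auxT18, auxT15] = true := by decide +kernel

theorem nam_ok5 : tabCheck nT5 [auxT0, auxT4, auxT5, auxT8, auxT12, auxT9, auxT12] = true := by decide +kernel

theorem nam_ok6 : tabCheck nT6 [auxT9, auxT5, auxT12, auxT8, auxT12] = true := by decide +kernel

theorem nam_ok7 : tabCheck nT7 [auxT8, auxT12, auxT5, auxT7, auxT12] = true := by decide +kernel

theorem nam_ok8 : tabCheck nT8 [auxT5, auxT5, auxT9, auxT12, auxT8] = true := by decide +kernel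

theorem nam_ok9 : tabCheck nT9 [auxT1, auxT9, auxT12, auxT6, auxT5, auxT12] = true := by decide +kernel

theorem nam_ok10 : tabCheck nT10 [auxT5, auxT9, auxT12, auxT7, auxT12, auxT16] = true := by decide +kernel

theorem nam_ok11 : tabCheck nT11 [auxT5, auxT12, auxT6, auxT12, auxT18, auxT9] = true := by decide +kernel

theorem nam_ok12 : tabCheck nT12 [auxT2, auxT5, auxT12, auxT16, auxT11, auxT12] = true := by decide +kernel

theorem nam_ok13 : tabCheck nT13 [auxT5, auxT15, auxT7, auxT5, auxT18] = true := by decide +kernel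

theorem nam_ok14 : tabCheck nT14 [gT4, gT0, gT1, gT2, gT3, gT2, gT1, gT3, gT1, gT0, gT1, gT2, gT1, gT0, gT3, gT4, gT5, gT2, gT5, gT4, gT1, gT0, gT1, gT2, gT3, gT2, gT1, gT4, gT3, auxT0, auxT16, auxT8, auxT5, auxT9] = true := by decide +kernel

theorem nam_ok15 : tabCheck nT15 [gT3, gT1, gT0, gT1, gT2, gT1, gT0, gT3, gT4, gT5, gT2, gT5, gT4, gT1, gT0, gT1, gT2, gT3, gT2, gT1, gT4, gT3, auxT5, auxT8, auxT12, auxT12, auxT10, auxT9] = true := by decide +kernel

theorem nam_ok16 : tabCheck nT16 [gT1, gT5, gT2, gT1, auxT9, auxT17, auxT5, auxT15, auxT7] = true := by decide +kernel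

end Cfsg.Agent.SuzRank
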