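import Cfsg.Agent.SuzRank.ElemData

/-! Machine-generated checks of tables. -/

set_option autoImplicit false
set_option maxRecDepth 100000

namespace Cfsg.Agent.SuzRank

open Cfsg.Agent.CosetCert

theorem nam_ok17 : tabCheck nT17 [] = true := by decide +kernel

theorem nam_ok18 : tabCheck nT18 [gT3, gT1, gT0, gT1, gT2, gT1, gT0, gT3, gT4, gT5, gT2, gT5, gT4, gT1, gT0, gT1, gT2, gT3, gT2, gT1, gT4, gT3, auxT5, auxT8, auxT12, auxT12, auxT10, auxT9] = true := by decide +kernel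

theorem nam_ok19 : tabCheck nT19 [gT1, gT5, gT2, gT1, auxT9, auxT17, auxT5, auxT15, auxT7] = true := by decide +kernel

theorem nam_ok20 : tabCheck nT20 [gT1, gT5, gT2, gT1, gT4, gT3, auxT5, auxT19, auxT9, auxT5, auxT19] = true := by decide +kernel

theorem nam_ok21 : tabCheck nT21 [gT4, gT0, gT1, gT2, gT3, gT2, gT1, auxT0, auxT5, auxT13, auxT12, auxT0] = true := by decide +kernel

theorem nam_ok22 : tabCheck nT22 [gT4, gT0, gT1, gT2, gT3, gT2, gT1, gT3, gT1, gT0, gT1, gT2, gT1, gT0, gT3, gT4, gT5, gT2, gT5, gT4, gT1, gT0, gT1, gT2, gT3, gT2, gT1, gT4, gT3, auxT0, auxT16, auxT8, auxT5, auxT9] = true := by decide +kernel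

theorem nam_ok23 : tabCheck nT23 [gT1, gT2, gT3, gT4, gT1, gT0, gT1, gT2, gT3, gT2, gT1, gT3, auxT11, auxT5, auxT0, auxT3] = true := by decide +kernel

theorem nam_ok24 : tabCheck nT24 [gT1, gT2, gT3, gT4, gT1, gT0, gT1, gT2, gT3, gT2, gT1, gT3, gT1, gT0, gT1, gT2, gT1, gT0, gT3, gT4, gT5, gT2, gT5, gT4, gT1, gT0, gT1, gT2, gT3, gT2, gT1, gT4, gT3, auxT2, auxT12, auxT7, auxT9, auxT5, auxT12] = true := by decide +kernel

theorem nam_ok25 : tabCheck nT25 [gT3, gT1, gT2, gT3, gT4, gT1, gT2, gT3, gT2, gT1, gT3, auxT0, auxT6, auxT12, auxT12, auxT9] = true := by decide +kernel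

theorem nam_ok26 : tabCheck nT26 [gT3, gT1, gT2, gT3, gT4, gT1, gT2, gT3, gT2, gT0, gT1, gT2, gT1, gT0, gT3, gT4, gT5, gT2, gT5, gT4, gT1, gT0, gT1, gT2, gT3, gT2, gT1, gT4, gT3, auxT9, auxT5, auxT5, auxT18, auxT12] = true := by decide +kernel

theorem nam_ok27 : tabCheck nT27 [gT1, gT2, gT3, gT0, gT1, gT0, gT1, gT2, gT3, gT4, gT1, gT2, gT3, gT2, gT1, auxT9, auxT10, auxT5, auxT9] = true := by decide +kernel

theorem nam_ok28 : tabCheck nT28 [gT1, gT2, gT3, gT0, gT1, gT0, gT1, gT2, gT3, gT4, gT1, gT2, gT3, gT2, gT0, gT1, gT2, gT1, gT0, gT3, gT4, gT5, gT2, gT5, gT4, gT1, gT0, gT1, gT2, gT3, gT2, gT1, gT4, gT3, auxT1, auxT15, auxT5, auxT18, auxT9, auxT12] = true := by decide +kernel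

end Cfsg.Agent.SuzRank
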