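import Cfsg.Agent.SuzRank.Perms
import Cfsg.Agent.SuzRank.ElemCheck0
import Cfsg.Agent.SuzRank.ElemCheck1
import Cfsg.Agent.SuzRank.ElemCheck2
import Cfsg.Agent.SuzRank.ElemCheck3

/-!
Named elements of the group fixing `0`: twelve generators of a Sylow 2-subgroup, two generators of a
torus, and monomial elements.
-/

set_option autoImplicit false
set_option maxRecDepth 100000

namespace Cfsg.Agent.SuzRank

open Cfsg.Agent.CosetCert

/-- The table of a named element. -/
noncomputable def nimg (i x : ℕ) : ℕ := (nTs.getD i (.leaf 0)).get 16 x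

/-- An auxiliary element. -/
noncomputable def ael (i : ℕ) : Equiv.Perm (Fin 1782) := lw (auxW.getD i [])

/-- The element of an extended letter. -/
noncomputable def xel (l : ℕ) : Equiv.Perm (Fin 1782) := if l < 6 then lw [l] else ael (l - 6)

/-- A named element. -/
noncomputable def nel (i : ℕ) : Equiv.Perm (Fin 1782) := ((namedW.getD i []).map xel).prod

theorem nel_mem (i : ℕ) : nel i ∈ Gam := by
  refine list_prod_mem fun g hg => ?_
  obtain ⟨l, -, rfl⟩ := List.mem_map.1 hg
  unfold xel
  split_ifs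
  exacts [lw_mem _, lw_mem _]

/-- A table describes a permutation. -/
def TabOK (t : PTree) (g : Equiv.Perm (Fin 1782)) : Prop := ∀ x : Fin 1782, (g x : ℕ) = t.get 16 x

theorem gen_tables : (List.range 6).all (fun l => allB (fun x => Nat.ble 1782 x ||
    Nat.beq ((xTs.getD l (.leaf 0)).get 16 x) (SuzukiG.data.look (l + 1) x)) 11 0) = true := by
  decide +kernel

theorem table_get {f : ℕ → Bool} (h : allB (fun x => Nat.ble 1782 x || f x) 11 0 = true)
    (x : Fin 1782) : f x = true := by
  have := allB_spec_zero h (by norm_num : 1782 ≤ 2 ^ 11) x.2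
  rw [Bool.or_eq_true] at this
  exact this.resolve_left (fun hc => absurd (Nat.le_of_ble_eq_true hc) (not_le.2 x.2))

theorem tab_gen (l : ℕ) (hl : l < 6) : TabOK (xTs.getD l (.leaf 0)) (xel l) := by
  intro x
  rw [xel, if_pos hl, lw_val (by simp [hl]) x]
  exact (Nat.eq_of_beq_eq_true (table_get (List.all_eq_true.1 gen_tables l (List.mem_range.2 hl)) x)).symm

theorem tab_word {t : PTree} {ts : List PTree} {w : List ℕ} (h : tabCheck t ts = true)
    (hts : ts = w.map fun l => xTs.getD l (.leaf 0))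
    (hw : ∀ l ∈ w, TabOK (xTs.getD l (.leaf 0)) (xel l)) : TabOK t (w.map xel).prod := by
  intro x
  rw [Nat.eq_of_beq_eq_true (table_get h x), hts]
  clear h hts
  induction w with
  | nil => rfl
  | cons l w ih =>
    rw [List.map_cons, List.prod_cons, Equiv.Perm.mul_apply, List.map_cons,
      hw l (List.mem_cons_self ..), ih fun m hm => hw m (List.mem_cons_of_mem _ hm)]
    rfl

theorem xel_aux (i : ℕ) (w : List ℕ) (hw : auxW.getD i [] = w) (h6 : w.all (fun l => Nat.blt l 6) = true)
    {t : PTree} (h : tabCheck t (w.map fun l => xTs.getD l (.leaf 0)) = true) :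
    TabOK t (xel (6 + i)) := by
  have e : xel (6 + i) = (w.map xel).prod := by
    rw [xel, if_neg (by omega), Nat.add_sub_cancel_left, ael, hw]
    clear hw h
    induction w with
    | nil => rfl
    | cons l w ih =>
      rw [List.all_cons, Bool.and_eq_true] at h6
      have hl : l < 6 := Nat.le_of_ble_eq_true h6.1
      rw [List.map_cons, List.prod_cons, ← ih h6.2, xel, if_pos hl]
      simp [lw]
  rw [e]
  refine tab_word h rfl fun l hl => tab_gen l ?_
  exact Nat.le_of_ble_eq_true (List.all_eq_true.1 h6 l hl)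

theorem aux_tab : ∀ i < 20, TabOK (xTs.getD (6 + i) (.leaf 0)) (xel (6 + i)) := by
  intro i hi
  interval_cases i
  · exact xel_aux 0 _ rfl (by decide) aux_ok0
  · exact xel_aux 1 _ rfl (by decide) aux_ok1
  · exact xel_aux 2 _ rfl (by decide) aux_ok2
  · exact xel_aux 3 _ rfl (by decide) aux_ok3
  · exact xel_aux 4 _ rfl (by decide) aux_ok4
  · exact xel_aux 5 _ rfl (by decide) aux_ok5
  · exact xel_aux 6 _ rfl (by decide) aux_ok6
  · exact xel_aux 7 _ rfl (by decide) aux_ok7
  · exact xel_aux 8 _ rfl (by decide) aux_ok8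
  · exact xel_aux 9 _ rfl (by decide) aux_ok9
  · exact xel_aux 10 _ rfl (by decide) aux_ok10
  · exact xel_aux 11 _ rfl (by decide) aux_ok11
  · exact xel_aux 12 _ rfl (by decide) aux_ok12
  · exact xel_aux 13 _ rfl (by decide) aux_ok13
  · exact xel_aux 14 _ rfl (by decide) aux_ok14
  · exact xel_aux 15 _ rfl (by decide) aux_ok15
  · exact xel_aux 16 _ rfl (by decide) aux_ok16
  · exact xel_aux 17 _ rfl (by decide) aux_ok17
  · exact xel_aux 18 _ rfl (by decide) aux_ok18
  · exact xel_aux 19 _ rfl (by decide) aux_ok19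

theorem tab_any {l : ℕ} (hl : l < 26) : TabOK (xTs.getD l (.leaf 0)) (xel l) := by
  by_cases h : l < 6
  · exact tab_gen l h
  · obtain ⟨i, rfl⟩ : ∃ i, l = 6 + i := ⟨l - 6, by omega⟩
    exact aux_tab i (by omega)

theorem named_lt : namedW.all (fun w => w.all fun l => Nat.blt l 26) = true := by decide +kernel

theorem nel_tab {i : ℕ} {t : PTree} {ts : List PTree} (h : tabCheck t ts = true)
    (hts : ts = (namedW.getD i []).map fun l => xTs.getD l (.leaf 0)) : TabOK t (nel i) := by
  refine tab_word h hts fun l hl => tab_any ?_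
  by_cases hi : i < namedW.length
  · rw [List.getD_eq_getElem _ _ hi] at hl
    exact Nat.le_of_ble_eq_true (List.all_eq_true.1 (List.all_eq_true.1 named_lt _
      (List.getElem_mem hi)) l hl)
  · rw [List.getD_eq_default _ _ (by omega)] at hl
    simp at hl

theorem nel_val {i : ℕ} (hi : i < 29) (x : Fin 1782) : (nel i x : ℕ) = nimg i x := by
  revert x
  show TabOK (nTs.getD i (.leaf 0)) (nel i)
  interval_cases i
  · exact nel_tab nam_ok0 rfl
  · exact nel_tab nam_ok1 rfl
  · exact nel_tab nam_ok2 rfl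
  · exact nel_tab nam_ok3 rfl
  · exact nel_tab nam_ok4 rfl
  · exact nel_tab nam_ok5 rfl
  · exact nel_tab nam_ok6 rfl
  · exact nel_tab nam_ok7 rfl
  · exact nel_tab nam_ok8 rfl
  · exact nel_tab nam_ok9 rfl
  · exact nel_tab nam_ok10 rfl
  · exact nel_tab nam_ok11 rfl
  · exact nel_tab nam_ok12 rfl
  · exact nel_tab nam_ok13 rfl
  · exact nel_tab nam_ok14 rfl
  · exact nel_tab nam_ok15 rfl
  · exact nel_tab nam_ok16 rfl
  · exact nel_tab nam_ok17 rfl
  · exact nel_tab nam_ok18 rfl
  · exact nel_tab nam_ok19 rfl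
  · exact nel_tab nam_ok20 rfl
  · exact nel_tab nam_ok21 rfl
  · exact nel_tab nam_ok22 rfl
  · exact nel_tab nam_ok23 rfl
  · exact nel_tab nam_ok24 rfl
  · exact nel_tab nam_ok25 rfl
  · exact nel_tab nam_ok26 rfl
  · exact nel_tab nam_ok27 rfl
  · exact nel_tab nam_ok28 rfl

end Cfsg.Agent.SuzRank
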