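import Cfsg.Agent.SuzRank.LatDefs

/-! Certificate checks for the subgroups normalised by the torus, layers 0 to 4. -/

set_option autoImplicit false
set_option maxRecDepth 100000
set_option maxHeartbeats 4000000

namespace Cfsg.Agent.SuzRank

open Cfsg.Agent.CosetCert

theorem tab_checks : allB tabOK 12 0 = true := by decide +kernel

theorem lab_checks : ∀ k < 6, labOK k = true := by decide +kernel

theorem tri_checks : ∀ k < 6, (allB (triOK k) (2 * k) (4 ^ k) &&
    (allB (triOK k) (2 * k) (2 * 4 ^ k) && allB (triOK k) (2 * k) (3 * 4 ^ k))) = true := by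
  decide +kernel

theorem mask_checks : ∀ a < 56, Nat.beq (maskOf (nthL [] latS a)) (nthL 0 latMask a) = true := by
  decide +kernel

theorem steps_0 : stepsOK 0 0 1 = true := by decide +kernel

theorem steps_1 : stepsOK 1 0 2 = true := by decide +kernel

theorem steps_2 : stepsOK 2 0 7 = true := by decide +kernel

theorem steps_3 : stepsOK 3 0 14 = true := by decide +kernel

theorem steps_4 : stepsOK 4 0 22 = true := by decide +kernel

end Cfsg.Agent.SuzRank
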