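import Cfsg.Agent.SuzRank.UGroup
import Cfsg.Agent.SuzRank.LatData
import Cfsg.Agent.SuzRank.LatTab

/-!
The checker for the certificates of `LatData`: subgroups of the Sylow 2-subgroup normalised by
the torus, built layer by layer.
-/

set_option autoImplicit false
set_option maxRecDepth 100000

namespace Cfsg.Agent.SuzRank

open Cfsg.Agent.CosetCert

/-- Entry of a list, for the kernel. -/
noncomputable def nthL {α : Type} (d : α) (l : List α) : ℕ → α :=
  List.rec (motive := fun _ => ℕ → α) (fun _ => d)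
    (fun x _ ih n => Nat.rec (motive := fun _ => α) x (fun m _ => ih m) n) l

/-- All entries. -/
noncomputable def allL (f : ℕ → Bool) (l : List ℕ) : Bool :=
  List.rec (motive := fun _ => Bool) true (fun x _ ih => f x && ih) l

/-- Some entry. -/
noncomputable def anyL (f : ℕ → Bool) (l : List ℕ) : Bool :=
  List.rec (motive := fun _ => Bool) false (fun x _ ih => f x || ih) l

/-- The bit set of a list. -/
noncomputable def maskOf (l : List ℕ) : ℕ :=
  List.rec (motive := fun _ => ℕ) 0 (fun x _ ih => Nat.lor (Nat.shiftLeft 1 x) ih) l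

/-- A bit. -/
noncomputable def bitAt (M z : ℕ) : Bool := Nat.beq (Nat.mod (Nat.shiftRight M z) 2) 1

/-- An entry of a flat table. -/
noncomputable def fGet (F i : ℕ) : ℕ := Nat.mod (Nat.shiftRight F (Nat.mul 16 i)) 65536

/-- Right multiplication, from the flat tables. -/
noncomputable def rtG (j i : ℕ) : ℕ := fGet (nthL 0 rtFs j) i

/-- Inversion, from the flat table. -/
noncomputable def invF (i : ℕ) : ℕ := fGet ivF i

/-- Conjugation by a torus generator, from the flat tables. -/
noncomputable def cjF (s i : ℕ) : ℕ := cond (Nat.beq s 0) (fGet cjF0 i) (fGet cjF1 i)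

/-- The flat tables agree with the tables of `UGroup`. -/
noncomputable def tabOK (i : ℕ) : Bool :=
  (Nat.rec (motive := fun _ => Bool) true
      (fun j ih => Nat.beq (rtG j i) (rtN j i) && ih) 12 && Nat.beq (invF i) (invU i)) &&
    (Nat.beq (cjF 0 i) (cjN 0 i) && Nat.beq (cjF 1 i) (cjN 1 i))

/-- Multiplication, from the flat tables. -/
noncomputable def mulF (a b : ℕ) : ℕ :=
  Nat.rec (motive := fun _ => ℕ → ℕ) (fun a => a)
    (fun m ih a => ih (cond (bitAt b m) (rtG m a) a)) 12 a

/-- The label of a coset in a layer. -/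
noncomputable def lab (k i : ℕ) : ℕ := Nat.shiftRight i (Nat.mul 2 k)

/-- The size of a layer. -/
noncomputable def lsz (k : ℕ) : ℕ := Nat.pow 4 k

/-- The layers form a series with elementary abelian quotients. -/
noncomputable def labOK (k : ℕ) : Bool :=
  allB (fun a => Nat.blt (invF a) (lsz (Nat.succ k)) &&
      Nat.rec (motive := fun _ => Bool) true
        (fun j ih => (Nat.blt (rtG j a) (lsz (Nat.succ k)) &&
          Nat.beq (lab k (rtG j a)) (Nat.xor (lab k a) (lab k (Nat.pow 2 j)))) && ih)
        (Nat.mul 2 (Nat.succ k)))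
    (Nat.mul 2 (Nat.succ k)) 0

/-- The torus moves the nonzero labels of a layer cyclically. -/
noncomputable def triOK (k u : ℕ) : Bool :=
  let c := cjF (nthL 0 latTor k) u
  let d := cjF (nthL 0 latTor k) c
  (Nat.blt c (lsz (Nat.succ k)) && Nat.blt d (lsz (Nat.succ k))) &&
    ((!(Nat.beq (lab k c) 0) && !(Nat.beq (lab k d) 0)) &&
      (!(Nat.beq (lab k u) (lab k c)) &&
        (!(Nat.beq (lab k u) (lab k d)) && !(Nat.beq (lab k c) (lab k d)))))

/-- The new elements of a layer with label one. -/
noncomputable def allNew (f : ℕ → Bool) (k : ℕ) : Bool := allB f (Nat.mul 2 k) (lsz k)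

/-- The coset representatives. -/
noncomputable def reps (k u : ℕ) : List ℕ :=
  [0, u, cjF (nthL 0 latTor k) u, cjF (nthL 0 latTor k) (cjF (nthL 0 latTor k) u)]

/-- An element of the union of the cosets. -/
noncomputable def eAt (S R : List ℕ) (m : ℕ) : ℕ :=
  mulF (nthL 0 S (Nat.mod m S.length)) (nthL 0 R (Nat.div m S.length))

/-- Outside all the cosets. -/
noncomputable def notCand (M : ℕ) (R : List ℕ) (z : ℕ) : Bool :=
  allL (fun r => !(bitAt M (mulF z (invF r)))) R

/-- Kind 0: the cosets fill an entry of the next layer. -/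
noncomputable def chk0 (k : ℕ) (S : List ℕ) (M u j : ℕ) : Bool :=
  Nat.blt j (nthL 0 latLevel (Nat.succ k)) &&
    (allL (fun x => allL (fun r => bitAt (nthL 0 latMask j) (mulF x r)) (reps k u)) S &&
      allL (fun z => Nat.blt z (lsz (Nat.succ k)) &&
        anyL (fun r => bitAt M (mulF z (invF r))) (reps k u)) (nthL [] latS j))

/-- Kind 1: a product leaves the cosets. -/
noncomputable def chk1 (k : ℕ) (S : List ℕ) (M u arg : ℕ) : Bool :=
  notCand M (reps k u)
    (mulF (eAt S (reps k u) (Nat.mod arg 64)) (eAt S (reps k u) (Nat.div arg 64)))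

/-- Kind 2: a conjugate leaves the cosets. -/
noncomputable def chk2 (k : ℕ) (S : List ℕ) (M u arg : ℕ) : Bool :=
  Nat.blt (Nat.div arg 64) 2 &&
    (Nat.blt (cjF (Nat.div arg 64) (eAt S (reps k u) (Nat.mod arg 64))) (lsz (Nat.succ k)) &&
      notCand M (reps k u) (cjF (Nat.div arg 64) (eAt S (reps k u) (Nat.mod arg 64))))

/-- Kind 3: another element of the same coset. -/
noncomputable def chk3 (k : ℕ) (S : List ℕ) (t : PTree) (u arg : ℕ) : Bool :=
  (Nat.ble (lsz k) (Nat.div arg 64) && Nat.blt (Nat.div arg 64) (Nat.mul 2 (lsz k))) &&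
    (Nat.beq (mulF (nthL 0 S (Nat.mod arg 64)) (Nat.div arg 64)) u &&
      !(Nat.beq (Nat.mod (t.get 32 (Nat.sub (Nat.div arg 64) (lsz k))) 4) 3))

/-- The check of a certificate word. -/
noncomputable def chkV (k : ℕ) (S : List ℕ) (M : ℕ) (t : PTree) (u v : ℕ) : Bool :=
  cond (Nat.beq (Nat.mod v 4) 0) (chk0 k S M u (Nat.div v 4))
    (cond (Nat.beq (Nat.mod v 4) 1) (chk1 k S M u (Nat.div v 4))
      (cond (Nat.beq (Nat.mod v 4) 2) (chk2 k S M u (Nat.div v 4))
        (chk3 k S t u (Nat.div v 4))))

/-- The check of one entry of a layer. -/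
noncomputable def entOK (k : ℕ) (S : List ℕ) (M : ℕ) (t : PTree) : Bool :=
  Nat.beq S.length 64 || allNew (fun u => chkV k S M t u (t.get 32 (Nat.sub u (lsz k)))) k

/-- The check of the entry `a` of layer `k`. -/
noncomputable def stepOK (k a : ℕ) : Bool :=
  entOK k (nthL [] latS a) (nthL 0 latMask a) (nthL (.leaf 0) (nthL [] latCert k) a)

/-- The check of the entries `lo, ..., lo + n - 1` of layer `k`. -/
noncomputable def stepsOK (k lo n : ℕ) : Bool :=
  Nat.rec (motive := fun _ => Bool) true (fun m ih => stepOK k (Nat.add lo m) && ih) n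

theorem stepsOK_spec {k lo : ℕ} : ∀ {n : ℕ}, stepsOK k lo n = true →
    ∀ a, lo ≤ a → a < lo + n → stepOK k a = true
  | 0, _, a, h1, h2 => absurd h2 (by omega)
  | n + 1, h, a, h1, h2 => by
    have e : stepsOK k lo (n + 1) = (stepOK k (lo + n) && stepsOK k lo n) := rfl
    rw [e, Bool.and_eq_true] at h
    rcases Nat.lt_or_ge a (lo + n) with h3 | h3
    · exact stepsOK_spec h.2 a h1 h3
    · rw [show a = lo + n by omega]
      exact h.1

end Cfsg.Agent.SuzRank
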