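import Cfsg.Agent.SuzRank.ParaFlag

/-!
The orbits of the parabolic subgroups as unions of cells.
-/

set_option autoImplicit false
set_option maxRecDepth 100000

namespace Cfsg.Agent.SuzRank.Para

open Cfsg.Agent.CosetCert
open scoped Pointwise

/-- The points of chosen blocks. -/
noncomputable def blockCount (n : ℕ) (sel : ℕ → Bool) (blk : ℕ → ℕ) (b : List Bool) : ℕ :=
  (List.range n).countP fun i => sel i && b.getD (blk i) false

/-- An invariant set is a union of blocks. -/
theorem blocks {α : Type*} [MulAction (Equiv.Perm (Fin 1782)) α] {n : ℕ} (f : Fin n → α)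
    (sel : ℕ → Bool) (blk : ℕ → ℕ) (rep : ℕ → α) (P : Subgroup (Equiv.Perm (Fin 1782)))
    (hinj : ∀ i j : Fin n, sel i = true → sel j = true → f i = f j → i = j)
    (hblk : ∀ i : Fin n, sel i = true → blk i < 4)
    (hj : ∀ i : Fin n, sel i = true → f i ∈ MulAction.orbit ↥P (rep (blk i)))
    {A : Set α} (hA : ∀ a ∈ A, ∃ i : Fin n, sel i = true ∧ f i = a)
    (hinv : ∀ h ∈ P, ∀ q ∈ A, h • q ∈ A) :
    ∃ b0 b1 b2 b3 : Bool, A.ncard = blockCount n sel blk [b0, b1, b2, b3] ∧
      A = f '' {i | (sel i && [b0, b1, b2, b3].getD (blk i) false) = true} := by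
  classical
  refine ⟨decide (rep 0 ∈ A), decide (rep 1 ∈ A), decide (rep 2 ∈ A), decide (rep 3 ∈ A), ?_⟩
  set b := [decide (rep 0 ∈ A), decide (rep 1 ∈ A), decide (rep 2 ∈ A), decide (rep 3 ∈ A)] with hb
  have hiff : ∀ i : Fin n, sel i = true → (f i ∈ A ↔ b.getD (blk i) false = true) := by
    intro i hi
    have h1 : f i ∈ A ↔ rep (blk i) ∈ A := by
      obtain ⟨⟨h, hh⟩, e⟩ := hj i hi
      have e : h • rep (blk i) = f i := e
      rw [← e]
      refine ⟨fun hm => ?_, fun hm => hinv h hh _ hm⟩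
      have := hinv h⁻¹ (inv_mem hh) _ hm
      rwa [inv_smul_smul] at this
    rw [h1]
    have := hblk i hi
    interval_cases hk : blk i <;> simp [hb]
  have hAeq : A = f '' {i | (sel i && b.getD (blk i) false) = true} := by
    ext a
    constructor
    · intro ha
      obtain ⟨i, hi, rfl⟩ := hA a ha
      exact ⟨i, by simp only [Set.mem_setOf_eq, hi, Bool.true_and]; exact (hiff i hi).1 ha, rfl⟩
    · rintro ⟨i, hi, rfl⟩
      simp only [Set.mem_setOf_eq, Bool.and_eq_true] at hi
      exact (hiff i hi.1).2 hi.2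
  refine ⟨?_, hAeq⟩
  have hinjOn : Set.InjOn f {i | (sel i && b.getD (blk i) false) = true} := by
    intro i hi j hj' e
    simp only [Set.mem_setOf_eq, Bool.and_eq_true] at hi hj'
    exact hinj i j hi.1 hj'.1 e
  rw [hAeq, Set.ncard_image_of_injOn hinjOn, ← Nat.card_coe_set_eq]
  exact card_countP fun i => sel i && b.getD (blk i) false

/-- The orbit of a block. -/
theorem block_orbit {α : Type*} [MulAction (Equiv.Perm (Fin 1782)) α] {n : ℕ} (f : Fin n → α)
    (sel : ℕ → Bool) (blk : ℕ → ℕ) (rep : ℕ → α) (P : Subgroup (Equiv.Perm (Fin 1782)))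
    (hj : ∀ i : Fin n, sel i = true → f i ∈ MulAction.orbit ↥P (rep (blk i)))
    {A : Set α} {b : List Bool} {j : ℕ}
    (hA : A = f '' {i | (sel i && b.getD (blk i) false) = true})
    (hb : ∀ k, b.getD k false = true → k = j)
    (hinv : ∀ h ∈ P, ∀ q ∈ A, h • q ∈ A) {q : α} (hq : q ∈ A) :
    MulAction.orbit ↥P q = A ∧ q ∈ MulAction.orbit ↥P (rep j) := by
  have hmem : ∀ a ∈ A, a ∈ MulAction.orbit ↥P (rep j) := by
    intro a ha
    rw [hA] at ha
    obtain ⟨i, hi, rfl⟩ := ha
    simp only [Set.mem_setOf_eq, Bool.and_eq_true] at hi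
    rw [← hb _ hi.2]
    exact hj i hi.1
  refine ⟨Set.Subset.antisymm ?_ fun a ha => ?_, hmem q hq⟩
  · rintro _ ⟨⟨h, hh⟩, rfl⟩
    exact hinv h hh q hq
  · rw [MulAction.orbit_eq_iff.2 (hmem q hq)]
    exact hmem a ha

theorem card_inf_stab {α : Type*} [MulAction (Equiv.Perm (Fin 1782)) α]
    (P : Subgroup (Equiv.Perm (Fin 1782))) (q : α) :
    (MulAction.orbit ↥P q).ncard *
      Nat.card ↥(P ⊓ MulAction.stabilizer (Equiv.Perm (Fin 1782)) q) = Nat.card ↥P := by
  have e : (P ⊓ MulAction.stabilizer (Equiv.Perm (Fin 1782)) q).subgroupOf P =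
      MulAction.stabilizer ↥P q := by
    ext ⟨x, hx⟩
    simp [Subgroup.mem_subgroupOf]
  rw [← Nat.card_congr (Subgroup.subgroupOfEquivOfLe
      (inf_le_left : P ⊓ MulAction.stabilizer (Equiv.Perm (Fin 1782)) q ≤ P)).toEquiv,
    e, ← MulAction.index_stabilizer, mul_comm]
  exact Subgroup.card_mul_index _

/-- The block of a cell. -/
noncomputable def blkOf (c : ℕ) : ℕ := [0, 1, 2, 3, 2, 1].getD c 0

/-- The block of a point of the suborbit. -/
noncomputable def blkR (x : ℕ) : ℕ := blkOf (cellC x)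

/-- A representative of a block. -/
noncomputable def repR (j : ℕ) : Fin 1782 := fP ⟨j % 6, Nat.mod_lt _ (by norm_num)⟩

theorem blkR_join : (∀ c : Fin 6, (Nat.beq (fPts.getD (blkOf c) 0) (fPts.getD c 0) ||
    Nat.beq (nimg 15 (fPts.getD (blkOf c) 0)) (fPts.getD c 0)) = true ∧ blkOf c < 4) ∧
    Nat.beq (nimg 15 1) 1 = true := by
  decide +kernel

theorem blkR_spec {x : Fin 1782} (hx : isR x = true) :
    blkR x < 4 ∧ x ∈ MulAction.orbit ↥P1 (repR (blkR x)) := by
  obtain ⟨h, hu, e⟩ := cell_spec hx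
  have hj := blkR_join.1 ⟨cellC x, h⟩
  refine ⟨hj.2, ?_⟩
  have hs : nel 15 ∈ P1 := mem_P1.2 ⟨nel_mem _, Fin.ext (by
    rw [nel_val (by norm_num)]
    exact Nat.eq_of_beq_eq_true blkR_join.2)⟩
  have hu' : uel (cellU x) ∈ P1 := (Subgroup.mem_inf.1 (U_le_Bflag ⟨_, hu, rfl⟩)).1
  have h6 : blkR x % 6 = blkOf (cellC x) := Nat.mod_eq_of_lt (by
    show blkOf (cellC x) < 6
    have := hj.2
    simp only at this
    omega)
  have h1 := hj.1
  rw [Bool.or_eq_true, Nat.beq_eq, Nat.beq_eq] at h1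
  rcases h1 with h1 | h1
  · refine ⟨⟨_, hu'⟩, ?_⟩
    show uel (cellU x) • repR (blkR x) = x
    rw [show repR (blkR x) = fP ⟨cellC x, h⟩ from Fin.ext (by
      show fPts.getD (blkR x % 6) 0 = _
      rw [h6]; exact h1), e]
  · refine ⟨⟨_, mul_mem hu' hs⟩, ?_⟩
    show (uel (cellU x) * nel 15) • repR (blkR x) = x
    rw [mul_smul, show nel 15 • repR (blkR x) = fP ⟨cellC x, h⟩ from Fin.ext (by
      rw [Equiv.Perm.smul_def, nel_val (by norm_num)]
      show nimg 15 (fPts.getD (blkR x % 6) 0) = _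
      rw [h6]; exact h1), e]

/-- The unique blocks of the right sizes. -/
theorem blockR_sizes : ∀ b0 b1 b2 b3 : Bool,
    (!([320, 352, 384].contains (blockCount 1782 isR blkR [b0, b1, b2, b3])) ||
      ([b0, b1, b2, b3] == [false, false, true, false] &&
        Nat.beq (blockCount 1782 isR blkR [b0, b1, b2, b3]) 320)) = true := by
  decide +kernel

/-- The index of a line in its cell. -/
noncomputable def lineU (k : ℕ) : ℕ := cellLT.get 16 k / 16

/-- The cell of a line. -/
noncomputable def lineC (k : ℕ) : ℕ := cellLT.get 16 k % 16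

/-- The block of a line. -/
noncomputable def blkL (k : ℕ) : ℕ := blkOf (lineC k)

/-- A representative of a block. -/
noncomputable def repL (j : ℕ) : ℕ := fLines.getD ([0, 1, 4, 3].getD j 0) 0

/-- The line lies in its cell. -/
noncomputable def lineCellOK (k : ℕ) : Bool :=
  Nat.blt (lineU k) 4096 && Nat.blt (lineC k) 6 &&
    (List.range 5).all fun i =>
      lineB k (uimg (lineU k) (linePt (fLines.getD (lineC k) 0) i))

theorem line_cell_block : allB (fun k => Nat.ble 1365 k || lineCellOK k) 11 0 = true := by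
  decide +kernel

theorem blkL_join : (∀ c : Fin 6, blkOf c < 4 ∧ fLines.getD c 0 < 1365 ∧
    repL (blkOf c) < 1365 ∧ (Nat.beq (repL (blkOf c)) (fLines.getD c 0) ||
      (List.range 5).all fun i =>
        lineB (fLines.getD c 0) (nimg 16 (linePt (repL (blkOf c)) i))) = true) ∧
    ((List.range 5).all fun i => lineB 2 (nimg 16 (linePt 2 i))) = true := by
  decide +kernel

theorem s2_mem : nel 16 ∈ P2 := by
  refine mem_P2_smul.2 ⟨nel_mem _, ?_⟩
  rw [line0_eq]
  refine lineSet_image_of_subset (by norm_num) (by norm_num) fun i => ?_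
  rw [nel_val (by norm_num)]
  exact List.all_eq_true.1 blkL_join.2 i (List.mem_range.2 i.2)

theorem blkL_spec (k : Fin 1365) :
    blkL k < 4 ∧ lineSet k ∈ MulAction.orbit ↥P2 (lineSet (repL (blkL k))) := by
  have h := allB_spec_zero line_cell_block (by norm_num : 1365 ≤ 2 ^ 11) k.2
  rw [Bool.or_eq_true] at h
  have h := h.resolve_left fun hc => absurd (Nat.le_of_ble_eq_true hc) (not_le.2 k.2)
  simp only [lineCellOK, Bool.and_eq_true, List.all_eq_true, List.mem_range] at h
  have hu : lineU k < 4096 := Nat.le_of_ble_eq_true h.1.1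
  obtain ⟨hb, hf, hr, hj⟩ := blkL_join.1 ⟨lineC k, Nat.le_of_ble_eq_true h.1.2⟩
  simp only at hb hf hr hj
  refine ⟨hb, ?_⟩
  have hu' : uel (lineU k) ∈ P2 := (Subgroup.mem_inf.1 (U_le_Bflag ⟨_, hu, rfl⟩)).2
  have e : uel (lineU k) • lineSet (fLines.getD (lineC k) 0) = lineSet k :=
    lineSet_image_of_subset hf k.2 fun i => by rw [uel_val]; exact h.2 i i.2
  rw [Bool.or_eq_true, Nat.beq_eq] at hj
  rcases hj with hj | hj
  · exact ⟨⟨_, hu'⟩, by show uel (lineU k) • lineSet (repL (blkOf (lineC k))) = _; rw [hj, e]⟩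
  · refine ⟨⟨_, mul_mem hu' s2_mem⟩, ?_⟩
    show (uel (lineU k) * nel 16) • lineSet (repL (blkOf (lineC k))) = _
    rw [mul_smul, show nel 16 • lineSet (repL (blkOf (lineC k))) =
      lineSet (fLines.getD (lineC k) 0) from lineSet_image_of_subset hr hf fun i => by
        rw [nel_val (by norm_num)]; exact List.all_eq_true.1 hj i (List.mem_range.2 i.2), e]

theorem blockL_sizes : ∀ b0 b1 b2 b3 : Bool,
    (!([320, 352, 384].contains (blockCount 1365 (fun _ => true) blkL [b0, b1, b2, b3])) ||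
      ([b0, b1, b2, b3] == [false, false, true, false] &&
        Nat.beq (blockCount 1365 (fun _ => true) blkL [b0, b1, b2, b3]) 320)) = true := by
  decide +kernel

end Cfsg.Agent.SuzRank.Para
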