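import Cfsg.Agent.SuzRank.ParaLines
import Cfsg.Agent.SuzRank.ParaData
import Cfsg.Agent.SuzRank.UGroup

/-!
Orbits of the group fixing `0` on points, lines and flags; orders of the parabolic subgroups.
-/

set_option autoImplicit false
set_option maxRecDepth 100000

namespace Cfsg.Agent.SuzRank.Para

open Cfsg.Agent.CosetCert
open scoped Pointwise

/-- The representative of place `i` of line `k`. -/
noncomputable def flagU (k i : ℕ) : ℕ := flagT.get 16 (5 * k + i) / 16

/-- The monomial part of the representative. -/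
noncomputable def flagC (k i : ℕ) : ℕ := flagT.get 16 (5 * k + i) % 16

/-- The table of the representative. -/
noncomputable def fimg (k i x : ℕ) : ℕ := uimg (flagU k i) (nimg (17 + flagC k i) x)

/-- The representative maps the base flag to the flag. -/
noncomputable def flagOK (n : ℕ) : Bool :=
  Nat.blt (flagU (n / 5) (n % 5)) 4096 && Nat.blt (flagC (n / 5) (n % 5)) 12 &&
    Nat.beq (fimg (n / 5) (n % 5) 1) (linePt (n / 5) (n % 5)) &&
    (List.range 5).all fun j => lineB (n / 5) (fimg (n / 5) (n % 5) (linePt 2 j))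

theorem flag_block0 : allB (fun n => Nat.ble 6825 n || flagOK n) 11 0 = true := by decide +kernel

theorem flag_block1 : allB (fun n => Nat.ble 6825 n || flagOK n) 11 2048 = true := by decide +kernel

theorem flag_block2 : allB (fun n => Nat.ble 6825 n || flagOK n) 11 4096 = true := by decide +kernel

theorem flag_block3 : allB (fun n => Nat.ble 6825 n || flagOK n) 11 6144 = true := by decide +kernel

theorem flag_all {n : ℕ} (hn : n < 6825) : flagOK n = true := by
  have key : allB (fun n => Nat.ble 6825 n || flagOK n) 11 (n / 2048 * 2048) = true := by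
    have : n / 2048 < 4 := by omega
    interval_cases h : n / 2048
    exacts [flag_block0, flag_block1, flag_block2, flag_block3]
  have h := allB_spec key n (by omega) (by omega)
  rw [Bool.or_eq_true] at h
  exact h.resolve_left fun hc => absurd (Nat.le_of_ble_eq_true hc) (not_le.2 hn)

/-- The representative of a flag. -/
noncomputable def fel (k i : ℕ) : Equiv.Perm (Fin 1782) :=
  uel (flagU k i) * nel (17 + flagC k i)

theorem fel_mem (k i : ℕ) : fel k i ∈ Gam := mul_mem (uel_mem _) (nel_mem _)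

theorem fel_spec {k i : ℕ} (hk : k < 1365) (hi : i < 5) :
    flagU k i < 4096 ∧ flagC k i < 12 ∧ (fel k i • p1 : Fin 1782) = linePtF k hk ⟨i, hi⟩ ∧
      fel k i • line0 = lineSet k := by
  have h := flag_all (n := 5 * k + i) (by omega)
  rw [flagOK, show (5 * k + i) / 5 = k by omega, show (5 * k + i) % 5 = i by omega] at h
  simp only [Bool.and_eq_true, Nat.beq_eq, List.all_eq_true, List.mem_range] at h
  obtain ⟨⟨⟨hu, hc⟩, hp⟩, hl⟩ := h
  have hu' : flagU k i < 4096 := Nat.le_of_ble_eq_true hu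
  have hc' : flagC k i < 12 := Nat.le_of_ble_eq_true hc
  have hval : ∀ x : Fin 1782, (fel k i x : ℕ) = fimg k i x := fun x => by
    rw [fel, Equiv.Perm.mul_apply, uel_val, nel_val (by omega)]
    rfl
  refine ⟨hu', hc', Fin.ext ?_, ?_⟩
  · rw [Equiv.Perm.smul_def, hval]
    exact hp
  · rw [line0_eq]
    refine lineSet_image_of_subset (by norm_num) hk fun j => ?_
    rw [hval]
    exact hl j j.2

/-- The generators of the Borel subgroup fix the base flag. -/
theorem borel_gens : ∀ m : Fin 14, Nat.beq (nimg m 1) 1 = true ∧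
    ((List.range 5).all fun j => lineB 2 (nimg m (linePt 2 j))) = true := by
  decide +kernel

theorem nel_flag {m : ℕ} (hm : m < 14) : nel m ∈ Bflag := by
  have h := borel_gens ⟨m, hm⟩
  refine Subgroup.mem_inf.2 ⟨mem_P1.2 ⟨nel_mem _, Fin.ext ?_⟩, mem_P2_smul.2 ⟨nel_mem _, ?_⟩⟩
  · rw [nel_val (by omega)]
    exact Nat.eq_of_beq_eq_true h.1
  · rw [line0_eq]
    refine lineSet_image_of_subset (by norm_num) (by norm_num) fun j => ?_
    rw [nel_val (by omega)]
    exact List.all_eq_true.1 h.2 j (List.mem_range.2 j.2)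

theorem U_le_Bflag : U ≤ Bflag := by
  rintro _ ⟨i, -, rfl⟩
  have : ∀ n ≤ 12, uelN n i ∈ Bflag := fun n => by
    induction n with
    | zero => exact fun _ => one_mem _
    | succ n ih =>
      intro hn
      rw [uelN]
      refine mul_mem ?_ (ih (by omega))
      cases i.testBit n
      exacts [one_mem _, nel_flag (by omega)]
  exact this 12 le_rfl

theorem T_le_Bflag : T ≤ Bflag := by
  rintro _ ⟨a, b, rfl⟩
  exact mul_mem (pow_mem (nel_flag (by norm_num)) _) (pow_mem (nel_flag (by norm_num)) _)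

theorem U_inf_T {g : Equiv.Perm (Fin 1782)} (hu : g ∈ U) (ht : g ∈ T) : g = 1 := by
  have h1 : orderOf g ∣ 4096 := card_U ▸ Subgroup.orderOf_dvd_natCard _ hu
  have h2 : orderOf g ∣ 9 := card_T ▸ Subgroup.orderOf_dvd_natCard _ ht
  have h3 := Nat.dvd_gcd h1 h2
  norm_num at h3
  exact h3

/-- A point of the suborbit of length 1365, as a test. -/
noncomputable def isR (x : ℕ) : Bool := !(Nat.beq x 0) && !(isQ x)

theorem isR_Gam {g : Equiv.Perm (Fin 1782)} (hg : g ∈ Gam) (x : Fin 1782) :
    isR (g x) = isR x := by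
  rw [isR, isR, isQ_Gam hg x]
  congr 2
  have h0 : g pz = pz := Gam_fix hg
  refine Bool.eq_iff_iff.2 ?_
  rw [Nat.beq_eq, Nat.beq_eq]
  constructor
  · intro h
    have : g x = g pz := by rw [h0]; exact Fin.ext h
    exact congrArg Fin.val (g.injective this)
  · intro h
    have : x = pz := Fin.ext h
    rw [this, h0]

/-- The index in a cell of a point of the suborbit. -/
noncomputable def cellU (x : ℕ) : ℕ := cellRT.get 16 x / 16

/-- The cell of a point of the suborbit. -/
noncomputable def cellC (x : ℕ) : ℕ := cellRT.get 16 x % 16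

/-- Every point of the suborbit lies in its cell; the fixed points are monomial images of `1`. -/
noncomputable def cellOK (x : ℕ) : Bool :=
  !(isR x) || (Nat.blt (cellU x) 4096 && Nat.blt (cellC x) 6 &&
    Nat.beq (uimg (cellU x) (fPts.getD (cellC x) 0)) x)

theorem cell_block : allB (fun x => Nat.ble 1782 x || cellOK x) 11 0 = true := by decide +kernel

theorem fPts_facts : ∀ c : Fin 6, (isR (fPts.getD c 0) = true ∧ fPts.getD c 0 < 1782) ∧
    ((List.range 12).any fun w => Nat.beq (nimg (17 + w) 1) (fPts.getD c 0)) = true := by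
  decide +kernel

/-- A fixed point of the torus in the suborbit. -/
noncomputable def fP (c : Fin 6) : Fin 1782 := ⟨fPts.getD c 0, (fPts_facts c).1.2⟩

theorem fP_zero : fP 0 = p1 := rfl

theorem cell_spec {x : Fin 1782} (hx : isR x = true) :
    ∃ (h : cellC x < 6), cellU x < 4096 ∧ uel (cellU x) • fP ⟨cellC x, h⟩ = x := by
  have h := allB_spec_zero cell_block (by norm_num : 1782 ≤ 2 ^ 11) x.2
  rw [Bool.or_eq_true] at h
  have h := h.resolve_left fun hc => absurd (Nat.le_of_ble_eq_true hc) (not_le.2 x.2)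
  rw [cellOK, hx] at h
  simp only [Bool.not_true, Bool.false_or, Bool.and_eq_true, Nat.beq_eq] at h
  refine ⟨Nat.le_of_ble_eq_true h.1.2, Nat.le_of_ble_eq_true h.1.1, Fin.ext ?_⟩
  rw [Equiv.Perm.smul_def, uel_val]
  exact h.2

theorem mem_orbit_p1 {x : Fin 1782} :
    x ∈ MulAction.orbit ↥Gam p1 ↔ isR x = true := by
  constructor
  · rintro ⟨⟨g, hg⟩, rfl⟩
    show isR (g p1 : Fin 1782) = true
    rw [isR_Gam hg]
    exact (fPts_facts 0).1.1
  · intro hx
    obtain ⟨h, hu, e⟩ := cell_spec hx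
    obtain ⟨w, hw, hwe⟩ := List.any_eq_true.1 (fPts_facts ⟨cellC x, h⟩).2
    refine ⟨⟨uel (cellU x) * nel (17 + w), mul_mem (uel_mem _) (nel_mem _)⟩, ?_⟩
    show (uel (cellU x) * nel (17 + w)) • p1 = x
    rw [mul_smul]
    conv_rhs => rw [← e]
    congr 1
    refine Fin.ext ?_
    rw [Equiv.Perm.smul_def, nel_val (by have := List.mem_range.1 hw; omega)]
    exact Nat.eq_of_beq_eq_true hwe

theorem isR_count : (List.range 1782).countP isR = 1365 := by decide +kernel

theorem card_countP {n : ℕ} (f : ℕ → Bool) :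
    Nat.card {x : Fin n // f x = true} = (List.range n).countP f := by
  rw [Nat.card_eq_fintype_card, Fintype.card_subtype, List.countP_eq_length_filter,
    ← List.toFinset_card_of_nodup (List.nodup_range.filter _)]
  refine Finset.card_bij (fun x _ => (x : ℕ)) (fun x hx => ?_) (fun a _ b _ h => Fin.ext h)
    fun y hy => ?_
  · simp only [Finset.mem_filter, Finset.mem_univ, true_and] at hx
    simp [hx]
  · simp only [List.mem_toFinset, List.mem_filter, List.mem_range] at hy
    exact ⟨⟨y, hy.1⟩, by simp [hy.2], rfl⟩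

theorem card_orbit_p1 : (MulAction.orbit ↥Gam p1).ncard = 1365 := by
  rw [← Nat.card_coe_set_eq, ← isR_count, ← card_countP]
  exact Nat.card_congr (Equiv.subtypeEquivRight fun x => mem_orbit_p1)

theorem card_stab {α : Type*} [MulAction (Equiv.Perm (Fin 1782)) α] [Finite α] (x : α)
    (hcard : Nat.card ↥Gam = 251596800) {P : Subgroup (Equiv.Perm (Fin 1782))}
    (hP : ∀ g, g ∈ P ↔ g ∈ Gam ∧ g • x = x) :
    (MulAction.orbit ↥Gam x).ncard * Nat.card ↥P = 251596800 := by
  have e : P.subgroupOf Gam = MulAction.stabilizer ↥Gam x := by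
    ext ⟨g, hg⟩
    rw [Subgroup.mem_subgroupOf, MulAction.mem_stabilizer_iff, hP]
    exact ⟨fun h => h.2, fun h => ⟨hg, h⟩⟩
  have hle : P ≤ Gam := fun g hg => ((hP g).1 hg).1
  rw [← Nat.card_congr (Subgroup.subgroupOfEquivOfLe hle).toEquiv, e, ← MulAction.index_stabilizer,
    ← hcard, mul_comm]
  exact Subgroup.card_mul_index _

theorem card_P1 (hcard : Nat.card ↥Gam = 251596800) : Nat.card ↥P1 = 184320 := by
  have h := card_stab p1 hcard (P := P1) fun g => mem_P1
  rw [card_orbit_p1] at h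
  omega

theorem orbit_line0 :
    MulAction.orbit ↥Gam line0 = (fun k : Fin 1365 => lineSet k) '' Set.univ := by
  refine Set.ext fun s => ⟨?_, ?_⟩
  · rintro ⟨⟨g, hg⟩, rfl⟩
    obtain ⟨k, hk, e⟩ := Gam_line hg (show 2 < 1365 by norm_num)
    refine ⟨⟨k, hk⟩, trivial, ?_⟩
    show lineSet k = g • line0
    rw [line0_eq, e]
  · rintro ⟨k, -, rfl⟩
    exact ⟨⟨fel k 0, fel_mem _ _⟩, (fel_spec k.2 (by norm_num)).2.2.2⟩

theorem card_orbit_line0 : (MulAction.orbit ↥Gam line0).ncard = 1365 := by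
  rw [orbit_line0, Set.ncard_image_of_injective _ fun a b h =>
    Fin.ext (lineSet_injective a.2 b.2 h)]
  simp

theorem card_P2 (hcard : Nat.card ↥Gam = 251596800) : Nat.card ↥P2 = 184320 := by
  have h := card_stab line0 hcard (P := P2) fun g => mem_P2_smul
  rw [card_orbit_line0] at h
  omega

theorem mem_Bflag {g : Equiv.Perm (Fin 1782)} :
    g ∈ Bflag ↔ g ∈ Gam ∧ g • (p1, line0) = (p1, line0) := by
  rw [Bflag, Subgroup.mem_inf, mem_P1, mem_P2_smul, Prod.smul_mk, Prod.mk.injEq,
    Equiv.Perm.smul_def]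
  tauto

theorem card_orbit_flag : 6825 ≤ (MulAction.orbit ↥Gam (p1, line0)).ncard := by
  let f : Fin 1365 × Fin 5 → Fin 1782 × Finset (Fin 1782) := fun q =>
    (linePtF q.1 q.1.2 q.2, lineSet q.1)
  have hinj : Function.Injective f := by
    rintro ⟨k, i⟩ ⟨k', i'⟩ h
    simp only [f, Prod.mk.injEq] at h
    obtain rfl : k = k' := Fin.ext (lineSet_injective k.2 k'.2 h.2)
    exact Prod.ext rfl (linePtF_injective k.2 h.1)
  have hsub : Set.range f ⊆ MulAction.orbit ↥Gam (p1, line0) := by
    rintro _ ⟨⟨k, i⟩, rfl⟩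
    obtain ⟨-, -, h1, h2⟩ := fel_spec k.2 i.2
    exact ⟨⟨fel k i, fel_mem _ _⟩, Prod.ext h1 h2⟩
  calc 6825 = (Set.range f).ncard := by
        rw [Set.ncard_range_of_injective hinj]; simp
    _ ≤ _ := Set.ncard_le_ncard hsub (Set.toFinite _)

theorem UT_le : ∀ u ∈ U, ∀ t ∈ T, u * t ∈ Bflag :=
  fun _ hu _ ht => mul_mem (U_le_Bflag hu) (T_le_Bflag ht)

/-- The flag stabiliser is `U * T`. -/
theorem Bflag_eq (hcard : Nat.card ↥Gam = 251596800) :
    Nat.card ↥Bflag = 36864 ∧ ∀ g ∈ Bflag, ∃ u ∈ U, ∃ t ∈ T, g = u * t := by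
  have h := card_stab (p1, line0) hcard (P := Bflag) fun g => mem_Bflag
  have hle : Nat.card ↥Bflag ≤ 36864 := by
    have h2 := Nat.mul_le_mul_right (Nat.card ↥Bflag) card_orbit_flag
    rw [h] at h2
    omega
  let f : ↥U × ↥T → ↥Bflag := fun q => ⟨q.1 * q.2, UT_le _ q.1.2 _ q.2.2⟩
  have hinj : Function.Injective f := by
    rintro ⟨⟨u, hu⟩, ⟨t, ht⟩⟩ ⟨⟨u', hu'⟩, ⟨t', ht'⟩⟩ h
    have h' : u * t = u' * t' := congrArg Subtype.val h
    have h1 : u'⁻¹ * u = t' * t⁻¹ := by
      rw [eq_mul_inv_iff_mul_eq, mul_assoc, h']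
      group
    have h2 := U_inf_T (mul_mem (inv_mem hu') hu) (h1 ▸ mul_mem ht' (inv_mem ht))
    obtain rfl : u = u' := (inv_mul_eq_one.1 h2).symm
    obtain rfl : t = t' := mul_left_cancel h'
    rfl
  have hcardUT : Nat.card (↥U × ↥T) = 36864 := by rw [Nat.card_prod, card_U, card_T]
  have heq : Nat.card ↥Bflag = 36864 :=
    le_antisymm hle (hcardUT ▸ Nat.card_le_card_of_injective f hinj)
  refine ⟨heq, fun g hg => ?_⟩
  obtain ⟨⟨u, t⟩, hut⟩ :=
    ((Nat.bijective_iff_injective_and_card f).2 ⟨hinj, hcardUT.trans heq.symm⟩).2 ⟨g, hg⟩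
  exact ⟨u, u.2, t, t.2, (congrArg Subtype.val hut).symm⟩

end Cfsg.Agent.SuzRank.Para
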