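import Cfsg.Agent.SuzRank.ParaDefs
import Cfsg.Agent.SporB.SuzG.Data

/-!
The lines of the suborbit of length 1365 (five points each) and their permutation by the group
fixing `0`.
-/

set_option autoImplicit false
set_option maxRecDepth 100000

namespace Cfsg.Agent.SuzRank.Para

open Cfsg.Agent.CosetCert
open scoped Pointwise

/-- Point `i` of line `k`. -/
noncomputable def linePt (k i : ℕ) : ℕ := SporB.SuzukiHex.linesT.get 16 (5 * k + i)

/-- The points of line `k`, as a test. -/
noncomputable def lineB (k x : ℕ) : Bool :=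
  Nat.beq x (linePt k 0) || Nat.beq x (linePt k 1) || Nat.beq x (linePt k 2) ||
    Nat.beq x (linePt k 3) || Nat.beq x (linePt k 4)

/-- The points of line `k`. -/
noncomputable def lineSet (k : ℕ) : Finset (Fin 1782) :=
  Finset.univ.filter fun x => lineB k x = true

theorem mem_lineSet {k : ℕ} {x : Fin 1782} : x ∈ lineSet k ↔ lineB k x = true := by
  simp [lineSet]

theorem lineB_iff {k x : ℕ} : lineB k x = true ↔ ∃ i < 5, x = linePt k i := by
  simp only [lineB, Bool.or_eq_true, Nat.beq_eq]
  constructor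
  · rintro ((((h | h) | h) | h) | h)
    exacts [⟨0, by norm_num, h⟩, ⟨1, by norm_num, h⟩, ⟨2, by norm_num, h⟩, ⟨3, by norm_num, h⟩,
      ⟨4, by norm_num, h⟩]
  · rintro ⟨i, hi, h⟩
    interval_cases i <;> simp [h]

/-- Five distinct points. -/
noncomputable def lineOK (k : ℕ) : Bool :=
  Nat.blt (linePt k 0) 1782 && Nat.blt (linePt k 1) 1782 && Nat.blt (linePt k 2) 1782 &&
    Nat.blt (linePt k 3) 1782 && Nat.blt (linePt k 4) 1782 &&
  !(Nat.beq (linePt k 0) (linePt k 1) || Nat.beq (linePt k 0) (linePt k 2) ||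
    Nat.beq (linePt k 0) (linePt k 3) || Nat.beq (linePt k 0) (linePt k 4) ||
    Nat.beq (linePt k 1) (linePt k 2) || Nat.beq (linePt k 1) (linePt k 3) ||
    Nat.beq (linePt k 1) (linePt k 4) || Nat.beq (linePt k 2) (linePt k 3) ||
    Nat.beq (linePt k 2) (linePt k 4) || Nat.beq (linePt k 3) (linePt k 4))

theorem line_block : allB (fun k => Nat.ble 1365 k || lineOK k) 11 0 = true := by decide +kernel

theorem linePt_lt {k i : ℕ} (hk : k < 1365) (hi : i < 5) : linePt k i < 1782 := by
  have h := allB_spec_zero line_block (by norm_num : 1365 ≤ 2 ^ 11) hk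
  rw [Bool.or_eq_true] at h
  have h := h.resolve_left fun hc => absurd (Nat.le_of_ble_eq_true hc) (not_le.2 hk)
  simp only [lineOK, Bool.and_eq_true, Nat.blt_eq] at h
  interval_cases i <;> omega

/-- A point of a line. -/
noncomputable def linePtF (k : ℕ) (hk : k < 1365) (i : Fin 5) : Fin 1782 :=
  ⟨linePt k i, linePt_lt hk i.2⟩

theorem linePtF_injective {k : ℕ} (hk : k < 1365) : Function.Injective (linePtF k hk) := by
  have h := allB_spec_zero line_block (by norm_num : 1365 ≤ 2 ^ 11) hk
  rw [Bool.or_eq_true] at h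
  have h := h.resolve_left fun hc => absurd (Nat.le_of_ble_eq_true hc) (not_le.2 hk)
  rw [lineOK, Bool.and_eq_true, Bool.not_eq_true'] at h
  have h2 := h.2
  simp only [Bool.or_eq_false_iff] at h2
  intro a b hab
  have e : linePt k a = linePt k b := congrArg Fin.val hab
  fin_cases a <;> fin_cases b <;> first
    | rfl
    | (exfalso; dsimp only at e; simp_all [Nat.beq_refl])

theorem lineSet_eq_image {k : ℕ} (hk : k < 1365) :
    lineSet k = Finset.univ.image (linePtF k hk) := by
  ext x
  rw [mem_lineSet, lineB_iff, Finset.mem_image]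
  constructor
  · rintro ⟨i, hi, h⟩
    exact ⟨⟨i, hi⟩, Finset.mem_univ _, Fin.ext h.symm⟩
  · rintro ⟨i, -, rfl⟩
    exact ⟨i, i.2, rfl⟩

theorem card_lineSet {k : ℕ} (hk : k < 1365) : (lineSet k).card = 5 := by
  rw [lineSet_eq_image hk, Finset.card_image_of_injective _ (linePtF_injective hk)]
  simp

theorem line0_eq : line0 = lineSet 2 := by
  have h : ∀ x : Fin 1782, lineB 2 x = decide ((x : ℕ) ∈ [1, 16, 30, 68, 260]) := by
    decide +kernel
  ext x
  rw [mem_lineSet, h x]
  simp [line0, Fin.ext_iff]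

theorem card_line0 : line0.card = 5 := by
  rw [line0_eq]
  exact card_lineSet (by norm_num)

/-- The second point of a line is on no other line through the first one. -/
noncomputable def sepOK (k : ℕ) : Bool :=
  (List.range 5).all (fun i =>
    let k' := SporB.SuzukiHex.thruT.get 16 (5 * linePt k 0 + i)
    Nat.beq k' k || !(lineB k' (linePt k 1))) &&
  (List.range 5).all (fun j => (List.range 5).any fun i =>
    Nat.beq (SporB.SuzukiHex.thruT.get 16 (5 * linePt k j + i)) k)

theorem sep_block : allB (fun k => Nat.ble 1365 k || sepOK k) 11 0 = true := by decide +kernel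

theorem lineSet_injective {k k' : ℕ} (hk : k < 1365) (hk' : k' < 1365)
    (h : lineSet k = lineSet k') : k = k' := by
  have hs : ∀ m < 1365, sepOK m = true := fun m hm => by
    have h := allB_spec_zero sep_block (by norm_num : 1365 ≤ 2 ^ 11) hm
    rw [Bool.or_eq_true] at h
    exact h.resolve_left fun hc => absurd (Nat.le_of_ble_eq_true hc) (not_le.2 hm)
  have h1 := hs k hk
  have h2 := hs k' hk'
  simp only [sepOK, Bool.and_eq_true, List.all_eq_true, List.mem_range, List.any_eq_true,
    Nat.beq_eq, Bool.or_eq_true, Bool.not_eq_true'] at h1 h2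
  have hmem : ∀ i < 5, lineB k' (linePt k i) = true := fun i hi => by
    have : (⟨linePt k i, linePt_lt hk hi⟩ : Fin 1782) ∈ lineSet k :=
      mem_lineSet.2 (lineB_iff.2 ⟨i, hi, rfl⟩)
    rw [h] at this
    exact mem_lineSet.1 this
  obtain ⟨j, hj, hje⟩ := lineB_iff.1 (hmem 0 (by norm_num))
  obtain ⟨i, hi, hik⟩ := h2.2 j hj
  rw [← hje] at hik
  rcases h1.1 i hi with hc | hc
  · exact hc.symm.trans hik
  · rw [hik, hmem 1 (by norm_num)] at hc
    simp at hc

/-- The line onto which generator `j` maps line `k`. -/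
noncomputable def lineGen (j k : ℕ) : ℕ :=
  (SporB.SuzukiHex.genT.getD j (.leaf 0)).get 16 k

theorem lineGen_ok : ∀ j : Fin 6, allB (fun k => Nat.ble 1365 k || (Nat.blt (lineGen j k) 1365 &&
    (List.range 5).all fun i =>
      lineB (lineGen j k) (SuzukiG.data.look ((j : ℕ) + 1) (linePt k i)))) 11 0 = true := by
  decide +kernel

theorem lineSet_image_of_subset {g : Equiv.Perm (Fin 1782)} {k k' : ℕ} (hk : k < 1365)
    (hk' : k' < 1365) (h : ∀ i : Fin 5, lineB k' (g (linePtF k hk i)) = true) :
    g • lineSet k = lineSet k' := by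
  refine Finset.eq_of_subset_of_card_le (fun y hy => ?_) ?_
  · obtain ⟨x, hx, rfl⟩ := Finset.mem_smul_finset.1 hy
    rw [lineSet_eq_image hk, Finset.mem_image] at hx
    obtain ⟨i, -, rfl⟩ := hx
    exact mem_lineSet.2 (h i)
  · rw [Finset.card_smul_finset, card_lineSet hk, card_lineSet hk']

theorem gperm_line (j : Fin 6) {k : ℕ} (hk : k < 1365) :
    ∃ k' < 1365, gperm j.castSucc • lineSet k = lineSet k' := by
  have h := allB_spec_zero (lineGen_ok j) (by norm_num : 1365 ≤ 2 ^ 11) hk
  rw [Bool.or_eq_true] at h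
  have h := h.resolve_left fun hc => absurd (Nat.le_of_ble_eq_true hc) (not_le.2 hk)
  rw [Bool.and_eq_true, List.all_eq_true] at h
  have hlt : lineGen j k < 1365 := Nat.le_of_ble_eq_true h.1
  refine ⟨_, hlt, lineSet_image_of_subset hk hlt fun i => ?_⟩
  rw [gperm_val]
  exact h.2 i (List.mem_range.2 i.2)

/-- The group fixing `0` permutes the lines. -/
theorem Gam_line {g : Equiv.Perm (Fin 1782)} (hg : g ∈ Gam) {k : ℕ} (hk : k < 1365) :
    ∃ k' < 1365, g • lineSet k = lineSet k' := by
  rw [Gam, ← Subgroup.mem_toSubmonoid, Subgroup.closure_toSubmonoid_of_finite] at hg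
  induction hg using Submonoid.closure_induction generalizing k with
  | one => exact ⟨k, hk, one_smul _ _⟩
  | mul a b _ _ ha hb =>
    obtain ⟨k1, hk1, e1⟩ := hb hk
    obtain ⟨k2, hk2, e2⟩ := ha hk1
    exact ⟨k2, hk2, by rw [mul_smul, e1, e2]⟩
  | mem g hg =>
    obtain ⟨j, rfl⟩ := hg
    exact gperm_line j hk

/-- The stabiliser of the base line. -/
theorem mem_P2_smul {g : Equiv.Perm (Fin 1782)} : g ∈ P2 ↔ g ∈ Gam ∧ g • line0 = line0 := by
  rw [mem_P2]
  refine and_congr_right fun _ => ⟨fun h => ?_, fun h x => ?_⟩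
  · ext y
    rw [← Finset.inv_smul_mem_iff, Equiv.Perm.smul_def, ← h]
    simp
  · conv_lhs => rw [← h]
    rw [← Finset.inv_smul_mem_iff, Equiv.Perm.smul_def]
    simp

end Cfsg.Agent.SuzRank.Para
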