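import Cfsg.Agent.SuzRank.Perms
import Cfsg.Agent.SuzRank.SigData
import Cfsg.Agent.SuzRank.UData

/-!
Finite checks on the signature table of the orbital graph of valency 416.
-/

set_option autoImplicit false
set_option maxRecDepth 100000

namespace Cfsg.Agent.SuzRank

open Cfsg.Agent.CosetCert

/-- The suborbit of length 416, as a test. -/
noncomputable def isQ (x : ℕ) : Bool := Nat.beq (qT.get 8 x) 1

theorem isQ_gen : ∀ j : Fin 6, allB (fun x => Nat.ble 1782 x ||
    (isQ (SuzukiG.data.look ((j : ℕ) + 1) x) == isQ x)) 11 0 = true := by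
  decide +kernel

/-- Evaluation of a word in all seven generators. -/
noncomputable def evalW7 (w : List ℕ) (x : ℕ) : ℕ :=
  List.rec (motive := fun _ => ℕ) x (fun l _ ih => SuzukiG.data.look (Nat.add l 1) ih) w

/-- A base point. -/
noncomputable def bpN (i : ℕ) : ℕ := basePts.getD i 0

theorem bp_lt : ∀ i : Fin 29, bpN i < 1782 := by decide +kernel

/-- The signature of a point. -/
noncomputable def sig (x : ℕ) : ℕ := sigT.get 32 x

/-- One bit of the signature table. -/
noncomputable def sigBitOK (i x : ℕ) : Bool :=
  isQ (evalW7 (baseW.getD i []) x) == Nat.testBit (sig x) i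

theorem base_words : baseW.all (fun w => w.all fun l => Nat.blt l 7) = true ∧
    (List.range 29).all (fun i => Nat.beq (evalW7 (baseW.getD i []) (bpN i)) 0) = true := by
  decide +kernel

theorem sig_table0 : (List.range' 0 8).all (fun i =>
    allB (fun x => Nat.ble 1782 x || sigBitOK i x) 11 0) = true := by
  decide +kernel

theorem sig_table1 : (List.range' 8 7).all (fun i =>
    allB (fun x => Nat.ble 1782 x || sigBitOK i x) 11 0) = true := by
  decide +kernel

theorem sig_table2 : (List.range' 15 7).all (fun i =>
    allB (fun x => Nat.ble 1782 x || sigBitOK i x) 11 0) = true := by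
  decide +kernel

theorem sig_table3 : (List.range' 22 7).all (fun i =>
    allB (fun x => Nat.ble 1782 x || sigBitOK i x) 11 0) = true := by
  decide +kernel

theorem sig_table {i : ℕ} (hi : i < 29) :
    allB (fun x => Nat.ble 1782 x || sigBitOK i x) 11 0 = true := by
  by_cases h0 : i < 8
  · exact List.all_eq_true.1 sig_table0 i (List.mem_range'_1.2 ⟨by omega, by omega⟩)
  by_cases h1 : i < 15
  · exact List.all_eq_true.1 sig_table1 i (List.mem_range'_1.2 ⟨by omega, by omega⟩)
  by_cases h2 : i < 22
  · exact List.all_eq_true.1 sig_table2 i (List.mem_range'_1.2 ⟨by omega, by omega⟩)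
  exact List.all_eq_true.1 sig_table3 i (List.mem_range'_1.2 ⟨by omega, by omega⟩)

/-- The points that may be the image of a base point when the earlier ones are fixed. -/
noncomputable def candB (i x : ℕ) : Bool :=
  (Nat.beq i 0 && Nat.beq x 0) || (!(Nat.beq i 0) &&
    (!((basePts.take i).contains x) && Nat.beq (sig x % 2 ^ i) (sig (bpN i) % 2 ^ i)))

theorem cand_count : (List.range 29).all (fun i =>
    Nat.ble ((List.range 1782).countP (candB i)) (baseCnt.getD i 0)) = true := by
  decide +kernel

/-- The points at which an automorphism must be checked. -/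
theorem free_points : (List.range 29).all (fun i => Nat.beq i 0 || dPts.contains (bpN i) ||
    allB (fun x => Nat.ble 1782 x || !(candB i x) || Nat.beq x (bpN i)) 11 0) = true := by
  decide +kernel

theorem base_injective : allB (fun r => Nat.ble 1781 r ||
      Nat.blt (sig (sOrdT.get 16 r) + 2 ^ 29 * (basePts.idxOf (sOrdT.get 16 r) + 1) % (2 ^ 29 * 30))
        (sig (sOrdT.get 16 (r + 1)) +
          2 ^ 29 * (basePts.idxOf (sOrdT.get 16 (r + 1)) + 1) % (2 ^ 29 * 30))) 11 0 = true ∧
    allB (fun x => Nat.ble 1782 x ||
      (Nat.blt (sRkT.get 16 x) 1782 && Nat.beq (sOrdT.get 16 (sRkT.get 16 x)) x)) 11 0 = true := by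
  decide +kernel

theorem bpN_inj : ∀ a b : Fin 29, bpN a = bpN b → a = b := by decide +kernel

theorem sig_lt : ∀ y : Fin 1782, sig y < 2 ^ 29 := by decide +kernel

theorem dPts_base : ∀ d ∈ dPts, ∃ i : Fin 29, bpN i = d := by decide +kernel

end Cfsg.Agent.SuzRank
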