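import Cfsg.Agent.SuzRank.Elems
import Cfsg.Agent.SuzRank.UData
import Cfsg.Agent.SuzRank.UKey

/-!
Finite checks on the tables of the Sylow 2-subgroup and of the torus.
-/

set_option autoImplicit false
set_option maxRecDepth 100000

namespace Cfsg.Agent.SuzRank

open Cfsg.Agent.CosetCert

/-- Its table. -/
noncomputable def uimgN (n : ℕ) : ℕ → ℕ → ℕ :=
  Nat.rec (motive := fun _ => ℕ → ℕ → ℕ) (fun _ x => x)
    (fun m ih i x => cond (i.testBit m) (nimg m (ih i x)) (ih i x)) n

/-- Its table. -/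
noncomputable def uimg (i x : ℕ) : ℕ := uimgN 12 i x

/-- A table of right multiplication. -/
noncomputable def rtN (j i : ℕ) : ℕ := (rtTs.getD j (.leaf 0)).get 16 i

/-- Multiplication of indices, the first `n` digits of the second factor. -/
noncomputable def mulN (n : ℕ) : ℕ → ℕ → ℕ :=
  Nat.rec (motive := fun _ => ℕ → ℕ → ℕ) (fun a _ => a)
    (fun m ih a b => ih (cond (b.testBit m) (rtN m a) a) b) n

/-- Multiplication of indices. -/
noncomputable def mulU (a b : ℕ) : ℕ := mulN 12 a b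

/-- Inversion of indices. -/
noncomputable def invU (a : ℕ) : ℕ := ivT.get 16 a

/-- Its table. -/
noncomputable def timg (k x : ℕ) : ℕ :=
  Nat.rec (motive := fun _ => ℕ) (Nat.rec (motive := fun _ => ℕ) x (fun _ y => nimg 13 y) (k % 3))
    (fun _ y => nimg 12 y) (k / 3)

/-- A table of conjugation by a torus generator. -/
noncomputable def cjN (s i : ℕ) : ℕ := (bif Nat.beq s 0 then cjT0 else cjT1).get 16 i

/-- Images of the determining points. -/
noncomputable def kimg (k i : ℕ) : ℕ := (kimTs.getD k (.leaf 0)).get 16 i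

/-- The images of the determining points as one number. -/
noncomputable def ukey (i : ℕ) : ℕ := (List.range 6).foldl (fun v k => v * 2048 + kimg k i) 0

theorem dPts_lt : ∀ d ∈ dPts, d < 1782 := by decide +kernel

theorem rt_zero : (List.range 12).all (fun m => Nat.beq (rtN m 0) (2 ^ m)) = true := by
  decide +kernel

theorem rt_base : (List.range 12).all (fun m =>
    (Nat.blt (rtN m (2 ^ m)) (2 ^ m) &&
      dPts.all fun d => Nat.beq (uimg (rtN m (2 ^ m)) d) (nimg m (nimg m d))) &&
    (List.range m).all fun p => dPts.all fun d =>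
      Nat.beq (nimg p (nimg m d)) (nimg m (uimg (rtN m (2 ^ p) - 2 ^ m) d))) = true := by
  decide +kernel

theorem rt_low : ∀ m : Fin 12, allB (fun i => (List.range m).all fun j =>
    Nat.beq (rtN j (2 ^ (m : ℕ) + i)) (2 ^ (m : ℕ) + rtN j i)) m 0 = true := by
  decide +kernel

theorem rt_top : ∀ m : Fin 12, allB (fun i =>
    (Nat.ble (2 ^ (m : ℕ)) (rtN m i) && Nat.blt (rtN m i) (2 ^ (m : ℕ) + 2 ^ (m : ℕ))) &&
    Nat.beq (rtN m (2 ^ (m : ℕ) + i))
      (mulN m (rtN m (2 ^ (m : ℕ))) (rtN m i - 2 ^ (m : ℕ)))) m 0 = true := by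
  decide +kernel

theorem rt_conj : ∀ m : Fin 12, (List.range m).all (fun p => allB (fun i =>
    Nat.beq (rtN m (2 ^ p + i)) (2 ^ (m : ℕ) +
      mulN m (rtN m (2 ^ p) - 2 ^ (m : ℕ)) (rtN m i - 2 ^ (m : ℕ)))) p 0) = true := by
  decide +kernel

theorem inv_check : allB (fun i => Nat.blt (invU i) 4096 && Nat.beq (mulU (invU i) i) 0) 12 0 =
    true := by
  decide +kernel

theorem kimg_zero : (List.range 6).all (fun k => Nat.beq (kimg k 0) (dPts.getD k 0)) = true := by
  decide +kernel

theorem kimg_step : ∀ n : Fin 12, allB (fun i => (List.range 6).all fun k =>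
    Nat.beq (kimg k (2 ^ (n : ℕ) + i)) (nimg n (kimg k i))) n 0 = true := by
  decide +kernel

theorem ukey_sorted : allB (fun r => Nat.ble 4095 r ||
      Nat.blt (ukey (uOrdT.get 16 r)) (ukey (uOrdT.get 16 (r + 1)))) 12 0 = true ∧
    allB (fun i => Nat.blt (uRkT.get 16 i) 4096 && Nat.beq (uOrdT.get 16 (uRkT.get 16 i)) i) 12 0 =
      true := by
  decide +kernel

theorem cj_zero : ∀ s : Fin 2, Nat.beq (cjN s 0) 0 = true := by decide +kernel

theorem cj_base : ∀ s : Fin 2, (List.range 12).all (fun n =>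
    Nat.blt (cjN s (2 ^ n)) 4096 && dPts.all fun d =>
      Nat.beq (uimg (cjN s (2 ^ n)) (nimg (12 + s) d)) (nimg (12 + s) (nimg n d))) = true := by
  decide +kernel

theorem cj_step : ∀ (s : Fin 2) (n : Fin 12), allB (fun i =>
    Nat.beq (cjN s (2 ^ (n : ℕ) + i)) (mulU (cjN s (2 ^ (n : ℕ))) (cjN s i))) n 0 = true := by
  decide +kernel

theorem torus_checks :
    dPts.all (fun d => Nat.beq (nimg 12 (nimg 13 d)) (nimg 13 (nimg 12 d)) &&
      (Nat.beq (nimg 12 (nimg 12 (nimg 12 d))) d && Nat.beq (nimg 13 (nimg 13 (nimg 13 d))) d)) = true := by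
  decide +kernel

theorem torus_key : ∀ a b : Fin 9,
    (dPts.all fun d => Nat.beq (timg a d) (timg b d)) = true → a = b := by
  decide +kernel

end Cfsg.Agent.SuzRank
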